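import Mathlib

/-!
# S4648 project, piece KU-C (helper85 for helper1)

Matrix units + Kulshammer's lemma (as a hypothesis) imply that the algebra is free of rank
`n * n` over its centre, generated by the matrix units.
-/

set_option autoImplicit false

namespace Cfsg.Agent.Lib.Helper85.Kuls

universe u v

section

variable {A : Type v} [Ring A]

/-- the `(i, j)` component of `x` with respect to a system of matrix units -/
def kcomp {n : ℕ} (E : Fin n → Fin n → A) (i j : Fin n) (x : A) : A := ∑ k, E k i * x * E j k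

variable {n : ℕ} {E : Fin n → Fin n → A}

theorem kcomp_E_left (hE : ∀ i j k l, E i j * E k l = if j = k then E i l else 0)
    (i j a b : Fin n) (x : A) : E a b * kcomp E i j x = E a i * x * E j b := by
  have hterm : ∀ k, E a b * (E k i * x * E j k) = if b = k then E a i * x * E j k else 0 := by
    intro k
    rw [← mul_assoc, ← mul_assoc, hE]
    split_ifs <;> simp
  unfold kcomp
  rw [Finset.mul_sum]
  simp only [hterm]
  rw [Finset.sum_ite_eq]
  simp

theorem kcomp_E_right (hE : ∀ i j k l, E i j * E k l = if j = k then E i l else 0)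
    (i j a b : Fin n) (x : A) : kcomp E i j x * E a b = E a i * x * E j b := by
  have hterm : ∀ k, (E k i * x * E j k) * E a b = if k = a then E k i * x * E j b else 0 := by
    intro k
    rw [mul_assoc, hE]
    split_ifs <;> simp
  unfold kcomp
  rw [Finset.sum_mul]
  simp only [hterm]
  rw [Finset.sum_ite_eq']
  simp

theorem kcomp_sum (hE : ∀ i j k l, E i j * E k l = if j = k then E i l else 0)
    (hE1 : ∑ i, E i i = 1) (x : A) : x = ∑ i, ∑ j, kcomp E i j x * E i j := by
  simp only [kcomp_E_right hE]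
  calc x = (∑ i, E i i) * x * (∑ j, E j j) := by rw [hE1, one_mul, mul_one]
    _ = ∑ i, ∑ j, E i i * x * E j j := by
        rw [Finset.sum_mul, Finset.sum_mul]
        apply Finset.sum_congr rfl
        intro i _
        rw [Finset.mul_sum]

theorem kcomp_of_sum (hE : ∀ i j k l, E i j * E k l = if j = k then E i l else 0)
    (hE1 : ∑ i, E i i = 1) (t : Fin n × Fin n → A)
    (ht : ∀ p a b, E a b * t p = t p * E a b) (i j : Fin n) :
    kcomp E i j (∑ p : Fin n × Fin n, t p * E p.1 p.2) = t (i, j) := by
  have hterm : ∀ (m : Fin n) (p : Fin n × Fin n),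
      E m i * (t p * E p.1 p.2) * E j m = if p = (i, j) then t p * E m m else 0 := by
    intro m p
    have h1 : E m i * (t p * E p.1 p.2) = t p * (E m i * E p.1 p.2) := by
      rw [← mul_assoc, ht p m i, mul_assoc]
    rw [h1, hE, mul_assoc]
    by_cases h2 : i = p.1
    · rw [if_pos h2, hE]
      by_cases h3 : p.2 = j
      · rw [if_pos h3, if_pos (Prod.ext h2.symm h3)]
      · rw [if_neg h3, mul_zero, if_neg (fun h => h3 (by rw [h]))]
    · rw [if_neg h2, zero_mul, mul_zero, if_neg (fun h => h2 (by rw [h]))]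
  unfold kcomp
  calc ∑ m, E m i * (∑ p : Fin n × Fin n, t p * E p.1 p.2) * E j m
      = ∑ m, ∑ p : Fin n × Fin n, E m i * (t p * E p.1 p.2) * E j m := by
        apply Finset.sum_congr rfl
        intro m _
        rw [Finset.mul_sum, Finset.sum_mul]
    _ = ∑ m, t (i, j) * E m m := by
        apply Finset.sum_congr rfl
        intro m _
        simp only [hterm]
        rw [Finset.sum_ite_eq']
        simp
    _ = t (i, j) := by rw [← Finset.mul_sum, hE1, mul_one]

theorem comm_of_comm (hE : ∀ i j k l, E i j * E k l = if j = k then E i l else 0)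
    (hE1 : ∑ i, E i i = 1) (c : A)
    (hc1 : ∀ i j a, kcomp E i j a * c = c * kcomp E i j a)
    (hc2 : ∀ a b, E a b * c = c * E a b) (a : A) : a * c = c * a := by
  rw [kcomp_sum hE hE1 a, Finset.sum_mul, Finset.mul_sum]
  apply Finset.sum_congr rfl
  intro i _
  rw [Finset.sum_mul, Finset.mul_sum]
  apply Finset.sum_congr rfl
  intro j _
  rw [mul_assoc, hc2, ← mul_assoc, hc1, mul_assoc]

end

/-- KU-C: matrix units + Kulshammer's lemma (given as hypothesis `hK`) => `A` is free of rank
`n * n` over its centre, generated by the matrix units. -/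
theorem kuls_glue {F : Type u} {A : Type v} [Field F] [Ring A] [Algebra F A]
    [FiniteDimensional F A]
    (lam : A →ₗ[F] F) (hsymm : ∀ x y, lam (x * y) = lam (y * x))
    (hnd : ∀ x, (∀ y, lam (x * y) = 0) → x = 0)
    (n : ℕ) [NeZero n] (π : A →ₐ[F] Matrix (Fin n) (Fin n) F)
    (hnil : ∀ x, π x = 0 → IsNilpotent x)
    (E : Fin n → Fin n → A) (hE : ∀ i j k l, E i j * E k l = if j = k then E i l else 0)
    (hE1 : ∑ i, E i i = 1) (hπE : ∀ i j, π (E i j) = Matrix.single i j 1)
    (hZ : Module.finrank F (Subalgebra.center F A) ≤ 4)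
    (hK : ∀ (S : Subalgebra F A) (lam₀ : S →ₗ[F] F), (∀ x y, lam₀ (x * y) = lam₀ (y * x)) →
      (∀ x, (∀ y, lam₀ (x * y) = 0) → x = 0) →
      (∀ x : S, ∃ c : F, IsNilpotent (x - algebraMap F S c)) →
      Module.finrank F (Subalgebra.center F S) ≤ 4 → ∀ x y : S, x * y = y * x) :
    ∃ (N : ℕ) (a : Fin N → A),
      (∀ x : A, ∃ z : Fin N → A, (∀ j, z j ∈ Subalgebra.center F A) ∧ x = ∑ j, z j * a j) ∧
      Module.finrank F A = N * Module.finrank F (Subalgebra.center F A) := by
  classical
  obtain ⟨S, hSdef⟩ : ∃ S : Subalgebra F A,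
      S = Subalgebra.centralizer F (Set.range fun ij : Fin n × Fin n => E ij.1 ij.2) :=
    ⟨_, rfl⟩
  have hSmem : ∀ x : A, x ∈ S ↔ ∀ a b, E a b * x = x * E a b := by
    intro x
    rw [hSdef, Subalgebra.mem_centralizer_iff]
    constructor
    · intro h a b
      exact h _ ⟨(a, b), rfl⟩
    · rintro h _ ⟨ij, rfl⟩
      exact h ij.1 ij.2
  have hcS : ∀ i j x, kcomp E i j x ∈ S := fun i j x =>
    (hSmem _).mpr (fun a b => by rw [kcomp_E_left hE, kcomp_E_right hE])
  -- the linear equivalence `A ≃ S ^ (n × n)`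
  let Φ : A →ₗ[F] (Fin n × Fin n → S) :=
    { toFun := fun x ij => ⟨kcomp E ij.1 ij.2 x, hcS ij.1 ij.2 x⟩
      map_add' := fun x y => by
        funext ij
        apply Subtype.ext
        show kcomp E ij.1 ij.2 (x + y) = kcomp E ij.1 ij.2 x + kcomp E ij.1 ij.2 y
        simp only [kcomp, mul_add, add_mul, Finset.sum_add_distrib]
      map_smul' := fun c x => by
        funext ij
        apply Subtype.ext
        show kcomp E ij.1 ij.2 (c • x) = c • kcomp E ij.1 ij.2 x
        simp only [kcomp, mul_smul_comm, smul_mul_assoc, Finset.smul_sum] }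
  let Ψ : (Fin n × Fin n → S) →ₗ[F] A :=
    { toFun := fun s => ∑ ij, (s ij : A) * E ij.1 ij.2
      map_add' := fun s t => by
        simp only [Pi.add_apply, Subalgebra.coe_add, add_mul, Finset.sum_add_distrib]
      map_smul' := fun c s => by
        simp only [Pi.smul_apply, Subalgebra.coe_smul, smul_mul_assoc, Finset.smul_sum,
          RingHom.id_apply] }
  have hΨΦ : ∀ x, Ψ (Φ x) = x := by
    intro x
    show ∑ ij : Fin n × Fin n, kcomp E ij.1 ij.2 x * E ij.1 ij.2 = x
    rw [Fintype.sum_prod_type]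
    exact (kcomp_sum hE hE1 x).symm
  have hΦΨ : ∀ s, Φ (Ψ s) = s := by
    intro s
    funext ij
    apply Subtype.ext
    show kcomp E ij.1 ij.2 (∑ p : Fin n × Fin n, (s p : A) * E p.1 p.2) = s ij
    exact kcomp_of_sum hE hE1 (fun p => (s p : A)) (fun p a b => (hSmem _).mp (s p).2 a b)
      ij.1 ij.2
  have hfr : Module.finrank F A = n * n * Module.finrank F S := by
    have e : A ≃ₗ[F] (Fin n × Fin n → S) :=
      LinearEquiv.ofLinearMap Φ Ψ (LinearMap.ext hΦΨ) (LinearMap.ext hΨΦ)
    rw [e.finrank_eq, Module.finrank_pi_fintype, Finset.sum_const, Finset.card_univ,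
      Fintype.card_prod, Fintype.card_fin, smul_eq_mul]
  -- the symmetrising form on `S`
  have h0 : 0 < n := Nat.pos_of_ne_zero (NeZero.ne n)
  obtain ⟨o, -⟩ : ∃ o : Fin n, o = ⟨0, h0⟩ := ⟨_, rfl⟩
  let lam₀ : S →ₗ[F] F := lam.comp ((LinearMap.mulRight F (E o o)).comp S.val.toLinearMap)
  have hlam₀ : ∀ x : S, lam₀ x = lam ((x : A) * E o o) := fun x => rfl
  have hsym₀ : ∀ x y : S, lam₀ (x * y) = lam₀ (y * x) := by
    intro x y
    rw [hlam₀, hlam₀]
    show lam ((x : A) * (y : A) * E o o) = lam ((y : A) * (x : A) * E o o)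
    rw [mul_assoc, hsymm, mul_assoc, (hSmem _).mp x.2 o o, ← mul_assoc]
  have hnd₀ : ∀ x : S, (∀ y : S, lam₀ (x * y) = 0) → x = 0 := by
    intro x hx
    apply Subtype.ext
    apply hnd
    intro a
    have key : ∀ s : A, s ∈ S → ∀ i j, lam ((x : A) * s * E i j) = 0 := by
      intro s hs i j
      have hxs : ∀ a b, E a b * ((x : A) * s) = (x : A) * s * E a b := fun a b =>
        (hSmem _).mp (S.mul_mem x.2 hs) a b
      have e1 : E i j = E i o * E o j := by rw [hE, if_pos rfl]
      have e2 : lam ((x : A) * s * E i j) = lam ((x : A) * s * (E o j * E i o)) := by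
        rw [e1, ← mul_assoc, hsymm, ← mul_assoc, hxs, mul_assoc]
      rw [e2, hE]
      by_cases hji : j = i
      · rw [if_pos hji]
        have h1 := hx ⟨s, hs⟩
        rw [hlam₀] at h1
        exact h1
      · rw [if_neg hji, mul_zero, map_zero]
    show lam ((x : A) * a) = 0
    rw [kcomp_sum hE hE1 a, Finset.mul_sum, map_sum]
    apply Finset.sum_eq_zero
    intro i _
    rw [Finset.mul_sum, map_sum]
    apply Finset.sum_eq_zero
    intro j _
    rw [← mul_assoc]
    exact key _ (hcS i j a) i j
  -- `S` is local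
  have hloc : ∀ x : S, ∃ c : F, IsNilpotent (x - algebraMap F S c) := by
    intro x
    have hcomm : ∀ i j, Commute (Matrix.single i j (1 : F)) (π (x : A)) := by
      intro i j
      show Matrix.single i j (1 : F) * π (x : A) = π (x : A) * Matrix.single i j 1
      rw [← hπE, ← map_mul, ← map_mul, (hSmem _).mp x.2 i j]
    obtain ⟨c, hc⟩ := Matrix.mem_range_scalar_of_commute_single (fun i j _ => hcomm i j)
    refine ⟨c, ?_⟩
    have hπ0 : π ((x : A) - algebraMap F A c) = 0 := by
      rw [map_sub, AlgHom.commutes, ← hc, Matrix.algebraMap_eq_diagonal, Matrix.scalar_apply]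
      simp
    obtain ⟨m, hm⟩ := hnil _ hπ0
    refine ⟨m, Subtype.ext ?_⟩
    simpa using hm
  -- the centre of `S`
  have hcent_le : Module.finrank F (Subalgebra.center F S) ≤ 4 := by
    have hmem : ∀ c : Subalgebra.center F S, ((c : S) : A) ∈ Subalgebra.center F A := by
      intro c
      rw [Subalgebra.mem_center_iff]
      intro a
      apply comm_of_comm hE hE1
      · intro i j a'
        have h1 := Subalgebra.mem_center_iff.mp c.2 ⟨kcomp E i j a', hcS i j a'⟩
        exact congrArg Subtype.val h1
      · exact (hSmem _).mp (c : S).2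
    let g : Subalgebra.center F S →ₗ[F] Subalgebra.center F A :=
      { toFun := fun c => ⟨((c : S) : A), hmem c⟩
        map_add' := fun _ _ => rfl
        map_smul' := fun _ _ => rfl }
    have hg : Function.Injective g := by
      intro c c' h
      have h1 : ((g c : Subalgebra.center F A) : A) = ((g c' : Subalgebra.center F A) : A) :=
        congrArg Subtype.val h
      exact Subtype.ext (Subtype.ext h1)
    exact le_trans (LinearMap.finrank_le_finrank_of_injective hg) hZ
  -- commutativity
  have hScomm := hK S lam₀ hsym₀ hnd₀ hloc hcent_le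
  have hSle : S ≤ Subalgebra.center F A := by
    intro s hs
    rw [Subalgebra.mem_center_iff]
    intro a
    apply comm_of_comm hE hE1
    · intro i j a'
      exact congrArg Subtype.val (hScomm ⟨kcomp E i j a', hcS i j a'⟩ ⟨s, hs⟩)
    · exact (hSmem _).mp hs
  have hcle : Subalgebra.center F A ≤ S := by
    rw [hSdef]
    exact Subalgebra.center_le_centralizer F _
  have hSeq : S = Subalgebra.center F A := le_antisymm hSle hcle
  refine ⟨n * n, fun q => E (finProdFinEquiv.symm q).1 (finProdFinEquiv.symm q).2, ?_, ?_⟩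
  · intro x
    refine ⟨fun q => kcomp E (finProdFinEquiv.symm q).1 (finProdFinEquiv.symm q).2 x,
      fun q => hSle (hcS _ _ x), ?_⟩
    show x = ∑ q : Fin (n * n), kcomp E (finProdFinEquiv.symm q).1 (finProdFinEquiv.symm q).2 x *
      E (finProdFinEquiv.symm q).1 (finProdFinEquiv.symm q).2
    rw [← Equiv.sum_comp finProdFinEquiv]
    simp only [Equiv.symm_apply_apply]
    rw [Fintype.sum_prod_type]
    exact kcomp_sum hE hE1 x
  · rw [hfr, hSeq]

end Cfsg.Agent.Lib.Helper85.Kuls
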