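import Mathlib
import Cfsg.Prelude.Def_GeometricClasses
import Cfsg.Agent.Lib.Helper71.Asch0

/-!
# S5630 (project ASCH, helper71), piece T4

A tensor product subgroup `GL_d ⊗ GL_k` (`d, k ≥ 2`) of `GL_n(F)` lies in a member of class 4
(`d ≠ k`), class 7 (`d = k ≥ 3`) or class 8 (`d = k = 2`).
-/

set_option autoImplicit false

namespace Cfsg.Agent.Lib.Helper85.AST4

open Matrix Cfsg.Geo Cfsg.Agent.Lib.Helper71.Asch
open scoped Kronecker

section NoFin

variable {n : ℕ} {F : Type*} [Field F]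

theorem tmat_swap {d k : ℕ} (e : Fin n ≃ Fin d × Fin k) (P : GL (Fin n) F)
    (a : Matrix (Fin d) (Fin d) F) (b : Matrix (Fin k) (Fin k) F) :
    tmat e P a b = tmat (e.trans (Equiv.prodComm _ _)) P b a := by
  have h : Matrix.reindex e.symm e.symm (a ⊗ₖ b)
      = Matrix.reindex (e.trans (Equiv.prodComm _ _)).symm (e.trans (Equiv.prodComm _ _)).symm
        (b ⊗ₖ a) := by
    ext i j
    simp [Matrix.reindex_apply, Matrix.submatrix_apply, Matrix.kroneckerMap_apply, mul_comm]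
  unfold tmat
  rw [h]

theorem act_aux {d k : ℕ} (e : Fin n ≃ Fin d × Fin k) (P : GL (Fin n) F)
    (a : Matrix (Fin d) (Fin d) F) (b : Matrix (Fin k) (Fin k) F) (v : Fin n → F)
    (p : Fin d × Fin k) :
    ((P⁻¹ : GL (Fin n) F).1 *ᵥ (tmat e P a b *ᵥ v)) (e.symm p)
      = ((a ⊗ₖ b) *ᵥ (fun q => ((P⁻¹ : GL (Fin n) F).1 *ᵥ v) (e.symm q))) p := by
  have h1 : (P⁻¹ : GL (Fin n) F).1 *ᵥ (tmat e P a b *ᵥ v)
      = Matrix.reindex e.symm e.symm (a ⊗ₖ b) *ᵥ ((P⁻¹ : GL (Fin n) F).1 *ᵥ v) := by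
    unfold tmat
    rw [Matrix.mulVec_mulVec, Matrix.mulVec_mulVec, ← Matrix.mul_assoc, ← Matrix.mul_assoc,
      ← Units.val_mul, inv_mul_cancel, Units.val_one, Matrix.one_mul]
  rw [h1]
  generalize (P⁻¹ : GL (Fin n) F).1 *ᵥ v = u
  simp only [Matrix.mulVec, dotProduct, Matrix.reindex_apply, Matrix.submatrix_apply,
    Equiv.symm_symm, Equiv.apply_symm_apply]
  exact Fintype.sum_equiv e _ _ (fun j => by simp)

/-- the linear map `v ↦ (P⁻¹ v) ∘ e.symm` -/
def Lmap (e : Fin n ≃ Fin 2 × Fin 2) (P : GL (Fin n) F) (v : Fin n → F) : Fin 2 × Fin 2 → F :=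
  fun p => ((P⁻¹ : GL (Fin n) F).1 *ᵥ v) (e.symm p)

/-- the determinant form on `2 × 2` matrices -/
def Q0 (w : Fin 2 × Fin 2 → F) : F := w (0, 0) * w (1, 1) - w (0, 1) * w (1, 0)

/-- its polar form -/
def B0 (w w' : Fin 2 × Fin 2 → F) : F :=
  w (0, 0) * w' (1, 1) + w (1, 1) * w' (0, 0) - w (0, 1) * w' (1, 0) - w (1, 0) * w' (0, 1)

/-- the transported quadratic form -/
def Qf (e : Fin n ≃ Fin 2 × Fin 2) (P : GL (Fin n) F) (v : Fin n → F) : F := Q0 (Lmap e P v)

variable (e : Fin n ≃ Fin 2 × Fin 2) (P : GL (Fin n) F)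

theorem Lmap_add (x y : Fin n → F) : Lmap e P (x + y) = Lmap e P x + Lmap e P y := by
  funext p
  simp [Lmap, Matrix.mulVec_add]

theorem Lmap_smul (c : F) (x : Fin n → F) : Lmap e P (c • x) = c • Lmap e P x := by
  funext p
  simp [Lmap, Matrix.mulVec_smul]

theorem Lmap_inj (v : Fin n → F) (h : Lmap e P v = 0) : v = 0 := by
  have h1 : (P⁻¹ : GL (Fin n) F).1 *ᵥ v = 0 := by
    funext i
    have := congrFun h (e i)
    simpa [Lmap] using this
  have h2 : v = P.1 *ᵥ ((P⁻¹ : GL (Fin n) F).1 *ᵥ v) := by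
    rw [Matrix.mulVec_mulVec, ← Units.val_mul, mul_inv_cancel, Units.val_one, Matrix.one_mulVec]
  rw [h2, h1, Matrix.mulVec_zero]

theorem Lmap_surj (w : Fin 2 × Fin 2 → F) : ∃ x : Fin n → F, Lmap e P x = w := by
  refine ⟨P.1 *ᵥ (fun i => w (e i)), ?_⟩
  funext p
  simp only [Lmap]
  rw [Matrix.mulVec_mulVec, ← Units.val_mul, inv_mul_cancel, Units.val_one, Matrix.one_mulVec,
    Equiv.apply_symm_apply]

theorem polar_Qf (x y : Fin n → F) :
    QuadraticMap.polar (Qf e P) x y = B0 (Lmap e P x) (Lmap e P y) := by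
  unfold QuadraticMap.polar Qf
  rw [Lmap_add]
  simp only [Q0, B0, Pi.add_apply]
  ring

theorem B0_comm (w w' : Fin 2 × Fin 2 → F) : B0 w w' = B0 w' w := by
  simp only [B0]; ring

theorem B0_nondeg (w : Fin 2 × Fin 2 → F) (hw : w ≠ 0) : ∃ w', B0 w' w ≠ 0 := by
  by_contra hcon
  push Not at hcon
  apply hw
  have h00 : w (0, 0) = 0 := by
    have := hcon (fun p => ![![0, 0], ![0, 1]] p.1 p.2)
    simpa [B0] using this
  have h11 : w (1, 1) = 0 := by
    have := hcon (fun p => ![![1, 0], ![0, 0]] p.1 p.2)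
    simpa [B0] using this
  have h10 : w (1, 0) = 0 := by
    have := hcon (fun p => ![![0, 1], ![0, 0]] p.1 p.2)
    simpa [B0] using this
  have h01 : w (0, 1) = 0 := by
    have := hcon (fun p => ![![0, 0], ![1, 0]] p.1 p.2)
    simpa [B0] using this
  funext ⟨i, j⟩
  fin_cases i <;> fin_cases j
  · exact h00
  · exact h01
  · exact h10
  · exact h11

theorem Q0_kron (a b : Matrix (Fin 2) (Fin 2) F) (w : Fin 2 × Fin 2 → F) :
    Q0 ((a ⊗ₖ b) *ᵥ w) = a.det * b.det * Q0 w := by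
  simp only [Q0, Matrix.mulVec, dotProduct, Fintype.sum_prod_type, Fin.sum_univ_two,
    Matrix.kroneckerMap_apply, Matrix.det_fin_two]
  ring

theorem Qf_sim (a b : Matrix (Fin 2) (Fin 2) F) (v : Fin n → F) :
    Qf e P (tmat e P a b *ᵥ v) = a.det * b.det * Qf e P v := by
  unfold Qf
  have h : Lmap e P (tmat e P a b *ᵥ v) = (a ⊗ₖ b) *ᵥ Lmap e P v := by
    funext p
    exact act_aux e P a b v p
  rw [h, Q0_kron]

theorem Qf_nondeg : IsNondegenerateQuadraticForm (Qf e P) := by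
  have hbil : IsBilinearForm (QuadraticMap.polar (Qf e P)) := by
    constructor
    · intro x y v
      rw [polar_Qf, polar_Qf, polar_Qf, Lmap_add]
      simp only [B0, Pi.add_apply]; ring
    · intro c x v
      rw [polar_Qf, polar_Qf, Lmap_smul]
      simp only [B0, Pi.smul_apply, smul_eq_mul]; ring
    · intro v x y
      rw [polar_Qf, polar_Qf, polar_Qf, Lmap_add]
      simp only [B0, Pi.add_apply]; ring
    · intro c v x
      rw [polar_Qf, polar_Qf, Lmap_smul]
      simp only [B0, Pi.smul_apply, smul_eq_mul]; ring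
  refine ⟨?_, hbil, ?_⟩
  · intro c v
    unfold Qf
    rw [Lmap_smul]
    simp only [Q0, Pi.smul_apply, smul_eq_mul]; ring
  · intro v hv
    have hw : Lmap e P v ≠ 0 := fun h => hv (Lmap_inj e P v h)
    obtain ⟨w', hw'⟩ := B0_nondeg _ hw
    obtain ⟨x, rfl⟩ := Lmap_surj e P w'
    refine ⟨⟨x, ?_⟩, ⟨x, ?_⟩⟩
    · rw [polar_Qf]; exact hw'
    · rw [polar_Qf, B0_comm]; exact hw'

end NoFin

variable {n : ℕ} {F : Type*} [Field F] [Fintype F]

theorem T4a {d k : ℕ} (hd : 2 ≤ d) (hlt : d < k) (e : Fin n ≃ Fin d × Fin k)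
    (P : GL (Fin n) F) (H : Subgroup (GL (Fin n) F)) (hH : H ≤ tensorProductSubgroup d k e P) :
    InCls H := by
  refine ⟨tensorProductSubgroup d k e P, ?_, hH⟩
  right; right; right; right; right; left
  exact ⟨d, k, e, P, hd, hlt, rfl⟩

theorem T4b {d k : ℕ} (hk : 2 ≤ k) (hgt : k < d) (e : Fin n ≃ Fin d × Fin k)
    (P : GL (Fin n) F) (H : Subgroup (GL (Fin n) F)) (hH : H ≤ tensorProductSubgroup d k e P) :
    InCls H := by
  refine T4a hk hgt (e.trans (Equiv.prodComm _ _)) P H ?_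
  intro h hh
  obtain ⟨a, b, hg⟩ := (mem_tensorProductSubgroup_iff e P h).1 (hH hh)
  exact (mem_tensorProductSubgroup_iff _ P h).2 ⟨b, a, by rw [hg, tmat_swap]⟩

theorem T4c {d : ℕ} (h3 : 3 ≤ d) (e : Fin n ≃ Fin d × Fin d)
    (P : GL (Fin n) F) (H : Subgroup (GL (Fin n) F)) (hH : H ≤ tensorProductSubgroup d d e P) :
    InCls H := by
  refine ⟨tensorWreathSubgroup d 2 (e.trans (finTwoArrowEquiv (Fin d)).symm) P, ?_, ?_⟩
  · iterate 8 right
    left
    exact ⟨d, 2, _, P, h3, le_refl 2, rfl⟩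
  · intro h hh
    obtain ⟨a, b, hg⟩ := (mem_tensorProductSubgroup_iff e P h).1 (hH hh)
    obtain ⟨y, hy⟩ : ∃ y : GL (Fin d × Fin d) F, y.1 = a.1 ⊗ₖ b.1 := by
      refine ⟨⟨a.1 ⊗ₖ b.1, (a⁻¹ : GL (Fin d) F).1 ⊗ₖ (b⁻¹ : GL (Fin d) F).1, ?_, ?_⟩, rfl⟩
      · rw [← Matrix.mul_kronecker_mul, ← Units.val_mul, ← Units.val_mul, mul_inv_cancel,
          mul_inv_cancel, Units.val_one, Matrix.one_kronecker_one]
      · rw [← Matrix.mul_kronecker_mul, ← Units.val_mul, ← Units.val_mul, inv_mul_cancel,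
          inv_mul_cancel, Units.val_one, Matrix.one_kronecker_one]
    obtain ⟨ε, hε⟩ : ∃ ε : Fin d × Fin d ≃ (Fin 2 → Fin d), ε = (finTwoArrowEquiv (Fin d)).symm :=
      ⟨_, rfl⟩
    rw [← hε]
    have hεs : ∀ u : Fin 2 → Fin d, ε.symm u = (u 0, u 1) := by
      intro u
      rw [hε]
      rfl
    have hx : glReindex ε y ∈ tensorWreathStandard d 2 F := by
      apply Subgroup.subset_closure
      left
      refine ⟨![a, b], fun u v => ?_⟩
      rw [Fin.prod_univ_two]
      show (Matrix.reindexAlgEquiv F F ε y.1) u v = _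
      rw [hy, Matrix.coe_reindexAlgEquiv, Matrix.reindex_apply, Matrix.submatrix_apply, hεs, hεs]
      rfl
    unfold tensorWreathSubgroup
    refine ⟨glReindex (e.trans ε).symm (glReindex ε y), ⟨glReindex ε y, hx, rfl⟩, ?_⟩
    apply Units.ext
    show (P * glReindex (e.trans ε).symm (glReindex ε y) * P⁻¹ : GL (Fin n) F).1 = _
    rw [Units.val_mul, Units.val_mul, hg]
    unfold tmat
    have h2 : ((glReindex (e.trans ε).symm (glReindex ε y) : GL (Fin n) F) :
        Matrix (Fin n) (Fin n) F) = Matrix.reindex e.symm e.symm (a.1 ⊗ₖ b.1) := by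
      show Matrix.reindexAlgEquiv F F (e.trans ε).symm (Matrix.reindexAlgEquiv F F ε y.1) = _
      rw [hy]
      ext i j
      simp [Matrix.coe_reindexAlgEquiv, Matrix.reindex_apply, Matrix.submatrix_apply]
    rw [h2]

theorem T4d (hn : 3 ≤ n) (hn4 : n = 4) (e : Fin n ≃ Fin 2 × Fin 2)
    (P : GL (Fin n) F) (H : Subgroup (GL (Fin n) F)) (hH : H ≤ tensorProductSubgroup 2 2 e P) :
    InCls H := by
  have hQ := Qf_nondeg e P
  have hsim : ∀ h ∈ H, ∃ c : Fˣ, ∀ v, Qf e P (h.1 *ᵥ v) = (c : F) * Qf e P v := by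
    intro h hh
    obtain ⟨a, b, hg⟩ := (mem_tensorProductSubgroup_iff e P h).1 (hH hh)
    have hda : a.1.det ≠ 0 := ((Matrix.isUnit_iff_isUnit_det _).mp a.isUnit).ne_zero
    have hdb : b.1.det ≠ 0 := ((Matrix.isUnit_iff_isUnit_det _).mp b.isUnit).ne_zero
    refine ⟨Units.mk0 (a.1.det * b.1.det) (mul_ne_zero hda hdb), fun v => ?_⟩
    rw [hg, Qf_sim]
    rfl
  by_cases hodd : Odd (Fintype.card F)
  · refine ⟨quadSimilarityGroup (Qf e P), ?_, fun h hh => hsim h hh⟩
    iterate 11 right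
    exact ⟨Qf e P, hQ, hodd, hn, rfl⟩
  · have h20 : (2 : F) = 0 := by
      by_contra h2
      apply hodd
      rw [Nat.odd_iff]
      apply FiniteField.odd_card_of_char_ne_two
      intro hc
      apply h2
      have h := ringChar.Nat.cast_ringChar (R := F)
      rw [hc] at h
      exact_mod_cast h
    have hf : IsSymplecticForm (QuadraticMap.polar (Qf e P)) := by
      refine ⟨hQ.polar_bilinear, ?_, ?_, hQ.nondegenerate⟩
      · intro v w
        rw [polar_Qf, polar_Qf, B0_comm]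
        linear_combination (B0 (Lmap e P w) (Lmap e P v)) * h20
      · intro v
        rw [polar_Qf]
        simp only [B0]
        linear_combination (Lmap e P v (0, 0) * Lmap e P v (1, 1)
          - Lmap e P v (0, 1) * Lmap e P v (1, 0)) * h20
    refine ⟨similarityGroup (QuadraticMap.polar (Qf e P)), ?_, ?_⟩
    · iterate 9 right
      left
      exact ⟨_, hf, ⟨2, by omega⟩, by omega, rfl⟩
    · intro h hh
      obtain ⟨c, hc⟩ := hsim h hh
      refine ⟨c, fun u v => ?_⟩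
      unfold QuadraticMap.polar
      rw [← Matrix.mulVec_add, hc, hc, hc]
      ring

/-- T4: a tensor product subgroup with both factors of dimension ≥ 2 lies in a class. -/
theorem T4 (hn : 3 ≤ n) {d k : ℕ} (hd : 2 ≤ d) (hk : 2 ≤ k) (e : Fin n ≃ Fin d × Fin k)
    (P : GL (Fin n) F) (H : Subgroup (GL (Fin n) F)) (hH : H ≤ tensorProductSubgroup d k e P) :
    InCls H := by
  have hcard : n = d * k := by
    have := Fintype.card_congr e
    simpa using this
  rcases lt_trichotomy d k with hlt | heq | hgt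
  · exact T4a hd hlt e P H hH
  · subst heq
    by_cases h3 : 3 ≤ d
    · exact T4c h3 e P H hH
    · obtain rfl : d = 2 := by omega
      exact T4d hn (by omega) e P H hH
  · exact T4b hk hgt e P H hH

end Cfsg.Agent.Lib.Helper85.AST4
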