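import Cfsg.Agent.Lib.Helper10.LC0

/-!
# S0406 project, piece LC-A2 (helper85 for helper10)

A mod-2 class of vectors with `q = 8` has at most 48 elements.
-/

set_option autoImplicit false

namespace Cfsg.Agent.Lib.Helper85.LCA2

open Matrix Cfsg.Agent.Lib.Helper10.LC

/-- Pairwise orthogonality of a finite set of vectors. -/
def POrth (B : Matrix (Fin 24) (Fin 24) ℤ) (R : Finset (Fin 24 → ℤ)) : Prop :=
  ∀ a ∈ R, ∀ b ∈ R, a ≠ b → bf B a b = 0

theorem class_le {B : Matrix (Fin 24) (Fin 24) ℤ} (hB : Hyp B)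
    (hsp : ∀ x y z : Fin 24 → ℤ, qf B x ≤ 8 → qf B y ≤ 8 → x - y = (2 : ℤ) • z → x ≠ y → x ≠ -y →
      qf B x = 8 ∧ qf B y = 8 ∧ bf B x y = 0)
    (hoc : ∀ s : Finset (Fin 24 → ℤ), (∀ x ∈ s, x ≠ 0) →
      (∀ x ∈ s, ∀ y ∈ s, x ≠ y → bf B x y = 0) → s.card ≤ 24)
    (x : Fin 24 → ℤ) (hx : qf B x = 8) :
    {y : Fin 24 → ℤ | qf B y = 8 ∧ ∃ z : Fin 24 → ℤ, x - y = (2 : ℤ) • z}.ncard ≤ 48 := by
  classical
  set K : Set (Fin 24 → ℤ) :=
    {y : Fin 24 → ℤ | qf B y = 8 ∧ ∃ z : Fin 24 → ℤ, x - y = (2 : ℤ) • z} with hK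
  have hfin8 : {x : Fin 24 → ℤ | qf B x = 8}.Finite := by
    apply Set.finite_of_ncard_ne_zero
    rw [hB.c8]
    norm_num
  have hKfin : K.Finite := hfin8.subset (fun y hy => hy.1)
  have hK0 : ∀ y ∈ K, y ≠ 0 := by
    intro y hy h0
    have h8 : qf B y = 8 := hy.1
    rw [h0, qf_zero] at h8
    norm_num at h8
  have hpair : ∀ y ∈ K, ∀ y' ∈ K, y ≠ y' → y ≠ -y' → bf B y y' = 0 := by
    intro y hy y' hy' h1 h2
    obtain ⟨z, hz⟩ := hy.2
    obtain ⟨z', hz'⟩ := hy'.2
    have hd : y - y' = (2 : ℤ) • (z' - z) := by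
      rw [smul_sub, ← hz, ← hz']
      abel
    exact (hsp y y' (z' - z) hy.1.le hy'.1.le hd h1 h2).2.2
  obtain ⟨R, hRmem, hRmax⟩ := Finset.exists_max_image
    (hKfin.toFinset.powerset.filter (POrth B))
    Finset.card
    ⟨∅, Finset.mem_filter.mpr ⟨Finset.mem_powerset.mpr (Finset.empty_subset _),
      fun a ha => absurd ha (Finset.notMem_empty a)⟩⟩
  obtain ⟨hRK0, hRo⟩ := Finset.mem_filter.mp hRmem
  have hRK := Finset.mem_powerset.mp hRK0
  have hRK' : ∀ r ∈ R, r ∈ K := fun r hr => hKfin.mem_toFinset.mp (hRK hr)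
  have hR24 : R.card ≤ 24 := hoc R (fun r hr => hK0 r (hRK' r hr)) hRo
  have hcover : hKfin.toFinset ⊆ R ∪ R.image Neg.neg := by
    intro y hy
    by_contra hny
    rw [Finset.mem_union, Finset.mem_image] at hny
    push_neg at hny
    obtain ⟨hyR, hyneg⟩ := hny
    have hyK : y ∈ K := hKfin.mem_toFinset.mp hy
    have hins : insert y R ∈
        hKfin.toFinset.powerset.filter (POrth B) := by
      refine Finset.mem_filter.mpr ⟨Finset.mem_powerset.mpr (Finset.insert_subset hy hRK), ?_⟩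
      intro a ha b hb hab
      rw [Finset.mem_insert] at ha hb
      rcases ha with ha | ha
      · rcases hb with hb | hb
        · exact absurd (ha.trans hb.symm) hab
        · rw [ha]
          refine hpair y hyK b (hRK' b hb) (by rw [← ha]; exact hab) ?_
          intro h
          exact hyneg b hb h.symm
      · rcases hb with hb | hb
        · rw [hb]
          refine hpair a (hRK' a ha) y hyK (by rw [← hb]; exact hab) ?_
          intro h
          exact hyneg a ha (by rw [h, neg_neg])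
        · exact hRo a ha b hb hab
    have hle := hRmax _ hins
    rw [Finset.card_insert_of_notMem hyR] at hle
    omega
  calc K.ncard = hKfin.toFinset.card := Set.ncard_eq_toFinset_card K hKfin
    _ ≤ (R ∪ R.image Neg.neg).card := Finset.card_le_card hcover
    _ ≤ R.card + (R.image Neg.neg).card := Finset.card_union_le _ _
    _ ≤ R.card + R.card := Nat.add_le_add_left Finset.card_image_le _
    _ ≤ 48 := by omega

end Cfsg.Agent.Lib.Helper85.LCA2
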