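import Cfsg.Agent.Lib.Helper98.T73Defs
import Cfsg.Prelude.Def_GeometricClasses
import Cfsg.Agent.Lib.Helper47.QuadMain
import Cfsg.Agent.Lib.Helper82.QuadSELFDUAL

/-!
# Project T73 (S5973, helper98): piece OMEGAODD (helper85, job 3878)

An isometry of odd prime order `r ≠ p` of a nondegenerate quadratic form lies in `Ω`.
-/

set_option autoImplicit false

namespace Cfsg.Agent.Lib.Helper98.T73

open Cfsg.Agent.Lib.Helper47 Module Polynomial

open scoped commutatorElement

universe u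

variable {F : Type u} [Field F] [Fintype F]

/-- OMEGAODD -/
theorem omega_of_odd (hf : QFacts F) {ι : Type} [Fintype ι] [DecidableEq ι] (Q : (ι → F) → F)
    (B : (ι → F) → (ι → F) → F) (hQ : IsQuad Q B) (hnd : Nondeg B) (k : ℕ)
    (hι : Fintype.card ι = 2 * k + 2) (p : ℕ) [Fact p.Prime] [CharP F p] (r : ℕ)
    (hr : r.Prime) (hr2 : r ≠ 2) (hrp : r ≠ p) (g : Module.End F (ι → F)) (hgQ : QI Q g)
    (hg : g ^ r = 1) :
    ∃ x : GL ι F, x ∈ Cfsg.Geo.omegaGL Q ∧ Matrix.toLin' (x : Matrix ι ι F) = g ∧ x ^ r = 1 := by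
  classical
  have hcopr : r.Coprime p := (Nat.coprime_primes hr Fact.out).mpr hrp
  have hrF : (r : F) ≠ 0 := natCast_ne_zero_of_coprime p hcopr
  have hrodd : Odd r := hr.odd_of_ne_two hr2
  obtain ⟨M, hM⟩ : ∃ M : Matrix ι ι F, M = LinearMap.toMatrix' g := ⟨_, rfl⟩
  have hMlin : Matrix.toLin' M = g := by rw [hM, Matrix.toLin'_toMatrix']
  have hMr : M ^ r = 1 := by
    apply Matrix.toLin'.injective
    rw [Matrix.toLin'_pow, hMlin, hg, Matrix.toLin'_one]
    rfl
  obtain ⟨x, hx⟩ := exists_unit_of_pow_eq_one M r hr.pos hMr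
  have hxr : x ^ r = 1 := by
    apply Units.ext
    rw [Units.val_pow_eq_pow_val, hx, hMr]
    rfl
  have hxQ : x ∈ Cfsg.isometryGroup F Q := by
    rw [mem_isometryGroup_iff', hx]
    intro u
    rw [← Matrix.toLin'_apply, hMlin]
    exact hgQ u
  -- `g` preserves the polar form
  have hBg : ∀ u v, B (g u) (g v) = B u v := by
    intro u v
    have h1 := hQ.polar (g u) (g v)
    have h2 := hQ.polar u v
    rw [← map_add, hgQ (u + v), hgQ u, hgQ v] at h1
    linear_combination h2 - h1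
  -- the characteristic polynomial is self-dual
  have hdual : dualP (RingHom.id F) M.charpoly = M.charpoly := by
    have h1 := Cfsg.Agent.Lib.Helper82.charpoly_selfdual hQ.form hnd g hBg
    rw [← hMlin, Matrix.charpoly_toLin'] at h1
    exact h1
  have hu : IsUnit M := by rw [← hx]; exact x.isUnit
  have hinvc : M⁻¹.charpoly = M.charpoly := by
    have h1 := Matrix.charpoly_inv M hu
    have h2 := Matrix.det_eq_sign_charpoly_coeff M
    have hs : ((-1 : F) ^ Fintype.card ι) * ((-1 : F) ^ Fintype.card ι) = 1 := by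
      rw [← mul_pow]; simp
    have h3 : M.charpoly.coeff 0 = (-1 : F) ^ Fintype.card ι * M.det := by
      rw [h2, ← mul_assoc, hs, one_mul]
    have hs' : ((-1 : F) ^ Fintype.card ι)⁻¹ = (-1 : F) ^ Fintype.card ι :=
      inv_eq_of_mul_eq_one_left hs
    rw [h1, ← Matrix.reverse_charpoly]
    conv_rhs => rw [← hdual]
    unfold dualP
    rw [Polynomial.map_id, RingHom.id_apply, h3, mul_inv, Ring.inverse_eq_inv', C_mul, hs',
      map_pow, map_neg, map_one]
  -- elements of the isometry group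
  obtain ⟨gi, hgi⟩ : ∃ gi : ↥(Cfsg.isometryGroup F Q), gi = ⟨x, hxQ⟩ := ⟨_, rfl⟩
  have hgir : gi ^ r = 1 := by
    rw [hgi]
    apply Subtype.ext
    rw [Subgroup.coe_pow]
    exact hxr
  have hgir' : gi⁻¹ ^ r = 1 := by rw [inv_pow, hgir, inv_one]
  have hc : ((gi : Matrix.GeneralLinearGroup ι F) : Matrix ι ι F).charpoly =
      (((gi⁻¹ : ↥(Cfsg.isometryGroup F Q)) : Matrix.GeneralLinearGroup ι F) :
        Matrix ι ι F).charpoly := by
    rw [hgi]
    show (x : Matrix ι ι F).charpoly = ((x⁻¹ : Matrix.GeneralLinearGroup ι F) :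
      Matrix ι ι F).charpoly
    rw [Matrix.coe_units_inv, hx, hinvc]
  have hconj : IsConj gi gi⁻¹ :=
    quad_isConj_of_charpoly_eq hf Q B hQ hnd k hι r hrodd hrF gi gi⁻¹ hgir hgir' hc
  obtain ⟨h, hh⟩ := isConj_iff.mp hconj
  have hsq : gi * gi ∈ commutator ↥(Cfsg.isometryGroup F Q) := by
    have e : gi * gi = ⁅gi, h⁆ := by
      rw [commutatorElement_def]
      have e2 : h * gi⁻¹ * h⁻¹ = gi := by
        have e3 : (h * gi * h⁻¹)⁻¹ = gi⁻¹⁻¹ := congrArg (fun z => z⁻¹) hh
        rw [inv_inv] at e3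
        calc h * gi⁻¹ * h⁻¹ = (h * gi * h⁻¹)⁻¹ := by group
          _ = gi := e3
      calc gi * gi = gi * (h * gi⁻¹ * h⁻¹) := by rw [e2]
        _ = gi * h * gi⁻¹ * h⁻¹ := by group
    rw [e, commutator_def]
    exact Subgroup.commutator_mem_commutator (Subgroup.mem_top _) (Subgroup.mem_top _)
  obtain ⟨t, ht⟩ := hrodd
  have hgi_pow : gi = (gi * gi) ^ (t + 1) := by
    rw [← pow_two, ← pow_mul]
    have e : 2 * (t + 1) = r + 1 := by omega
    rw [e, pow_succ, hgir, one_mul]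
  have hmem : gi ∈ commutator ↥(Cfsg.isometryGroup F Q) := by
    rw [hgi_pow]
    exact Subgroup.pow_mem _ hsq _
  refine ⟨x, ⟨gi, hmem, by rw [hgi]; rfl⟩, ?_, hxr⟩
  rw [hx, hMlin]

end Cfsg.Agent.Lib.Helper98.T73
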