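import Mathlib
import Cfsg.Agent.Lib.Helper14.OSDefs

/-!
# S3421 (helper14), piece OS-A: centralizer lemmas
-/

set_option autoImplicit false

namespace Cfsg.Agent.Lib.Helper14.OS

theorem osa_cop_of_dvd_one (x y : ℕ) (h : ∀ g, g ∣ x → g ∣ y → g ∣ 1) : Nat.Coprime x y :=
  Nat.dvd_one.mp (h _ (Nat.gcd_dvd_left x y) (Nat.gcd_dvd_right x y))

theorem osa_gen {G : Type*} [Group G] (n m₁ m₂ : ℕ) (h1 : Nat.Coprime n m₁)
    (h2 : Nat.Coprime n m₂)
    (hord : ∀ g : G, orderOf g ∣ n ∨ orderOf g ∣ m₁ ∨ orderOf g ∣ m₂)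
    (u : G) (hu : u ≠ 1) (hun : orderOf u ∣ n) (c : G) (hc : c * u = u * c) :
    orderOf c ∣ n := by
  have hu1 : ∀ m' : ℕ, Nat.Coprime n m' → orderOf u ∣ m' → False := by
    intro m' hm' hum'
    have h : orderOf u ∣ Nat.gcd n m' := Nat.dvd_gcd hun hum'
    rw [hm'.gcd_eq_one, Nat.dvd_one, orderOf_eq_one_iff] at h
    exact hu h
  have key : ∀ m : ℕ, Nat.Coprime n m → orderOf c ∣ m → orderOf c ∣ n := by
    intro m hm hcm
    have hcop : Nat.Coprime (orderOf u) (orderOf c) :=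
      Nat.Coprime.coprime_dvd_left hun (Nat.Coprime.coprime_dvd_right hcm hm)
    have hmul : orderOf (u * c) = orderOf u * orderOf c :=
      (show Commute u c from hc.symm).orderOf_mul_eq_mul_orderOf_of_coprime hcop
    rcases hord (u * c) with h | h | h
    · rw [hmul] at h
      exact dvd_trans (dvd_mul_left (orderOf c) (orderOf u)) h
    · rw [hmul] at h
      exact (hu1 m₁ h1 (dvd_trans (dvd_mul_right (orderOf u) (orderOf c)) h)).elim
    · rw [hmul] at h
      exact (hu1 m₂ h2 (dvd_trans (dvd_mul_right (orderOf u) (orderOf c)) h)).elim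
  rcases hord c with h | h | h
  · exact h
  · exact key m₁ h1 h
  · exact key m₂ h2 h

theorem osa_card_dvd (N n m : ℕ) (hN : N ∣ n * m) (hcop : Nat.Coprime n m)
    (hpr : ∀ r : ℕ, r.Prime → r ∣ N → r ∣ n) : N ∣ n := by
  have h : Nat.Coprime N m := by
    apply Nat.coprime_of_dvd
    intro r hr hrN hrm
    have h1 : r ∣ Nat.gcd n m := Nat.dvd_gcd (hpr r hr hrN) hrm
    rw [hcop.gcd_eq_one, Nat.dvd_one] at h1
    exact hr.one_lt.ne' h1
  exact h.dvd_of_dvd_mul_right hN

theorem osa_cent_card {G : Type*} [Group G] [Finite G] (n m : ℕ) (hG : Nat.card G = n * m)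
    (hcop : Nat.Coprime n m) (n₀ : ℕ) (hn₀ : n₀ ∣ n) (u : G)
    (hc : ∀ c : G, c * u = u * c → orderOf c ∣ n₀) :
    Nat.card (Subgroup.centralizer ({u} : Set G)) ∣ n := by
  apply osa_card_dvd _ n m
  · rw [← hG]
    exact Subgroup.card_subgroup_dvd_card _
  · exact hcop
  · intro r hr hrN
    have : Fact r.Prime := ⟨hr⟩
    obtain ⟨x, hx⟩ := exists_prime_orderOf_dvd_card' (G := Subgroup.centralizer ({u} : Set G)) r hrN
    have hx' : orderOf (x : G) = r := by rw [Subgroup.orderOf_coe, hx]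
    have hcomm : (x : G) * u = u * (x : G) :=
      ((Subgroup.mem_centralizer_iff.mp x.2) u rfl).symm
    rw [← hx']
    exact dvd_trans (hc _ hcomm) hn₀

section

variable {G : Type*} [Group G] [Finite G] {q a b : ℕ}

theorem osa_cop_ab (H : Hyp G q a b) : Nat.Coprime a b := by
  apply osa_cop_of_dvd_one
  intro g hga hgb
  rcases H.hdiff with h | h
  · rw [h] at hga
    exact (Nat.dvd_add_right hgb).mp hga
  · rw [h] at hgb
    exact (Nat.dvd_add_right hga).mp hgb

theorem osa_cop_qa (H : Hyp G q a b) : Nat.Coprime q a := by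
  apply osa_cop_of_dvd_one
  intro g hgq hga
  rw [← H.hab] at hgq
  have hgb : g ∣ b := (Nat.dvd_add_right hga).mp hgq
  have h := Nat.dvd_gcd hga hgb
  rwa [(osa_cop_ab H).gcd_eq_one] at h

theorem osa_cop_qb (H : Hyp G q a b) : Nat.Coprime q b := by
  apply osa_cop_of_dvd_one
  intro g hgq hgb
  rw [← H.hab] at hgq
  have hga : g ∣ a := (Nat.dvd_add_left hgb).mp hgq
  have h := Nat.dvd_gcd hga hgb
  rwa [(osa_cop_ab H).gcd_eq_one] at h

theorem osa_cop_q2 (H : Hyp G q a b) : Nat.Coprime q 2 := by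
  obtain ⟨t, ht⟩ := H.ha
  have hab := H.hab
  have hd := H.hdiff
  apply osa_cop_of_dvd_one
  intro g hgq hg2
  rcases (Nat.dvd_prime Nat.prime_two).mp hg2 with rfl | rfl
  · exact dvd_refl 1
  · exfalso; omega

theorem osa_cop_b2 (H : Hyp G q a b) : Nat.Coprime b 2 := by
  obtain ⟨t, ht⟩ := H.ha
  have hd := H.hdiff
  apply osa_cop_of_dvd_one
  intro g hgb hg2
  rcases (Nat.dvd_prime Nat.prime_two).mp hg2 with rfl | rfl
  · exact dvd_refl 1
  · exfalso; omega

theorem cent_q_ord {G : Type*} [Group G] [Finite G] {q a b : ℕ} (H : Hyp G q a b) (u : G)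
    (hu : u ≠ 1) (huq : orderOf u ∣ q) (c : G) (hc : c * u = u * c) : orderOf c ∣ q :=
  osa_gen q a b (osa_cop_qa H) (osa_cop_qb H) H.hord u hu huq c hc

theorem cent_a_ord {G : Type*} [Group G] [Finite G] {q a b : ℕ} (H : Hyp G q a b) (y : G)
    (hy : y ≠ 1) (hya : orderOf y ∣ a) (c : G) (hc : c * y = y * c) : orderOf c ∣ a :=
  osa_gen a q b (osa_cop_qa H).symm (osa_cop_ab H)
    (fun g => by
      rcases H.hord g with h | h | h
      · exact Or.inr (Or.inl h)
      · exact Or.inl h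
      · exact Or.inr (Or.inr h)) y hy hya c hc

theorem cent_b_ord {G : Type*} [Group G] [Finite G] {q a b : ℕ} (H : Hyp G q a b) (y : G)
    (hy : y ≠ 1) (hyb : orderOf y ∣ b) (c : G) (hc : c * y = y * c) : orderOf c ∣ b :=
  osa_gen b q a (osa_cop_qb H).symm (osa_cop_ab H).symm
    (fun g => by
      rcases H.hord g with h | h | h
      · exact Or.inr (Or.inl h)
      · exact Or.inr (Or.inr h)
      · exact Or.inl h) y hy hyb c hc

theorem cent_q {G : Type*} [Group G] [Finite G] {q a b : ℕ} (H : Hyp G q a b) (u : G)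
    (hu : u ≠ 1) (huq : orderOf u ∣ q) :
    Nat.card (Subgroup.centralizer ({u} : Set G)) ∣ q := by
  refine osa_cent_card q (2 * a * b) (by rw [H.hcard]; ring) ?_ q dvd_rfl u
    (fun c hc => cent_q_ord H u hu huq c hc)
  exact Nat.Coprime.mul_right (Nat.Coprime.mul_right (osa_cop_q2 H) (osa_cop_qa H)) (osa_cop_qb H)

theorem cent_a {G : Type*} [Group G] [Finite G] {q a b : ℕ} (H : Hyp G q a b) (y : G)
    (hy : y ≠ 1) (hya : orderOf y ∣ a) :
    Nat.card (Subgroup.centralizer ({y} : Set G)) ∣ 2 * a := by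
  refine osa_cent_card (2 * a) (q * b) (by rw [H.hcard]; ring) ?_ a (dvd_mul_left a 2) y
    (fun c hc => cent_a_ord H y hy hya c hc)
  exact Nat.Coprime.mul_left
    (Nat.Coprime.mul_right (osa_cop_q2 H).symm (osa_cop_b2 H).symm)
    (Nat.Coprime.mul_right (osa_cop_qa H).symm (osa_cop_ab H))

theorem cent_b {G : Type*} [Group G] [Finite G] {q a b : ℕ} (H : Hyp G q a b) (y : G)
    (hy : y ≠ 1) (hyb : orderOf y ∣ b) :
    Nat.card (Subgroup.centralizer ({y} : Set G)) ∣ b := by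
  refine osa_cent_card b (2 * q * a) (by rw [H.hcard]; ring) ?_ b dvd_rfl y
    (fun c hc => cent_b_ord H y hy hyb c hc)
  exact Nat.Coprime.mul_right (Nat.Coprime.mul_right (osa_cop_b2 H) (osa_cop_qb H).symm)
    (osa_cop_ab H).symm

end

end Cfsg.Agent.Lib.Helper14.OS
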