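import Cfsg.Agent.Lib.Helper27.ChevDyn
import Cfsg.Agent.Lib.Helper24.GradeData
import Cfsg.Agent.Lib.Helper24.HDiagAll
import Cfsg.Agent.Lib.Helper24.ChevGL

/-!
# S2156 project, piece PT1 (`pieceT_act`) (helper85 for helper27)

The elements of the diagonal subgroup `H` act on the root elements through a character given by
the Cartan integers.
-/

set_option autoImplicit false

namespace Cfsg.Agent.Lib.Helper85.ChevDynP

open Cfsg.Lie Cfsg.Agent.Lib.Helper27.PslnOut Cfsg.Agent.Lib.Helper27.DynOut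
  Cfsg.Agent.Lib.Helper27.ChevDyn

variable {F : Type*} [Field F] (D : ChevalleyDatum)

theorem pt1_xg_val (hD : D ∈ lst) (r : ℕ) (a : F) :
    ((xg D r a : GL D.Idx F) : Matrix D.Idx D.Idx F) = D.x F r a := by
  have hD' : D ∈ Cfsg.Agent.Lib.Helper24.chevList := hD
  have h : ∃ g : ↥(D.group F), ((g : GL D.Idx F) : Matrix D.Idx D.Idx F) = D.x F r a :=
    ⟨⟨Cfsg.Agent.Lib.Helper24.xGL D hD' r a, Cfsg.Agent.Lib.Helper24.xGL_mem_group D hD' r a⟩,
      Cfsg.Agent.Lib.Helper24.xGL_val D hD' r a⟩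
  unfold xg
  rw [dif_pos h]
  exact h.choose_spec

theorem pt1_val_inj (g h : ↥(D.group F))
    (e : ((g : GL D.Idx F) : Matrix D.Idx D.Idx F) = ((h : GL D.Idx F) : Matrix D.Idx D.Idx F)) :
    g = h :=
  Subtype.ext (Units.ext e)

omit D in
theorem pt1_zpow_listsum (u : Fˣ) (c A : ℕ → ℤ) (n : ℕ) :
    u ^ ((List.range n).map (fun i => c i * A i)).sum = ∏ j : Fin n, (u ^ c j) ^ A j := by
  induction n with
  | zero => simp
  | succ n ih =>
    rw [List.range_succ, List.map_append, List.sum_append, zpow_add, ih, Fin.prod_univ_castSucc]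
    simp [zpow_mul]

open Cfsg.Agent.Lib.Helper24 in
theorem pt1_core (hD : D ∈ lst) (g : GL D.Idx F) (hg : g ∈ D.diagonalSubgroup F) :
    ∃ s : Fin D.rank → Fˣ, ∀ r, r < D.nroots → ∀ a : F,
      (g : Matrix D.Idx D.Idx F) * D.x F r a =
        D.x F r (((∏ j : Fin D.rank, s j ^ D.cartan j r : Fˣ) : F) * a) *
          (g : Matrix D.Idx D.Idx F) := by
  have hD' : D ∈ chevList := hD
  unfold ChevalleyDatum.diagonalSubgroup at hg
  induction hg using Subgroup.closure_induction with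
  | mem g hg =>
    obtain ⟨r0, t, hr0, ht, hval⟩ := hg
    refine ⟨fun j => (Units.mk0 t ht) ^ corootC D r0 j, fun r hr a => ?_⟩
    have h0 := pt1_zpow_listsum (Units.mk0 t ht) (corootC D r0) (fun i => D.cartan i r) D.rank
    have hW : W D r0 r =
        ((List.range D.rank).map (fun i => corootC D r0 i * D.cartan i r)).sum := rfl
    have hχ : (((∏ j : Fin D.rank, ((Units.mk0 t ht) ^ corootC D r0 j) ^ D.cartan j r : Fˣ)) : F) =
        t ^ W D r0 r := by
      rw [hW, ← h0, Units.val_zpow_eq_zpow_val, Units.val_mk0]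
    rw [hχ, hval, hMat_eq_torus D hD' r0 hr0 t ht]
    exact torusW_mul_x D hD' r0 t ht r hr a
  | one =>
    refine ⟨fun _ => 1, fun r hr a => ?_⟩
    simp
  | mul g₁ g₂ _ _ ih₁ ih₂ =>
    obtain ⟨s₁, hs₁⟩ := ih₁
    obtain ⟨s₂, hs₂⟩ := ih₂
    refine ⟨fun j => s₁ j * s₂ j, fun r hr a => ?_⟩
    have hχ : (∏ j : Fin D.rank, (s₁ j * s₂ j) ^ D.cartan j r : Fˣ) =
        (∏ j : Fin D.rank, s₁ j ^ D.cartan j r) * ∏ j : Fin D.rank, s₂ j ^ D.cartan j r := by
      rw [← Finset.prod_mul_distrib]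
      exact Finset.prod_congr rfl (fun j _ => mul_zpow _ _ _)
    rw [hχ, Units.val_mul, Units.val_mul, Matrix.mul_assoc, hs₂ r hr a, ← Matrix.mul_assoc,
      hs₁ r hr, Matrix.mul_assoc, mul_assoc]
  | inv g _ ih =>
    obtain ⟨s, hs⟩ := ih
    refine ⟨fun j => (s j)⁻¹, fun r hr a => ?_⟩
    have hχ : (∏ j : Fin D.rank, (s j)⁻¹ ^ D.cartan j r : Fˣ) =
        (∏ j : Fin D.rank, s j ^ D.cartan j r)⁻¹ := by
      rw [← Finset.prod_inv_distrib]
      exact Finset.prod_congr rfl (fun j _ => inv_zpow _ _)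
    rw [hχ]
    have h1 := hs r hr ((((∏ j : Fin D.rank, s j ^ D.cartan j r : Fˣ)⁻¹ : Fˣ) : F) * a)
    rw [← mul_assoc, ← Units.val_mul, mul_inv_cancel, Units.val_one, one_mul] at h1
    calc ((g⁻¹ : GL D.Idx F) : Matrix D.Idx D.Idx F) * D.x F r a
        = ((g⁻¹ : GL D.Idx F) : Matrix D.Idx D.Idx F) *
            (D.x F r a * (g : Matrix D.Idx D.Idx F)) *
            ((g⁻¹ : GL D.Idx F) : Matrix D.Idx D.Idx F) := by
          rw [Matrix.mul_assoc, Matrix.mul_assoc, Units.mul_inv, Matrix.mul_one]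
      _ = ((g⁻¹ : GL D.Idx F) : Matrix D.Idx D.Idx F) *
            ((g : Matrix D.Idx D.Idx F) *
              D.x F r ((((∏ j : Fin D.rank, s j ^ D.cartan j r : Fˣ)⁻¹ : Fˣ) : F) * a)) *
            ((g⁻¹ : GL D.Idx F) : Matrix D.Idx D.Idx F) := by
          rw [h1]
      _ = D.x F r ((((∏ j : Fin D.rank, s j ^ D.cartan j r : Fˣ)⁻¹ : Fˣ) : F) * a) *
            ((g⁻¹ : GL D.Idx F) : Matrix D.Idx D.Idx F) := by
          rw [← Matrix.mul_assoc, Units.inv_mul, Matrix.one_mul]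

/-- PT1: the elements of `H` act on the root elements through a character given by the
Cartan integers -/
theorem pieceT_act (hD : D ∈ lst) (h : ↥(D.group F)) (hh : h ∈ Hg F D) :
    ∃ s : Fin D.rank → Fˣ, ∀ r, r < D.nroots → ∀ a : F,
      h * xg D r a * h⁻¹ =
        xg D r (((∏ j : Fin D.rank, s j ^ D.cartan j r : Fˣ) : F) * a) := by
  have hmem : (h : GL D.Idx F) ∈ D.diagonalSubgroup F := Subgroup.mem_subgroupOf.mp hh
  obtain ⟨s, hs⟩ := pt1_core D hD (h : GL D.Idx F) hmem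
  refine ⟨s, fun r hr a => ?_⟩
  apply pt1_val_inj
  rw [Subgroup.coe_mul, Subgroup.coe_mul, Subgroup.coe_inv, Units.val_mul, Units.val_mul,
    pt1_xg_val D hD, pt1_xg_val D hD, hs r hr a, Matrix.mul_assoc, Units.mul_inv, Matrix.mul_one]

end Cfsg.Agent.Lib.Helper85.ChevDynP
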