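import Cfsg.Agent.Lib.Helper27.ChevDyn
import Cfsg.Agent.Lib.Helper25.ChevLin

/-!
# S2156 project, pieces P0 (`xg_val`) and PA (`pieceA`) (helper85 for helper27)

Basic facts on the simple root elements of a Chevalley group.
-/

set_option autoImplicit false

namespace Cfsg.Agent.Lib.Helper85.ChevDynP

open Cfsg.Lie Cfsg.Agent.Lib.Helper27.PslnOut Cfsg.Agent.Lib.Helper27.DynOut
  Cfsg.Agent.Lib.Helper27.ChevDyn

variable {F : Type*} [Field F] (D : ChevalleyDatum)

/-- P0 -/
theorem xg_val (hD : D ∈ lst) (r : ℕ) (a : F) :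
    ((xg D r a : GL D.Idx F) : Matrix D.Idx D.Idx F) = D.x F r a := by
  have hD' : D ∈ Cfsg.Agent.Lib.Helper24.chevList := hD
  have h : ∃ g : ↥(D.group F), ((g : GL D.Idx F) : Matrix D.Idx D.Idx F) = D.x F r a :=
    ⟨⟨Cfsg.Agent.Lib.Helper24.xGL D hD' r a, Cfsg.Agent.Lib.Helper24.xGL_mem_group D hD' r a⟩,
      Cfsg.Agent.Lib.Helper24.xGL_val D hD' r a⟩
  unfold xg
  rw [dif_pos h]
  exact h.choose_spec

theorem val_injG (g h : ↥(D.group F))
    (e : ((g : GL D.Idx F) : Matrix D.Idx D.Idx F) = ((h : GL D.Idx F) : Matrix D.Idx D.Idx F)) :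
    g = h :=
  Subtype.ext (Units.ext e)

open Cfsg.Agent.Lib.Helper24 Cfsg.Agent.Lib.Helper25 in
theorem pos_neg_one (hD : D ∈ lst) (r s : ℕ) (t u : F) (hr : D.IsPosRoot r)
    (hs : D.IsNegRoot s) (h : D.x F r t = D.x F s u) : D.x F r t = 1 := by
  have hD' : D ∈ chevList := hD
  have hz1 : xGL D hD' r t ∈ D.borelSubgroup F := by
    apply (le_sup_left : D.posUnipotent F ≤ D.borelSubgroup F)
    unfold ChevalleyDatum.posUnipotent
    exact Subgroup.subset_closure ⟨r, t, hr, xGL_val D hD' r t⟩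
  have hz2 : xGL D hD' r t ∈ D.negUnipotent F := by
    unfold ChevalleyDatum.negUnipotent
    exact Subgroup.subset_closure ⟨s, u, hs, by rw [xGL_val]; exact h⟩
  have hz : xGL D hD' r t ∈ D.borelSubgroup F ⊓ D.negUnipotent F :=
    Subgroup.mem_inf.2 ⟨hz1, hz2⟩
  rw [borel_inf_negUnipotent D hD', Subgroup.mem_bot] at hz
  rw [← xGL_val D hD' r t, hz, Units.val_one]

open Cfsg.Agent.Lib.Helper24 Cfsg.Agent.Lib.Helper25 in
/-- PA -/
theorem pieceA (hD : D ∈ lst) :
    (∀ (i : Fin D.rank) (a b : F), xs D i (a + b) = xs D i a * xs D i b) ∧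
    (∀ (i : Fin D.rank) (a b : F), ys D i (a + b) = ys D i a * ys D i b) ∧
    (∀ (i j : Fin D.rank) (a b : F), xs D i a = xs D j b → a ≠ 0 → i = j ∧ a = b) ∧
    (∀ (i j : Fin D.rank) (a b : F), ys D i a = ys D j b → a ≠ 0 → i = j ∧ a = b) ∧
    (∀ (i : Fin D.rank) (a : F), xs D i a ∈ Ug F D) ∧
    (∀ (i : Fin D.rank) (a : F), ys D i a ∈ Vg F D) ∧
    (∀ g : ↥(D.group F), g ∈ Ug F D → g ∈ Vg F D → g = 1) := by
  have hD' : D ∈ chevList := hD
  have hD'' : D ∈ [chevG2, chevB2, chevD4, chevF4, chevE6, chevE7, chevE8] := hD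
  have hsl : ∀ i : Fin D.rank, D.simple i < D.nroots := fun i => simple_lt D hD' i i.isLt
  have hpos : ∀ i : Fin D.rank, D.IsPosRoot (D.simple i) := fun i =>
    (upChk_all D hD'' i i.isLt).1
  have hnl : ∀ i : Fin D.rank, D.neg (D.simple i) < D.nroots := fun i =>
    (reflect_facts D hD'' i i.isLt (D.simple i) (hsl i)).2.1
  have hneg : ∀ i : Fin D.rank, D.IsNegRoot (D.neg (D.simple i)) := fun i =>
    ((sign_facts D hD'' (D.simple i) (hsl i)).2.2.2).1 (hpos i)
  have hxs : ∀ (i : Fin D.rank) (a : F),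
      ((xs D i a : GL D.Idx F) : Matrix D.Idx D.Idx F) = D.x F (D.simple i) a :=
    fun i a => xg_val D hD _ a
  have hys : ∀ (i : Fin D.rank) (a : F),
      ((ys D i a : GL D.Idx F) : Matrix D.Idx D.Idx F) = D.x F (D.neg (D.simple i)) a :=
    fun i a => xg_val D hD _ a
  have hx0 : ∀ (r : ℕ), r < D.nroots → ∀ t : F, D.x F r t = 1 → t = 0 := by
    intro r hr t h
    by_contra ht
    exact x_ne_one D hD'' r hr t ht h
  have hsame : ∀ (r : ℕ), r < D.nroots → ∀ a b : F, D.x F r a = D.x F r b → a = b := by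
    intro r hr a b h
    have h1 : D.x F r (a + -b) = 1 := by
      rw [← x_add D hD' r hr, h, x_add D hD' r hr, add_neg_cancel, Cfsg.Agent.Lib.Helper24.x_zero]
    have h2 := hx0 r hr _ h1
    linear_combination h2
  have hcancel : ∀ (i : Fin D.rank) (Y Y' : Matrix D.Idx D.Idx F),
      Y * D.nMat F (D.simple i) 1 = Y' * D.nMat F (D.simple i) 1 → Y = Y' := by
    intro i Y Y' h
    obtain ⟨N, hN⟩ := exists_nGL (F := F) D hD'' (D.simple i) (hsl i)
    rw [← hN] at h
    have h2 := congrArg (fun M => M * ((N⁻¹ : GL D.Idx F) : Matrix D.Idx D.Idx F)) h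
    simp only [Matrix.mul_assoc] at h2
    rw [← Units.val_mul, mul_inv_cancel, Units.val_one, Matrix.mul_one, Matrix.mul_one] at h2
    exact h2
  have hη : ∀ (i s : ℕ), ((nEta D i s : ℤ) : F) ≠ 0 := by
    intro i s
    rcases nEta_cases D i s with h | h <;> rw [h] <;> simp
  refine ⟨?_, ?_, ?_, ?_, ?_, ?_, ?_⟩
  · intro i a b
    apply val_injG
    rw [Subgroup.coe_mul, Units.val_mul, hxs, hxs, hxs, x_add D hD' _ (hsl i)]
  · intro i a b
    apply val_injG
    rw [Subgroup.coe_mul, Units.val_mul, hys, hys, hys, x_add D hD' _ (hnl i)]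
  · intro i j a b h ha
    have hm : D.x F (D.simple i) a = D.x F (D.simple j) b := by
      rw [← hxs, ← hxs, h]
    by_cases hij : i = j
    · refine ⟨hij, ?_⟩
      rw [← hij] at hm
      exact hsame _ (hsl i) a b hm
    · exfalso
      have hne : D.simple j ≠ D.simple i := fun e =>
        hij (Fin.ext (simple_inj D hD'' i j i.isLt j.isLt e.symm))
      obtain ⟨hrpos, _⟩ := reflect_pos D hD'' i i.isLt (D.simple j) (hpos j) hne
      have hrefl : D.reflectRoot i (D.simple i) = D.neg (D.simple i) := by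
        unfold ChevalleyDatum.reflectRoot
        simp
      have hc1 := n_simple_conj (F := F) D hD'' i i.isLt (D.simple i) (hsl i) a
      have hc2 := n_simple_conj (F := F) D hD'' i i.isLt (D.simple j) (hsl j) b
      rw [hrefl] at hc1
      rw [hm, hc2] at hc1
      have hc3 := hcancel i _ _ hc1
      have h1 := pos_neg_one D hD _ _ _ _ hrpos (hneg i) hc3
      rw [hc3] at h1
      have h0 := hx0 _ (hnl i) _ h1
      exact (mul_ne_zero (hη _ _) ha) h0
  · intro i j a b h ha
    have hm : D.x F (D.neg (D.simple i)) a = D.x F (D.neg (D.simple j)) b := by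
      rw [← hys, ← hys, h]
    by_cases hij : i = j
    · refine ⟨hij, ?_⟩
      rw [← hij] at hm
      exact hsame _ (hnl i) a b hm
    · exfalso
      have hne : D.simple j ≠ D.simple i := fun e =>
        hij (Fin.ext (simple_inj D hD'' i j i.isLt j.isLt e.symm))
      obtain ⟨hrpos, _⟩ := reflect_pos D hD'' i i.isLt (D.simple j) (hpos j) hne
      have hrefl : D.reflectRoot i (D.simple i) = D.neg (D.simple i) := by
        unfold ChevalleyDatum.reflectRoot
        simp
      have hrefl2 : D.reflectRoot i (D.neg (D.simple i)) = D.simple i := by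
        have h0 := (reflect_facts D hD'' i i.isLt (D.simple i) (hsl i)).1
        rwa [hrefl] at h0
      have hrefl3 : D.reflectRoot i (D.neg (D.simple j)) =
          D.neg (D.reflectRoot i (D.simple j)) :=
        (reflect_facts D hD'' i i.isLt (D.simple j) (hsl j)).2.2.2.1
      have hnegr : D.IsNegRoot (D.neg (D.reflectRoot i (D.simple j))) :=
        ((sign_facts D hD'' _ hrpos.1).2.2.2).1 hrpos
      have hc1 := n_simple_conj (F := F) D hD'' i i.isLt (D.neg (D.simple i)) (hnl i) a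
      have hc2 := n_simple_conj (F := F) D hD'' i i.isLt (D.neg (D.simple j)) (hnl j) b
      rw [hrefl2] at hc1
      rw [hrefl3] at hc2
      rw [hm, hc2] at hc1
      have hc3 := hcancel i _ _ hc1
      have h1 := pos_neg_one D hD _ _ _ _ (hpos i) hnegr hc3.symm
      have h0 := hx0 _ (hsl i) _ h1
      exact (mul_ne_zero (hη _ _) ha) h0
  · intro i a
    refine Subgroup.mem_subgroupOf.mpr ?_
    unfold ChevalleyDatum.posUnipotent
    exact Subgroup.subset_closure ⟨D.simple i, a, hpos i, hxs i a⟩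
  · intro i a
    refine Subgroup.mem_subgroupOf.mpr ?_
    unfold ChevalleyDatum.negUnipotent
    exact Subgroup.subset_closure ⟨D.neg (D.simple i), a, hneg i, hys i a⟩
  · intro g hgU hgV
    have h1 : (g : GL D.Idx F) ∈ D.borelSubgroup F :=
      (le_sup_left : D.posUnipotent F ≤ D.borelSubgroup F) (Subgroup.mem_subgroupOf.mp hgU)
    have h2 : (g : GL D.Idx F) ∈ D.negUnipotent F := Subgroup.mem_subgroupOf.mp hgV
    have hz : (g : GL D.Idx F) ∈ D.borelSubgroup F ⊓ D.negUnipotent F :=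
      Subgroup.mem_inf.2 ⟨h1, h2⟩
    rw [borel_inf_negUnipotent D hD', Subgroup.mem_bot] at hz
    exact Subtype.ext hz

end Cfsg.Agent.Lib.Helper85.ChevDynP
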