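import Cfsg.Agent.Lib.Helper42.Fusion5
import Cfsg.Agent.Lib.Helper85.SqfSOLV

/-!
# S5121 project, piece NS-GA2 (helper85 for helper30)

`H := T ⊔ O^p(H₂)` is normal in `G` and `S ⊓ H ≤ T`.
-/

set_option autoImplicit false
open scoped commutatorElement

namespace Cfsg.Agent.Lib.Helper85

section NSubGA2

variable {G : Type*} [Group G]

theorem ga2_closure_normal (p : ℕ) (H₂ : Subgroup G) [hH : H₂.Normal] :
    (Subgroup.closure {x | x ∈ H₂ ∧ (orderOf x).Coprime p}).Normal := by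
  constructor
  intro n hn g
  induction hn using Subgroup.closure_induction with
  | mem x hx =>
    apply Subgroup.subset_closure
    refine ⟨hH.conj_mem x hx.1 g, ?_⟩
    have h1 : orderOf (g * x * g⁻¹) = orderOf x := by
      have h2 := orderOf_injective (MulAut.conj g).toMonoidHom (MulAut.conj g).injective x
      simpa using h2
    rw [h1]
    exact hx.2
  | one => simp
  | mul a b _ _ iha ihb =>
    have e : g * (a * b) * g⁻¹ = (g * a * g⁻¹) * (g * b * g⁻¹) := by group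
    rw [e]
    exact Subgroup.mul_mem _ iha ihb
  | inv a _ iha =>
    have e : g * a⁻¹ * g⁻¹ = (g * a * g⁻¹)⁻¹ := by group
    rw [e]
    exact Subgroup.inv_mem _ iha

theorem ga2_mem_normalizer {S T R : Subgroup G}
    (hsc : ∀ t ∈ T, ∀ g : G, g * t * g⁻¹ ∈ S → g * t * g⁻¹ ∈ T)
    (hTR : T ≤ R) (hRS : R ≤ S) {g : G} (hg : g ∈ Subgroup.normalizer (R : Set G)) :
    g ∈ Subgroup.normalizer (T : Set G) := by
  rw [Subgroup.mem_normalizer_iff] at hg ⊢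
  intro t
  constructor
  · intro ht
    exact hsc t ht g (hRS ((hg t).mp (hTR ht)))
  · intro ht
    have htR : t ∈ R := (hg t).mpr (hTR ht)
    have e : g⁻¹ * (g * t * g⁻¹) * g⁻¹⁻¹ = t := by group
    have h1 := hsc (g * t * g⁻¹) ht g⁻¹ (by rw [e]; exact hRS htR)
    rwa [e] at h1

theorem ga2_normalizer_sup {T O : Subgroup G} [O.Normal] :
    Subgroup.normalizer (T : Set G) ≤ Subgroup.normalizer ((T ⊔ O : Subgroup G) : Set G) := by
  intro g hg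
  rw [Subgroup.mem_normalizer_iff_map_conj_eq] at hg ⊢
  rw [Subgroup.map_sup, hg, Subgroup.Normal.map_conj_eq O g]

theorem ga2_le_sup [Finite G] {p : ℕ} [Fact p.Prime] {R H₂ O : Subgroup G} [O.Normal]
    (hR : ¬ p ∣ R.relIndex H₂)
    (hO : ∀ x ∈ H₂, (orderOf x).Coprime p → x ∈ O) : H₂ ≤ R ⊔ O := by
  have hp := (Fact.out : p.Prime)
  have hpg : IsPGroup p (↥H₂ ⧸ O.subgroupOf H₂) := by
    intro y
    obtain ⟨g, rfl⟩ := QuotientGroup.mk_surjective y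
    obtain ⟨a, m, hm, ham⟩ :=
      Nat.exists_eq_pow_mul_and_not_dvd (orderOf_pos g).ne' p hp.ne_one
    refine ⟨a, ?_⟩
    have hdvd : orderOf (g ^ p ^ a) ∣ m := by
      apply orderOf_dvd_of_pow_eq_one
      rw [← pow_mul, ← ham, pow_orderOf_eq_one]
    have hcop : (orderOf (g ^ p ^ a)).Coprime p :=
      Nat.Coprime.coprime_dvd_left hdvd ((Nat.Prime.coprime_iff_not_dvd hp).mpr hm).symm
    have hmemO : ((g ^ p ^ a : ↥H₂) : G) ∈ O :=
      hO _ (g ^ p ^ a).2 (by rw [Subgroup.orderOf_coe]; exact hcop)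
    rw [← QuotientGroup.mk_pow]
    exact (QuotientGroup.eq_one_iff _).mpr (Subgroup.mem_subgroupOf.mpr hmemO)
  obtain ⟨n, hn⟩ := IsPGroup.iff_card.mp hpg
  have hOidx : O.relIndex H₂ = p ^ n := by
    rw [← hn]
    rfl
  have h1 : (R ⊔ O).relIndex H₂ ∣ R.relIndex H₂ :=
    Subgroup.relIndex_dvd_of_le_left H₂ le_sup_left
  have h2 : (R ⊔ O).relIndex H₂ ∣ O.relIndex H₂ :=
    Subgroup.relIndex_dvd_of_le_left H₂ le_sup_right
  rw [hOidx] at h2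
  have hcop : Nat.Coprime (p ^ n) (R.relIndex H₂) :=
    Nat.Coprime.pow_left n ((Nat.Prime.coprime_iff_not_dvd hp).mpr hR)
  exact Subgroup.relIndex_eq_one.mp (Nat.eq_one_of_dvd_coprimes hcop h2 h1)

theorem ga2_pelem_comm [Finite G] {p : ℕ} [Fact p.Prime] {H₂ : Subgroup G} {o : G}
    (hoO : o ∈ Subgroup.closure {x | x ∈ H₂ ∧ (orderOf x).Coprime p})
    (hop : ∃ k : ℕ, o ^ p ^ k = 1) : o ∈ ⁅H₂, H₂⁆ := by
  have hp := (Fact.out : p.Prime)
  obtain ⟨m, hm⟩ : ∃ m : ℕ, m = ordCompl[p] (Nat.card (Abelianization ↥H₂)) := ⟨_, rfl⟩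
  have hmcop : Nat.Coprime p m := by
    rw [hm]
    exact Nat.coprime_ordCompl hp Nat.card_pos.ne'
  let φ : ↥H₂ →* Abelianization ↥H₂ := Abelianization.of
  let ψ : ↥H₂ →* Abelianization ↥H₂ := (powMonoidHom m).comp φ
  have hψ : ∀ x, ψ x = φ x ^ m := fun x => rfl
  have hle : Subgroup.closure {x | x ∈ H₂ ∧ (orderOf x).Coprime p} ≤ ψ.ker.map H₂.subtype := by
    rw [Subgroup.closure_le]
    rintro x ⟨hx, hcop⟩
    refine ⟨⟨x, hx⟩, ?_, rfl⟩
    show (⟨x, hx⟩ : ↥H₂) ∈ ψ.ker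
    rw [MonoidHom.mem_ker, hψ]
    have h1 : orderOf (φ ⟨x, hx⟩) ∣ orderOf x := by
      have h0 := orderOf_map_dvd φ (⟨x, hx⟩ : ↥H₂)
      rwa [Subgroup.orderOf_mk] at h0
    have h2 : orderOf (φ ⟨x, hx⟩) ∣ Nat.card (Abelianization ↥H₂) := orderOf_dvd_natCard _
    have h3 : orderOf (φ ⟨x, hx⟩) ∣ m := by
      have hc : (orderOf (φ ⟨x, hx⟩)).Coprime (ordProj[p] (Nat.card (Abelianization ↥H₂))) :=
        Nat.Coprime.pow_right _ (Nat.Coprime.coprime_dvd_left h1 hcop)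
      rw [← Nat.ordProj_mul_ordCompl_eq_self (Nat.card (Abelianization ↥H₂)) p, ← hm] at h2
      exact hc.dvd_of_dvd_mul_left h2
    exact orderOf_dvd_iff_pow_eq_one.mp h3
  obtain ⟨o', ho'ker, ho'eq⟩ := hle hoO
  have ho'eq' : (o' : G) = o := ho'eq
  obtain ⟨k, hk⟩ := hop
  have hφ1 : φ o' ^ m = 1 := by
    have h0 := MonoidHom.mem_ker.mp ho'ker
    rwa [hψ] at h0
  have hφ2 : φ o' ^ p ^ k = 1 := by
    rw [← map_pow]
    have h0 : o' ^ p ^ k = 1 := by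
      apply Subtype.ext
      rw [Subgroup.coe_pow, Subgroup.coe_one, ho'eq', hk]
    rw [h0, map_one]
  have hφ : φ o' = 1 := by
    rw [← orderOf_eq_one_iff]
    have d1 := orderOf_dvd_of_pow_eq_one hφ1
    have d2 := orderOf_dvd_of_pow_eq_one hφ2
    exact Nat.eq_one_of_dvd_coprimes (Nat.Coprime.pow_left k hmcop) d2 d1
  have hker : o' ∈ commutator ↥H₂ := by
    rw [← Abelianization.ker_of]
    exact MonoidHom.mem_ker.mpr hφ
  rw [← Subgroup.map_subtype_commutator]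
  exact ⟨o', hker, ho'eq⟩

end NSubGA2

theorem nsub_ga2 {G : Type*} [Group G] [Finite G] {p : ℕ} [Fact p.Prime] (S : Sylow p G)
    (T H₂ X : Subgroup G) [H₂.Normal] [X.Normal]
    (hTS : T ≤ S)
    (hsc : ∀ t ∈ T, ∀ g : G, g * t * g⁻¹ ∈ (S : Subgroup G) → g * t * g⁻¹ ∈ T)
    (hTH : T ≤ H₂) (hXH : X ≤ H₂) (hXS : X ≤ S)
    (hXc : ∀ x ∈ X, ∀ h ∈ H₂, h * x * h⁻¹ * x⁻¹ ∈ T)
    (hsyl : ∀ s ∈ (S : Subgroup G), s ∈ H₂ → ∃ t ∈ T, t⁻¹ * s ∈ X) :
    ∃ H : Subgroup G, H.Normal ∧ T ≤ H ∧ H ≤ H₂ ∧ (S : Subgroup G) ⊓ H ≤ T ∧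
      ∀ x ∈ H₂, (orderOf x).Coprime p → x ∈ H := by
  have hp := (Fact.out : p.Prime)
  obtain ⟨O, hOdef⟩ : ∃ O : Subgroup G,
      O = Subgroup.closure {x | x ∈ H₂ ∧ (orderOf x).Coprime p} := ⟨_, rfl⟩
  have hOn : O.Normal := by
    rw [hOdef]
    exact ga2_closure_normal p H₂
  have hOH : O ≤ H₂ := by
    rw [hOdef]
    exact (Subgroup.closure_le _).mpr (fun x hx => hx.1)
  have hOgen : ∀ x ∈ H₂, (orderOf x).Coprime p → x ∈ O := fun x hx hc => by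
    rw [hOdef]
    exact Subgroup.subset_closure ⟨hx, hc⟩
  obtain ⟨S₂, hS₂⟩ : ∃ S₂ : Subgroup G, S₂ = (S : Subgroup G) ⊓ H₂ := ⟨_, rfl⟩
  have hS₂S : S₂ ≤ S := by
    rw [hS₂]
    exact inf_le_left
  have hS₂H : S₂ ≤ H₂ := by
    rw [hS₂]
    exact inf_le_right
  have hmemS₂ : ∀ x, x ∈ (S : Subgroup G) → x ∈ H₂ → x ∈ S₂ := fun x h1 h2 => by
    rw [hS₂]
    exact ⟨h1, h2⟩
  have hTS₂ : T ≤ S₂ := fun t ht => hmemS₂ t (hTS ht) (hTH ht)
  have hidx : ¬ p ∣ (S : Subgroup G).relIndex H₂ := fun h =>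
    S.not_dvd_index (dvd_trans h
      (Cfsg.Agent.Lib.Helper85.SqfSOLV.relIndex_dvd_index_normal_right (S : Subgroup G) H₂))
  have hidx₂ : ¬ p ∣ S₂.relIndex H₂ := by
    rw [hS₂, Subgroup.inf_relIndex_right]
    exact hidx
  have hSylIn : Cfsg.Agent.Lib.Helper42.IsSylIn p S₂ H₂ :=
    ⟨hS₂H, S.isPGroup'.to_le hS₂S, hidx₂⟩
  have hH₂le : H₂ ≤ S₂ ⊔ O := ga2_le_sup hidx₂ hOgen
  have hNT_le : Subgroup.normalizer (T : Set G) ≤
      Subgroup.normalizer ((T ⊔ O : Subgroup G) : Set G) := ga2_normalizer_sup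
  have hS_NT : (S : Subgroup G) ≤ Subgroup.normalizer (T : Set G) := fun s hs =>
    ga2_mem_normalizer hsc hTS le_rfl (Subgroup.le_normalizer hs)
  have hNS₂_NT : Subgroup.normalizer (S₂ : Set G) ≤ Subgroup.normalizer (T : Set G) :=
    fun n hn => ga2_mem_normalizer hsc hTS₂ hS₂S hn
  have hO_NH : O ≤ Subgroup.normalizer ((T ⊔ O : Subgroup G) : Set G) :=
    le_trans le_sup_right Subgroup.le_normalizer
  have hH₂_NH : H₂ ≤ Subgroup.normalizer ((T ⊔ O : Subgroup G) : Set G) := by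
    refine le_trans hH₂le (sup_le ?_ hO_NH)
    exact le_trans hS₂S (le_trans hS_NT hNT_le)
  have hfr : Subgroup.normalizer (S₂ : Set G) ⊔ H₂ = ⊤ := by
    let P : Sylow p ↥H₂ := IsPGroup.toSylow (P := (S : Subgroup G).subgroupOf H₂)
      S.isPGroup'.comap_subtype hidx
    have h0 := Sylow.normalizer_sup_eq_top P
    have e : ((P : Subgroup ↥H₂).map H₂.subtype) = S₂ := by
      rw [hS₂]
      exact Subgroup.subgroupOf_map_subtype _ _
    rwa [e] at h0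
  have hHnorm : (T ⊔ O).Normal := by
    rw [← Subgroup.normalizer_eq_top_iff, eq_top_iff, ← hfr]
    exact sup_le (le_trans hNS₂_NT hNT_le) hH₂_NH
  refine ⟨T ⊔ O, hHnorm, le_sup_left, sup_le hTH hOH, ?_,
    fun x hx hc => Subgroup.mem_sup_right (hOgen x hx hc)⟩
  rintro s ⟨hsS, hsH⟩
  obtain ⟨t, ht, o, ho, rfl⟩ := Subgroup.mem_sup_of_normal_right.mp hsH
  have hoS : o ∈ (S : Subgroup G) := by
    have e : o = t⁻¹ * (t * o) := by group
    rw [e]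
    exact Subgroup.mul_mem _ (Subgroup.inv_mem _ (hTS ht)) hsS
  have ho' : o ∈ Subgroup.closure {x | x ∈ H₂ ∧ (orderOf x).Coprime p} := by
    rw [← hOdef]
    exact ho
  have hoc : o ∈ ⁅H₂, H₂⁆ := by
    apply ga2_pelem_comm (p := p) ho'
    obtain ⟨k, hk⟩ := S.isPGroup' ⟨o, hoS⟩
    exact ⟨k, by simpa [Subtype.ext_iff] using hk⟩
  have hfocal : S₂ ⊓ ⁅H₂, H₂⁆ ≤ T := by
    apply Cfsg.Agent.Lib.Helper42.focal_le hSylIn
    intro x hx u hu hux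
    obtain ⟨t1, ht1, hx'⟩ := hsyl x (hS₂S hx) (hS₂H hx)
    obtain ⟨x', hx'def⟩ : ∃ x' : G, x' = t1⁻¹ * x := ⟨_, rfl⟩
    rw [← hx'def] at hx'
    have hux' : u * x' * u⁻¹ ∈ X := ‹X.Normal›.conj_mem x' hx' u
    have hut : u * t1 * u⁻¹ ∈ T := by
      apply hsc t1 ht1 u
      have e : u * t1 * u⁻¹ = (u * x * u⁻¹) * (u * x' * u⁻¹)⁻¹ := by
        rw [hx'def]
        group
      rw [e]
      exact Subgroup.mul_mem _ (hS₂S hux) (Subgroup.inv_mem _ (hXS hux'))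
    have hc := hXc x' hx' u hu
    have e : ⁅u, x⁆ = (u * t1 * u⁻¹) * (u * x' * u⁻¹ * x'⁻¹) * t1⁻¹ := by
      rw [commutatorElement_def, hx'def]
      group
    rw [e]
    exact T.mul_mem (T.mul_mem hut hc) (T.inv_mem ht1)
  have hoT : o ∈ T := hfocal ⟨hmemS₂ o hoS (hOH ho), hoc⟩
  exact T.mul_mem ht hoT

end Cfsg.Agent.Lib.Helper85
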