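import Mathlib
import Cfsg.Agent.S4479
import Cfsg.Agent.Lib.Helper79.Klein2

/-!
# S4501 project (helper30), piece K5

`|C(J)| = 4` and the order formula S4479 with signs `(1,-1,-1)` force `|G| = 60`.
-/

set_option autoImplicit false

namespace Cfsg.Agent.Lib.Helper30.S4501.K5

theorem arith (g₀ c : ℕ) (h : g₀ * ((c + 6) * (c + 2)) = 12 * ((c + 3) * (c + 5))) :
    c = 0 ∧ g₀ = 15 := by
  have hg : 13 ≤ g₀ := by
    by_contra hlt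
    have h12 : g₀ ≤ 12 := by omega
    nlinarith [Nat.mul_le_mul_right ((c + 6) * (c + 2)) h12]
  have hc : c ≤ 2 := by
    by_contra hgt
    have h3 : 3 ≤ c := by omega
    nlinarith [Nat.mul_le_mul_right ((c + 6) * (c + 2)) hg, Nat.mul_le_mul_right c h3]
  interval_cases c
  · constructor
    · rfl
    · omega
  · omega
  · omega

/-- the arithmetic core: `g₀ (A+1)(B-1)(C-1) = 8ABC`, `B = 3`, `1 + A = B + C`, `C ≥ 3` -/
theorem arith' (g₀ A C : ℕ) (hC3 : 3 ≤ C) (hrel : 1 + A = 3 + C)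
    (h : (g₀ : ℚ) * (((A : ℚ) + 1) * ((3 : ℚ) - 1) * ((C : ℚ) - 1)) = 8 * ((A : ℚ) * 3 * C)) :
    g₀ = 15 := by
  obtain ⟨c, rfl⟩ : ∃ c, C = c + 3 := ⟨C - 3, by omega⟩
  have hA : A = c + 5 := by omega
  subst hA
  have h' : g₀ * ((c + 6) * (c + 2)) = 12 * ((c + 3) * (c + 5)) := by
    have h2 : ((g₀ * ((c + 6) * (c + 2)) : ℕ) : ℚ) = ((12 * ((c + 3) * (c + 5)) : ℕ) : ℚ) := by
      push_cast
      push_cast at h
      linear_combination h / 2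
    exact_mod_cast h2
  exact (arith g₀ c h').2

/-- K5 -/
theorem order_sixty_of_centralizer {G : Type*} [Group G] [Finite G] (M : Ideal Cfsg.AlgInt)
    (hM : Cfsg.IsPModular 2 M) (g₀ : ℕ) (hg₀ : Odd g₀) (hG : Nat.card G = 4 * g₀)
    (hnc : ¬ ∃ N : Subgroup G, N.Normal ∧ Nat.card N = g₀) (P : Sylow 2 G) (J : G)
    (hJ : J ∈ (P : Subgroup G)) (hJ2 : orderOf J = 2) (ζ₂ ζ₃ ζ₄ : Cfsg.IrrCharacter G)
    (hB : Cfsg.principalBlock M G = {χ : Cfsg.IrrCharacter G |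
        (χ : G → ℂ) = (fun _ => 1) ∨ χ = ζ₂ ∨ χ = ζ₃ ∨ χ = ζ₄})
    (hdist : (ζ₂ : G → ℂ) ≠ (fun _ => 1) ∧ (ζ₃ : G → ℂ) ≠ (fun _ => 1) ∧
      (ζ₄ : G → ℂ) ≠ (fun _ => 1) ∧ ζ₂ ≠ ζ₃ ∧ ζ₂ ≠ ζ₄ ∧ ζ₃ ≠ ζ₄)
    (hval : (ζ₂ : G → ℂ) J = 1 ∧ (ζ₃ : G → ℂ) J = -1 ∧ (ζ₄ : G → ℂ) J = -1)
    (hB3 : 3 ≤ Cfsg.charDegree (ζ₃ : G → ℂ)) (hC3 : 3 ≤ Cfsg.charDegree (ζ₄ : G → ℂ))
    (hrel : 1 + Cfsg.charDegree (ζ₂ : G → ℂ) =
      Cfsg.charDegree (ζ₃ : G → ℂ) + Cfsg.charDegree (ζ₄ : G → ℂ))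
    (h3 : Cfsg.charDegree (ζ₃ : G → ℂ) = 3 ∨ Cfsg.charDegree (ζ₄ : G → ℂ) = 3)
    (hcJ : Nat.card (Subgroup.centralizer ({J} : Set G)) = 4) : Nat.card G = 60 := by
  have hP : Nat.card P = 4 := Cfsg.Agent.Lib.Helper79.card_sylow_two_of_card g₀ hg₀ hG P
  have hPC : (P : Subgroup G) ≤ Subgroup.centralizer ((P : Subgroup G) : Set G) := by
    intro x hx
    rw [Subgroup.mem_centralizer_iff]
    intro y hy
    exact Cfsg.Agent.Lib.Helper79.sylow_four_comm P hP hy hx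
  have hCC : Subgroup.centralizer ((P : Subgroup G) : Set G)
      ≤ Subgroup.centralizer ({J} : Set G) :=
    Subgroup.centralizer_le (by
      intro x hx
      rw [Set.mem_singleton_iff.mp hx]
      exact hJ)
  have hcP : Nat.card (Subgroup.centralizer ((P : Subgroup G) : Set G)) = 4 := by
    have h1 : Nat.card P ≤ Nat.card (Subgroup.centralizer ((P : Subgroup G) : Set G)) :=
      Subgroup.card_le_of_le hPC
    have h2 := Subgroup.card_le_of_le hCC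
    rw [hP] at h1
    rw [hcJ] at h2
    omega
  have hval' : (ζ₂ : G → ℂ) J = ((1 : ℤ) : ℂ) ∧ (ζ₃ : G → ℂ) J = ((-1 : ℤ) : ℂ) ∧
      (ζ₄ : G → ℂ) J = ((-1 : ℤ) : ℂ) := by
    refine ⟨?_, ?_, ?_⟩
    · rw [hval.1]; norm_num
    · rw [hval.2.1]; norm_num
    · rw [hval.2.2]; norm_num
  have key := Cfsg.Agent.S4479.result M hM g₀ hg₀ hG hnc P J hJ hJ2 ζ₂ ζ₃ ζ₄ 1 (-1) (-1) hB hdist
    ⟨Or.inl rfl, Or.inr rfl, Or.inr rfl⟩ hval'
  rw [hG, hcJ, hcP] at key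
  obtain ⟨A, hA⟩ : ∃ A : ℕ, A = Cfsg.charDegree (ζ₂ : G → ℂ) := ⟨_, rfl⟩
  obtain ⟨B, hBd⟩ : ∃ B : ℕ, B = Cfsg.charDegree (ζ₃ : G → ℂ) := ⟨_, rfl⟩
  obtain ⟨C, hCd⟩ : ∃ C : ℕ, C = Cfsg.charDegree (ζ₄ : G → ℂ) := ⟨_, rfl⟩
  rw [← hA, ← hBd, ← hCd] at key hrel
  rw [← hBd] at hB3 h3
  rw [← hCd] at hC3 h3
  have hB1 : ((B : ℚ) - 1) ≠ 0 := by
    have : (3 : ℚ) ≤ B := by exact_mod_cast hB3
    intro h; linarith
  have hC1 : ((C : ℚ) - 1) ≠ 0 := by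
    have : (3 : ℚ) ≤ C := by exact_mod_cast hC3
    intro h; linarith
  have hA1 : ((A : ℚ) + 1) ≠ 0 := by
    have : (0 : ℚ) ≤ A := Nat.cast_nonneg A
    intro h; linarith
  have key2 : (g₀ : ℚ) * (((A : ℚ) + 1) * ((B : ℚ) - 1) * ((C : ℚ) - 1))
      = 8 * ((A : ℚ) * B * C) := by
    push_cast at key
    have e : ((A : ℚ) + 1) * ((B : ℚ) + -1) * ((C : ℚ) + -1)
        = ((A : ℚ) + 1) * ((B : ℚ) - 1) * ((C : ℚ) - 1) := by ring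
    rw [e] at key
    field_simp at key
    linear_combination key
  have hg15 : g₀ = 15 := by
    rcases h3 with h3 | h3
    · subst h3
      exact arith' g₀ A C hC3 (by omega) (by exact_mod_cast key2)
    · subst h3
      refine arith' g₀ A B hB3 (by omega) ?_
      have : (g₀ : ℚ) * (((A : ℚ) + 1) * ((3 : ℚ) - 1) * ((B : ℚ) - 1)) = 8 * ((A : ℚ) * 3 * B) := by
        have k := key2
        push_cast at k
        linear_combination k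
      exact this
  rw [hG, hg15]

end Cfsg.Agent.Lib.Helper30.S4501.K5
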