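import Mathlib
import Cfsg.Agent.Lib.Helper47.InvSL

/-!
# S5980 (helper98), piece TD2-INVCP

A symplectic involution has characteristic polynomial `(X-1)^(2(d-t)) (X+1)^(2t)`.
-/

set_option autoImplicit false

namespace Cfsg.Agent.Lib.Helper98.TD2

open Matrix Polynomial
open scoped Kronecker

universe u

/-! ### TD2-INVCP -/
theorem charpoly_of_sq_one {F : Type*} [Field F] (h2 : (2 : F) ≠ 0) {d : ℕ}
    (M : Matrix (Fin d ⊕ Fin d) (Fin d ⊕ Fin d) F) (hM : M ∈ Matrix.symplecticGroup (Fin d) F)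
    (hsq : M * M = 1) :
    ∃ t : ℕ, t ≤ d ∧ M.charpoly = (X - 1) ^ (2 * (d - t)) * (X + 1) ^ (2 * t) := by
  have hne : (1 : F) ≠ -1 := by
    intro h
    apply h2
    linear_combination h
  have h3 : Matrix.toLin' M * Matrix.toLin' M = 1 := by
    rw [Module.End.mul_eq_comp, ← Matrix.toLin'_mul, hsq, Matrix.toLin'_one]
    rfl
  have haev : aeval (Matrix.toLin' M) ((X - C 1) * (X - C (-1)) : F[X]) = 0 := by
    have h1 : ((X - C 1) * (X - C (-1)) : F[X]) = X ^ 2 - 1 := by
      rw [map_neg, map_one]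
      ring
    rw [h1]
    simp only [map_sub, map_pow, aeval_X, map_one]
    rw [pow_two, h3]
    exact sub_self _
  obtain ⟨-, α, β, hχ⟩ := Cfsg.Agent.Lib.Helper47.charpoly_two_roots (Fin d ⊕ Fin d → F)
    (Matrix.toLin' M) 1 (-1) hne haev
  rw [Matrix.charpoly_toLin'] at hχ
  have hdeg : α + β = 2 * d := by
    have h4 := Matrix.charpoly_natDegree_eq_dim M
    rw [hχ, Polynomial.Monic.natDegree_mul ((monic_X_sub_C 1).pow α) ((monic_X_sub_C (-1)).pow β),
      Polynomial.Monic.natDegree_pow (monic_X_sub_C 1),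
      Polynomial.Monic.natDegree_pow (monic_X_sub_C (-1)), natDegree_X_sub_C, natDegree_X_sub_C,
      Fintype.card_sum, Fintype.card_fin] at h4
    omega
  have hdet : M.det = 1 := SymplecticGroup.det_eq_one hM
  have hα : Even α := by
    have h4 := Matrix.det_eq_sign_charpoly_coeff M
    rw [hdet, hχ, Fintype.card_sum, Fintype.card_fin, Polynomial.coeff_zero_eq_eval_zero] at h4
    simp only [eval_mul, eval_pow, eval_sub, eval_X, eval_C, zero_sub, neg_neg, one_pow,
      mul_one] at h4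
    have h5 : ((-1 : F)) ^ (d + d) = 1 := by
      rw [← two_mul, pow_mul]
      simp
    rw [h5, one_mul] at h4
    exact (neg_one_pow_eq_one_iff_even (fun h => hne h.symm)).mp h4.symm
  obtain ⟨a, ha⟩ := hα
  refine ⟨d - a, Nat.sub_le _ _, ?_⟩
  rw [hχ]
  have e1 : 2 * (d - (d - a)) = α := by omega
  have e2 : 2 * (d - a) = β := by omega
  rw [e1, e2, map_neg, map_one, sub_neg_eq_add]

end Cfsg.Agent.Lib.Helper98.TD2
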