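import Mathlib
import Cfsg.Agent.Lib.Helper48.SVA

/-!
# S2425 (helper48), piece PARAB

`g ∈ parabolicGL n F μ` iff `g` maps each standard subspace `stdSub (psum μ i)` into itself.
-/

set_option autoImplicit false

namespace Cfsg.Agent.Lib.Helper48.SV

open Cfsg
open scoped MatrixGroups Polynomial

theorem parab_inner {n : ℕ} (μ : Fin n → ℕ) (j : Fin n) :
    (∑ k ∈ Finset.univ.filter (fun k : Fin n => k ≤ j), μ k) = psum μ (j.val + 1) := by
  unfold psum
  rw [Finset.sum_filter]
  apply Finset.sum_congr rfl
  intro k _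
  by_cases h : k ≤ j
  · have h2 : k.val < j.val + 1 := Nat.lt_succ_of_le h
    rw [if_pos h, if_pos h2]
  · have h2 : ¬ k.val < j.val + 1 := fun h3 => h (Nat.le_of_lt_succ h3)
    rw [if_neg h, if_neg h2]

theorem parab_label {n : ℕ} (μ : Fin n → ℕ) (a : Fin n) :
    compLabel μ a = (Finset.univ.filter fun j : Fin n => psum μ (j.val + 1) ≤ a.val).card := by
  unfold compLabel
  simp only [parab_inner]

theorem parab_label_lt {n : ℕ} (μ : Fin n → ℕ) (a b : Fin n) :
    compLabel μ b < compLabel μ a ↔
      ∃ j : Fin n, b.val < psum μ (j.val + 1) ∧ psum μ (j.val + 1) ≤ a.val := by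
  rw [parab_label, parab_label]
  constructor
  · intro hlt
    by_contra hcon
    push Not at hcon
    have hsub : (Finset.univ.filter fun j : Fin n => psum μ (j.val + 1) ≤ a.val) ⊆
        (Finset.univ.filter fun j : Fin n => psum μ (j.val + 1) ≤ b.val) := by
      intro j hj
      rw [Finset.mem_filter] at hj ⊢
      refine ⟨hj.1, ?_⟩
      by_contra hb
      have h5 := hcon j (Nat.lt_of_not_le hb)
      have h6 := hj.2
      omega
    have := Finset.card_le_card hsub
    omega
  · rintro ⟨j, hbj, hja⟩
    apply Finset.card_lt_card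
    rw [Finset.ssubset_iff_of_subset]
    · refine ⟨j, ?_, ?_⟩
      · rw [Finset.mem_filter]
        exact ⟨Finset.mem_univ _, hja⟩
      · rw [Finset.mem_filter]
        intro h
        have := h.2
        omega
    · intro j' hj'
      rw [Finset.mem_filter] at hj' ⊢
      refine ⟨hj'.1, ?_⟩
      have := hj'.2
      omega

section Flag

variable {F : Type*} [Field F] {n : ℕ}

/-- piece PARAB -/
theorem mem_parabolic_iff (μ : Fin n → ℕ) (g : GL (Fin n) F) :
    g ∈ parabolicGL n F μ ↔ ∀ i : Fin (n + 1),
      (stdSub F n (psum μ i.val)).map (Matrix.toLin' (g : Matrix (Fin n) (Fin n) F)) ≤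
        stdSub F n (psum μ i.val) := by
  have hmem : g ∈ parabolicGL n F μ ↔
      (g : Matrix (Fin n) (Fin n) F).BlockTriangular (compLabel μ) := Iff.rfl
  rw [hmem]
  constructor
  · intro hbt i
    rintro _ ⟨v, hv, rfl⟩
    rw [mem_stdSub]
    intro a ha
    rw [Matrix.toLin'_apply]
    show ∑ b, (g : Matrix (Fin n) (Fin n) F) a b * v b = 0
    apply Finset.sum_eq_zero
    intro b _
    by_cases hb : psum μ i.val ≤ b.val
    · rw [(mem_stdSub v).mp hv b hb, mul_zero]
    · have hb' : b.val < psum μ i.val := Nat.lt_of_not_le hb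
      have hi0 : i.val ≠ 0 := by
        intro h0
        rw [h0, psum_zero] at hb'
        omega
      have hilt := i.isLt
      have hlt : compLabel μ b < compLabel μ a := by
        rw [parab_label_lt]
        refine ⟨⟨i.val - 1, by omega⟩, ?_, ?_⟩
        · show b.val < psum μ (i.val - 1 + 1)
          rw [Nat.sub_add_cancel (by omega)]
          exact hb'
        · show psum μ (i.val - 1 + 1) ≤ a.val
          rw [Nat.sub_add_cancel (by omega)]
          exact ha
      rw [hbt hlt, zero_mul]
  · intro hall a b hlt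
    rw [parab_label_lt] at hlt
    obtain ⟨j, hbj, hja⟩ := hlt
    have h1 := hall ⟨j.val + 1, Nat.succ_lt_succ j.isLt⟩
    have h2 : (Pi.single b 1 : Fin n → F) ∈ stdSub F n (psum μ (j.val + 1)) := by
      rw [mem_stdSub]
      intro c hc
      rw [Pi.single_eq_of_ne]
      intro hcb
      rw [hcb] at hc
      omega
    have h3 := h1 (Submodule.mem_map_of_mem h2)
    rw [mem_stdSub] at h3
    have h4 := h3 a hja
    rw [Matrix.toLin'_apply, Matrix.mulVec_single_one] at h4
    exact h4

end Flag

end Cfsg.Agent.Lib.Helper48.SV
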