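import Mathlib
import Cfsg.Agent.Lib.Helper51.GFDefs

/-!
# S2717 piece GF-MODEL (helper85): the twist of the isometry `gT` is the reflection in `gV`
-/

set_option autoImplicit false

namespace Cfsg.Agent.Lib.Helper85.GFMODEL

open Module QuadraticMap Matrix
open Cfsg Cfsg.Agent.Lib.Helper51 Cfsg.Agent.Lib.Helper54 Cfsg.Agent.Lib.Helper51.GF

universe u

theorem single_fixed {F : Type u} [Field F] {ι : Type} [DecidableEq ι] (σ : F ≃+* F) (c a : ι) :
    σ ((Pi.single c (1 : F) : ι → F) a) = (Pi.single c (1 : F) : ι → F) a := by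
  rw [Pi.single_apply]
  split_ifs
  · exact map_one σ
  · exact map_zero σ

theorem gT_apply {F : Type u} [Field F] (k : ℕ) (σ : F ≃+* F) (lam : F)
    (r : (Fin k ⊕ Fin k) ⊕ Fin 2) (c : Fin (k + 1) ⊕ Fin (k + 1)) :
    gT k σ lam r c =
      plusToMinus k lam 1 (σ lam / gDd σ lam) (1 / gDd σ lam) (Pi.single c 1) r := by
  unfold gT
  rw [LinearMap.toMatrix'_apply]

theorem gT_inl_inl {F : Type u} [Field F] (k : ℕ) (σ : F ≃+* F) (lam : F)
    (i : Fin k) (c : Fin (k + 1) ⊕ Fin (k + 1)) :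
    gT k σ lam (Sum.inl (Sum.inl i)) c =
      (Pi.single c (1 : F) : Fin (k + 1) ⊕ Fin (k + 1) → F) (Sum.inl i.castSucc) := by
  rw [gT_apply]; rfl

theorem gT_inl_inr {F : Type u} [Field F] (k : ℕ) (σ : F ≃+* F) (lam : F)
    (i : Fin k) (c : Fin (k + 1) ⊕ Fin (k + 1)) :
    gT k σ lam (Sum.inl (Sum.inr i)) c =
      (Pi.single c (1 : F) : Fin (k + 1) ⊕ Fin (k + 1) → F) (Sum.inr i.castSucc) := by
  rw [gT_apply]; rfl

theorem gT_inr_zero {F : Type u} [Field F] (k : ℕ) (σ : F ≃+* F) (lam : F)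
    (c : Fin (k + 1) ⊕ Fin (k + 1)) :
    gT k σ lam (Sum.inr 0) c =
      lam * (Pi.single c (1 : F) : Fin (k + 1) ⊕ Fin (k + 1) → F) (Sum.inl (Fin.last k)) +
        σ lam / gDd σ lam *
          (Pi.single c (1 : F) : Fin (k + 1) ⊕ Fin (k + 1) → F) (Sum.inr (Fin.last k)) := by
  rw [gT_apply]; rfl

theorem gT_inr_one {F : Type u} [Field F] (k : ℕ) (σ : F ≃+* F) (lam : F)
    (c : Fin (k + 1) ⊕ Fin (k + 1)) :
    gT k σ lam (Sum.inr 1) c =
      1 * (Pi.single c (1 : F) : Fin (k + 1) ⊕ Fin (k + 1) → F) (Sum.inl (Fin.last k)) +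
        1 / gDd σ lam *
          (Pi.single c (1 : F) : Fin (k + 1) ⊕ Fin (k + 1) → F) (Sum.inr (Fin.last k)) := by
  rw [gT_apply]; rfl

theorem polarVec_gV {F : Type u} [Field F] (k : ℕ) (σ : F ≃+* F) (lam : F)
    (c : Fin (k + 1) ⊕ Fin (k + 1)) :
    polarVec ⇑(QPlus (k + 1) F) (gV k σ lam) c =
      (Pi.single c (1 : F) : Fin (k + 1) ⊕ Fin (k + 1) → F) (Sum.inr (Fin.last k)) -
        gDd σ lam *
          (Pi.single c (1 : F) : Fin (k + 1) ⊕ Fin (k + 1) → F) (Sum.inl (Fin.last k)) := by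
  unfold polarVec
  rw [polar_QPlus, Finset.sum_eq_single (Fin.last k)]
  · simp [gV]
    ring
  · intro i _ hi
    simp [gV, hi]
  · intro h
    exact absurd (Finset.mem_univ _) h

theorem gT_mulVec_gV {F : Type u} [Field F] (k : ℕ) (σ : F ≃+* F) (lam : F)
    (hne : σ lam ≠ lam) :
    gT k σ lam *ᵥ gV k σ lam = Sum.elim (fun _ => 0) ![lam - σ lam, 0] := by
  have hD := gDd_ne σ lam hne
  unfold gT
  rw [LinearMap.toMatrix'_mulVec]
  funext r
  rcases r with (i | i) | j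
  · show gV k σ lam (Sum.inl i.castSucc) = 0
    simp [gV, Fin.castSucc_ne_last]
  · show gV k σ lam (Sum.inr i.castSucc) = 0
    simp [gV, Fin.castSucc_ne_last]
  · obtain rfl | rfl : j = 0 ∨ j = 1 := by fin_cases j <;> simp
    · show lam * gV k σ lam (Sum.inl (Fin.last k)) +
        (σ lam / gDd σ lam) * gV k σ lam (Sum.inr (Fin.last k)) = lam - σ lam
      simp [gV]
      field_simp
      ring
    · show 1 * gV k σ lam (Sum.inl (Fin.last k)) +
        (1 / gDd σ lam) * gV k σ lam (Sum.inr (Fin.last k)) = 0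
      simp [gV]
      field_simp
      ring

theorem model_twist {F : Type u} [Field F] (k : ℕ) (σ : F ≃+* F) (lam : F)
    (hσσ : σ (σ lam) = lam) (hne : σ lam ≠ lam) :
    (gT k σ lam).map σ =
      gT k σ lam * reflectionMatrix ⇑(QPlus (k + 1) F) (gV k σ lam) := by
  have hD := gDd_ne σ lam hne
  have hDf := gDd_fixed σ lam hσσ
  have hR : gT k σ lam * reflectionMatrix ⇑(QPlus (k + 1) F) (gV k σ lam) =
      gT k σ lam - (QPlus (k + 1) F (gV k σ lam))⁻¹ •
        Matrix.vecMulVec (gT k σ lam *ᵥ gV k σ lam)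
          (polarVec ⇑(QPlus (k + 1) F) (gV k σ lam)) := by
    unfold reflectionMatrix
    rw [Matrix.mul_sub, Matrix.mul_one, Matrix.mul_smul, Matrix.mul_vecMulVec]
  rw [hR, gT_mulVec_gV k σ lam hne, gV_Q]
  ext r c
  rw [Matrix.map_apply, Matrix.sub_apply, Matrix.smul_apply, Matrix.vecMulVec_apply,
    polarVec_gV, smul_eq_mul]
  have h1 := single_fixed σ c (Sum.inl (Fin.last k))
  have h2 := single_fixed σ c (Sum.inr (Fin.last k))
  rcases r with (i | i) | j
  · rw [gT_inl_inl, single_fixed]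
    simp
  · rw [gT_inl_inr, single_fixed]
    simp
  · obtain rfl | rfl : j = 0 ∨ j = 1 := by fin_cases j <;> simp
    · rw [gT_inr_zero, map_add, map_mul, map_mul, map_div₀, hσσ, hDf, h1, h2]
      simp only [Sum.elim_inr, Matrix.cons_val_zero]
      field_simp
      ring
    · rw [gT_inr_one, map_add, map_mul, map_mul, map_div₀, map_one, hDf, h1, h2]
      simp
end Cfsg.Agent.Lib.Helper85.GFMODEL
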