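import Mathlib
import Cfsg.Agent.Lib.Helper53.Hilbert90

/-!
# S2719 piece GM-FIXSQ (helper85 for helper53)

In a finite field of odd characteristic, the fixed points of an involutory field automorphism
`σ ≠ id` are squares (`x = c * σ c` by norm surjectivity).
-/

set_option autoImplicit false

namespace Cfsg.Agent.Lib.Helper85.GMFIXSQ

open Cfsg.Agent.Lib.Helper53

theorem fixed_isSquare {F : Type*} [Field F] [Fintype F] (h2 : (2 : F) ≠ 0) (σ : F ≃+* F)
    (hσ2 : ∀ x, σ (σ x) = x) (y : F) (hy : σ y ≠ y) (x : F) (hx : σ x = x) : IsSquare x := by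
  classical
  by_cases hx0 : x = 0
  · subst hx0; exact ⟨0, by simp⟩
  have hord : orderOf σ = 2 := by
    refine orderOf_eq_prime ?_ ?_
    · ext z; simp [pow_two, hσ2]
    · intro h; apply hy; rw [h]; rfl
  obtain ⟨c, hc⟩ := H90.norm_surj σ 2 (by norm_num) hord x hx0 hx
  have hc' : c * σ c = x := by
    rw [← hc]; simp [H90.nrm, Finset.prod_range_succ]
  have hc0 : c ≠ 0 := by rintro rfl; apply hx0; rw [← hc']; simp
  have hσc0 : σ c ≠ 0 := by simpa using hc0
  have hiff : IsSquare (σ c) ↔ IsSquare c := by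
    constructor
    · rintro ⟨d, hd⟩
      refine ⟨σ d, ?_⟩
      rw [← map_mul, ← hd, hσ2]
    · rintro ⟨d, hd⟩
      exact ⟨σ d, by rw [← map_mul, ← hd]⟩
  have hq : quadraticChar F (σ c) = quadraticChar F c := by
    by_cases hsq : IsSquare c
    · rw [(quadraticChar_one_iff_isSquare hσc0).2 (hiff.2 hsq),
        (quadraticChar_one_iff_isSquare hc0).2 hsq]
    · have h1 : quadraticChar F c ≠ 1 := fun h => hsq ((quadraticChar_one_iff_isSquare hc0).1 h)
      have h2' : quadraticChar F (σ c) ≠ 1 :=
        fun h => hsq (hiff.1 ((quadraticChar_one_iff_isSquare hσc0).1 h))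
      rcases quadraticChar_dichotomy hc0 with h | h
      · exact absurd h h1
      · rcases quadraticChar_dichotomy hσc0 with h' | h'
        · exact absurd h' h2'
        · rw [h, h']
  have h1 : quadraticChar F x = 1 := by
    rw [← hc', map_mul, hq]
    rcases quadraticChar_dichotomy hc0 with h | h <;> rw [h] <;> norm_num
  exact (quadraticChar_one_iff_isSquare hx0).1 h1

end Cfsg.Agent.Lib.Helper85.GMFIXSQ
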