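import Mathlib

/-!
# S2702 (project GT3, helper53), piece GT3-ARITH

Two ℕ inequalities `|GO±_2m(q)| < |Sp_2m(q)|`.
-/

set_option autoImplicit false

namespace Cfsg.Agent.Lib.Helper85.GT3ARITH

theorem prodPos (q k : ℕ) (hq : 2 ≤ q) :
    0 < ∏ i ∈ Finset.range k, (q ^ (2 * (i + 1)) - 1) := by
  refine Finset.prod_pos fun i _ => ?_
  have : 1 < q ^ (2 * (i + 1)) := Nat.one_lt_pow (by omega) (by omega)
  omega

theorem sqSub (N : ℕ) : (N + 2) ^ 2 - 1 = (N + 1) * (N + 3) :=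
  Nat.sub_eq_of_eq_add (by ring)

theorem sqSub' (N : ℕ) : (N + 3) ^ 2 - 1 = (N + 2) * (N + 4) :=
  Nat.sub_eq_of_eq_add (by ring)

theorem powSplit (q k : ℕ) : q ^ ((k + 1) ^ 2) = q ^ ((k + 1) * k) * q ^ (k + 1) := by
  rw [← pow_add]; congr 1; ring

/-- GT3-ARITH -/
theorem plus_lt (q m : ℕ) (hq : 2 ≤ q) (hm : 1 ≤ m) :
    2 * q ^ (m * (m - 1)) * (q ^ m - 1) * ∏ i ∈ Finset.range (m - 1), (q ^ (2 * (i + 1)) - 1) <
      q ^ (m ^ 2) * ∏ i ∈ Finset.range m, (q ^ (2 * (i + 1)) - 1) := by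
  obtain ⟨k, rfl⟩ : ∃ k, m = k + 1 := ⟨m - 1, by omega⟩
  rw [Nat.add_sub_cancel, Finset.prod_range_succ, powSplit, pow_mul' q 2 (k + 1)]
  have hM : 2 ≤ q ^ (k + 1) := le_trans hq (Nat.le_self_pow (by omega) q)
  obtain ⟨N, hN⟩ : ∃ N, q ^ (k + 1) = N + 2 := ⟨q ^ (k + 1) - 2, by omega⟩
  rw [hN, sqSub]
  have hA : 0 < q ^ ((k + 1) * k) := pow_pos (by omega) _
  have hP := prodPos q k hq
  generalize q ^ ((k + 1) * k) = A at hA ⊢
  generalize ∏ i ∈ Finset.range k, (q ^ (2 * (i + 1)) - 1) = P at hP ⊢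
  have h1 : 0 < A * P * (N + 1) := Nat.mul_pos (Nat.mul_pos hA hP) (by omega)
  have h2 : 2 < (N + 2) * (N + 3) := by nlinarith [Nat.zero_le N]
  calc 2 * A * (N + 2 - 1) * P = (A * P * (N + 1)) * 2 := by
        rw [show N + 2 - 1 = N + 1 by omega]; ring
    _ < (A * P * (N + 1)) * ((N + 2) * (N + 3)) := Nat.mul_lt_mul_of_pos_left h2 h1
    _ = A * (N + 2) * (P * ((N + 1) * (N + 3))) := by ring

theorem minus_lt (q k : ℕ) (hq : 3 ≤ q) :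
    2 * q ^ ((k + 1) * k) * (q ^ (k + 1) + 1) * ∏ i ∈ Finset.range k, (q ^ (2 * (i + 1)) - 1) <
      q ^ ((k + 1) ^ 2) * ∏ i ∈ Finset.range (k + 1), (q ^ (2 * (i + 1)) - 1) := by
  rw [Finset.prod_range_succ, powSplit, pow_mul' q 2 (k + 1)]
  have hM : 3 ≤ q ^ (k + 1) := le_trans hq (Nat.le_self_pow (by omega) q)
  obtain ⟨N, hN⟩ : ∃ N, q ^ (k + 1) = N + 3 := ⟨q ^ (k + 1) - 3, by omega⟩
  rw [hN, sqSub']
  have hA : 0 < q ^ ((k + 1) * k) := pow_pos (by omega) _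
  have hP := prodPos q k (by omega)
  generalize q ^ ((k + 1) * k) = A at hA ⊢
  generalize ∏ i ∈ Finset.range k, (q ^ (2 * (i + 1)) - 1) = P at hP ⊢
  have h1 : 0 < A * P * (N + 4) := Nat.mul_pos (Nat.mul_pos hA hP) (by omega)
  have h2 : 2 < (N + 3) * (N + 2) := by nlinarith [Nat.zero_le N]
  calc 2 * A * (N + 3 + 1) * P = (A * P * (N + 4)) * 2 := by ring
    _ < (A * P * (N + 4)) * ((N + 3) * (N + 2)) := Nat.mul_lt_mul_of_pos_left h2 h1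
    _ = A * (N + 3) * (P * ((N + 2) * (N + 4))) := by ring

end Cfsg.Agent.Lib.Helper85.GT3ARITH
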