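import Mathlib
import Cfsg.Prelude.Def_GeometricClasses
import Cfsg.Agent.Lib.Helper71.OK1
import Cfsg.Agent.Lib.Helper52.Siegel
import Cfsg.Agent.Lib.Helper57.OKGEOM1
import Cfsg.Agent.Lib.Helper55.OKA1

/-!
# S5701 piece A2 (helper85)
-/

set_option autoImplicit false
set_option linter.unusedVariables false

namespace Cfsg.Agent.Lib.Helper85.OKA2

open Matrix Cfsg.Agent.Lib.Helper71.SpK Cfsg.Agent.Lib.Helper71.OK
open Cfsg.Agent.Lib.Helper57.OKGEOM1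
open Cfsg.Agent.Lib.Helper55.OKA1

/-- If the double reflection `(s_a s_b)^2` fixes `x` (with `a`, `b` non-singular, `L`-independent
and `B a b ≠ 0`), then `x ⊥ a`. -/
theorem refl_comm_fix {ι : Type} [Fintype ι] [DecidableEq ι] {F : Type*} [Field F]
    {f : (ι → F) → (ι → F) → F} {L : Type*} [Field L] [Algebra F L]
    (S : KO f L) {a b x : ι → F} (ha : S.B a a ≠ 0) (hb : S.B b b ≠ 0) (hab : S.B a b ≠ 0)
    (hind : ∀ m : L, S.φ m *ᵥ a ≠ b) (h2L : (2 : L) ≠ 0)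
    (hT : S.sr a (S.sr b (S.sr a (S.sr b x))) = x) : S.B x a = 0 := by
  have ha0 : a ≠ 0 := by
    intro h
    apply ha
    rw [h, S.B_zero_left]
  obtain ⟨t, htdef⟩ : ∃ t : L, t = 2 * S.B x b * (S.B b b)⁻¹ := ⟨_, rfl⟩
  obtain ⟨w, hw⟩ : ∃ w, w = S.sr b x := ⟨_, rfl⟩
  have hw' : w = x - S.φ t *ᵥ b := by rw [hw, htdef]; rfl
  obtain ⟨e₁, he₁def⟩ : ∃ e : L, e = 2 * S.B w a * (S.B a a)⁻¹ := ⟨_, rfl⟩
  obtain ⟨w₂, hw₂⟩ : ∃ w₂, w₂ = S.sr a w := ⟨_, rfl⟩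
  have hw₂' : w₂ = w - S.φ e₁ *ᵥ a := by rw [hw₂, he₁def]; rfl
  obtain ⟨e₃, he₃def⟩ : ∃ e : L, e = 2 * S.B w₂ b * (S.B b b)⁻¹ := ⟨_, rfl⟩
  obtain ⟨w₃, hw₃⟩ : ∃ w₃, w₃ = S.sr b w₂ := ⟨_, rfl⟩
  have hw₃' : w₃ = w₂ - S.φ e₃ *ᵥ b := by rw [hw₃, he₃def]; rfl
  obtain ⟨e₄, he₄def⟩ : ∃ e : L, e = 2 * S.B w₃ a * (S.B a a)⁻¹ := ⟨_, rfl⟩
  rw [← hw, ← hw₂, ← hw₃] at hT
  have hT' : w₃ - S.φ e₄ *ᵥ a = x := by rw [he₄def]; exact hT
  have hvec : S.φ (e₁ + e₄) *ᵥ a + S.φ (t + e₃) *ᵥ b = 0 := by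
    rw [S.φ_add_mulVec, S.φ_add_mulVec]
    have h1 : x - S.φ t *ᵥ b - S.φ e₁ *ᵥ a - S.φ e₃ *ᵥ b - S.φ e₄ *ᵥ a = x := by
      rw [← hw', ← hw₂', ← hw₃']; exact hT'
    have h0 : S.φ e₁ *ᵥ a + S.φ e₄ *ᵥ a + (S.φ t *ᵥ b + S.φ e₃ *ᵥ b)
        = x - (x - S.φ t *ᵥ b - S.φ e₁ *ᵥ a - S.φ e₃ *ᵥ b - S.φ e₄ *ᵥ a) := by abel
    rw [h0, h1, sub_self]
  have hq : t + e₃ = 0 := by
    by_contra hne
    apply hind (-(e₁ + e₄) * (t + e₃)⁻¹)
    have h1 : S.φ (t + e₃) *ᵥ b = - (S.φ (e₁ + e₄) *ᵥ a) := eq_neg_of_add_eq_zero_right hvec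
    have h2 : b = S.φ (t + e₃)⁻¹ *ᵥ (S.φ (t + e₃) *ᵥ b) := (S.φ_inv_cancel hne b).symm
    rw [h2, h1, ← S.φ_neg_mulVec, ← S.φ_mul_mulVec]
    congr 2
    ring
  have hp : e₁ + e₄ = 0 := by
    rw [hq, S.φ_zero_mulVec, add_zero] at hvec
    exact S.φ_eq_zero ha0 hvec
  have hBw₂ : S.B w₂ b = S.B x b - t * S.B b b - e₁ * S.B a b := by
    rw [hw₂', S.B_sub_left, S.B_act, hw', S.B_sub_left, S.B_act]
  have ht : t * S.B b b = 2 * S.B x b := by rw [htdef]; field_simp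
  have he₃ : e₃ * S.B b b = 2 * S.B w₂ b := by rw [he₃def]; field_simp
  have he1 : e₁ = 0 := by
    have h1 : (t + e₃) * S.B b b = -(2 * e₁ * S.B a b) := by
      rw [add_mul, ht, he₃, hBw₂, ht]; ring
    rw [hq, zero_mul] at h1
    have h3 : 2 * e₁ * S.B a b = 0 := by linear_combination h1
    rcases mul_eq_zero.mp h3 with h | h
    · rcases mul_eq_zero.mp h with h | h
      · exact absurd h h2L
      · exact h
    · exact absurd h hab
  have he4 : e₄ = 0 := by rw [he1, zero_add] at hp; exact hp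
  have hBw₃ : S.B w₃ a = 0 := by
    have h1 : e₄ * S.B a a = 2 * S.B w₃ a := by rw [he₄def]; field_simp
    rw [he4, zero_mul] at h1
    rcases mul_eq_zero.mp h1.symm with h | h
    · exact absurd h h2L
    · exact h
  have h5 : S.B w₃ a = S.B x a := by
    rw [hw₃', S.B_sub_left, S.B_act, hw₂', S.B_sub_left, S.B_act, hw', S.B_sub_left, S.B_act, he1]
    linear_combination (-(S.B b a)) * hq
  rw [← h5]; exact hBw₃

theorem exists_fix_move {ι : Type} [Fintype ι] [DecidableEq ι] {F : Type*} [Field F] [Finite F]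
    {Q : QuadraticForm F (ι → F)} {L : Type*} [Field L] [Algebra F L] [FiniteDimensional F L]
    (S : KO (QuadraticMap.polar ⇑Q) L) (h2 : (2 : F) ≠ 0)
    (hQ : (QuadraticMap.polarBilin Q).Nondegenerate)
    (hr : (Module.finrank F L).Prime) (hd : 4 * Module.finrank F L ≤ Fintype.card ι) {u y₀ y : ι → F} (hu : S.B u u = 0) (hy₀ : S.B y₀ u ≠ 0)
    (hy : ∀ a b : L, S.φ a *ᵥ u + S.φ b *ᵥ y₀ ≠ y) :
    ∃ g ∈ S.NO Q, (g : Matrix ι ι F) *ᵥ u = u ∧ (g : Matrix ι ι F) *ᵥ y₀ = y₀ ∧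
      (g : Matrix ι ι F) *ᵥ y ≠ y := by
  classical
  have h2L : (2 : L) ≠ 0 := by
    have h : (2 : L) = algebraMap F L 2 := (map_ofNat (algebraMap F L) 2).symm
    rw [h]; exact (map_ne_zero (algebraMap F L)).mpr h2
  obtain ⟨P, hPdef⟩ : ∃ P, P = S.perp (S.perp ⊤ u) y₀ := ⟨_, rfl⟩
  have hPL : S.Lsub P := by rw [hPdef]; exact S.Lsub_perp (S.Lsub_perp S.Lsub_top u) y₀
  have hPN : S.Nd P := by
    rw [hPdef]
    exact Nd_perp_hyp S h2 hQ hr hd S.Lsub_top (S.Nd_top hQ) Submodule.mem_top Submodule.mem_top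
      hu hy₀
  have hmemP : ∀ x, x ∈ P ↔ S.B x u = 0 ∧ S.B x y₀ = 0 := by
    intro x; rw [hPdef, S.mem_perp, S.mem_perp]; simp
  have huy : S.B u y₀ ≠ 0 := by rw [S.B_symm]; exact hy₀
  obtain ⟨β', hβ'⟩ : ∃ β' : L, β' = S.B y u * (S.B y₀ u)⁻¹ := ⟨_, rfl⟩
  obtain ⟨α, hα⟩ : ∃ α : L, α = (S.B y y₀ - β' * S.B y₀ y₀) * (S.B u y₀)⁻¹ := ⟨_, rfl⟩
  obtain ⟨yp, hyp⟩ : ∃ yp, yp = y - S.φ α *ᵥ u - S.φ β' *ᵥ y₀ := ⟨_, rfl⟩
  have hypP : yp ∈ P := by
    rw [hmemP]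
    constructor
    · rw [hyp, S.B_sub_left, S.B_sub_left, S.B_act, S.B_act, hu, hβ']; field_simp; ring
    · rw [hyp, S.B_sub_left, S.B_sub_left, S.B_act, S.B_act, hα]; field_simp; ring
  have hyp0 : yp ≠ 0 := by
    intro h0
    apply hy α β'
    rw [h0] at hyp
    have h1 : y - S.φ α *ᵥ u - S.φ β' *ᵥ y₀ = 0 := hyp.symm
    rw [sub_sub, sub_eq_zero] at h1
    exact h1.symm
  obtain ⟨a, haP, haa, hya⟩ : ∃ a ∈ P, S.B a a ≠ 0 ∧ S.B yp a ≠ 0 := by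
    by_cases h1 : S.B yp yp ≠ 0
    · exact ⟨yp, hypP, h1, h1⟩
    · rw [not_not] at h1
      obtain ⟨a₀, ha₀P, ha₀⟩ := hPN yp hypP hyp0
      by_cases h3 : S.B a₀ a₀ ≠ 0
      · exact ⟨a₀, ha₀P, h3, ha₀⟩
      · rw [not_not] at h3
        refine ⟨yp + a₀, P.add_mem hypP ha₀P, ?_, ?_⟩
        · rw [S.B_add, S.B_add_right, S.B_add_right, h1, h3, S.B_symm a₀ yp]
          intro h
          have h4 : 2 * S.B yp a₀ = 0 := by linear_combination h
          rcases mul_eq_zero.mp h4 with h | h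
          · exact h2L h
          · exact ha₀ h
        · rw [S.B_add_right, h1, zero_add]; exact ha₀
  have hNa : S.Nd (S.perp P a) := Nd_perp_nonsing S h2 hQ hr hd hPL hPN haP haa
  have hne : S.perp P a ≠ ⊥ := by
    have h1 := finrank_perp_ge S h2 hQ hr hd (⊤ : Submodule F (ι → F)) u
    have h2' := finrank_perp_ge S h2 hQ hr hd (S.perp ⊤ u) y₀
    have h3 := finrank_perp_ge S h2 hQ hr hd P a
    have htop : Module.finrank F ↥(⊤ : Submodule F (ι → F)) = Fintype.card ι := by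
      rw [finrank_top, Module.finrank_fintype_fun_eq_card]
    have hr2 := hr.two_le
    rw [← hPdef] at h2'
    intro hbot
    rw [hbot, finrank_bot] at h3
    omega
  obtain ⟨c, hcP, hcc⟩ := exists_nonsing_of_Nd S h2 hQ hr hd hNa hne
  rw [S.mem_perp] at hcP
  obtain ⟨hcP, hca⟩ := hcP
  have hac : S.B a c = 0 := by rw [S.B_symm]; exact hca
  obtain ⟨l, hl0, hl⟩ : ∃ l : L, l ≠ 0 ∧ S.B a a + l ^ 2 * S.B c c ≠ 0 := by
    by_cases h1 : S.B a a + S.B c c ≠ 0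
    · exact ⟨1, one_ne_zero, by rw [one_pow, one_mul]; exact h1⟩
    · rw [not_not] at h1
      obtain ⟨ω, hω0, hω⟩ : ∃ ω : L, ω ≠ 0 ∧ ω ^ 2 ≠ 1 := by
        by_contra hcon
        have hcon' : ∀ ω : L, ω ≠ 0 → ω ^ 2 = 1 := by
          intro ω hω
          by_contra hne
          exact hcon ⟨ω, hω, hne⟩
        have hbt : (⊥ : Subalgebra F L) = ⊤ := by
          rw [eq_top_iff]
          intro x _
          by_cases hx : x = 0
          · rw [hx]; exact zero_mem _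
          · have h3 : (x - 1) * (x + 1) = 0 := by linear_combination hcon' x hx
            rcases mul_eq_zero.mp h3 with h | h
            · rw [sub_eq_zero.mp h]; exact one_mem _
            · rw [eq_neg_of_add_eq_zero_left h]; exact neg_mem (one_mem _)
        have h4 := Subalgebra.bot_eq_top_iff_finrank_eq_one.mp hbt
        have hr2 := hr.two_le
        omega
      refine ⟨ω, hω0, ?_⟩
      intro h
      have h5 : (ω ^ 2 - 1) * S.B c c = 0 := by linear_combination h - h1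
      rcases mul_eq_zero.mp h5 with h | h
      · exact hω (sub_eq_zero.mp h)
      · exact hcc h
  obtain ⟨b, hbdef⟩ : ∃ b, b = a + S.φ l *ᵥ c := ⟨_, rfl⟩
  have hbP : b ∈ P := by rw [hbdef]; exact P.add_mem haP (hPL l c hcP)
  have hbb : S.B b b ≠ 0 := by
    have h1 : S.B b b = S.B a a + l ^ 2 * S.B c c := by
      rw [hbdef, S.B_add, S.B_add_right, S.B_add_right, S.B_act, S.B_act, S.B_act_right,
        S.B_act_right, hac, hca]; ring
    rw [h1]; exact hl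
  have hab : S.B a b ≠ 0 := by
    have h1 : S.B a b = S.B a a := by
      rw [hbdef, S.B_add_right, S.B_act_right, hac, mul_zero, add_zero]
    rw [h1]; exact haa
  have hind : ∀ m : L, S.φ m *ᵥ a ≠ b := by
    intro m hm
    have h1 : S.B b c = l * S.B c c := by rw [hbdef, S.B_add, S.B_act, hac, zero_add]
    have h2' : S.B b c = 0 := by rw [← hm, S.B_act, hac, mul_zero]
    rw [h2'] at h1
    rcases mul_eq_zero.mp h1.symm with h | h
    · exact hl0 h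
    · exact hcc h
  obtain ⟨g, hg, hgx⟩ := exists_refl_comm S h2 hQ hr hd haa hbb
  have hsr : ∀ {a' x : ι → F}, S.B x a' = 0 → S.sr a' x = x := by
    intro a' x h
    show x - S.φ (2 * S.B x a' * (S.B a' a')⁻¹) *ᵥ a' = x
    rw [h, mul_zero, zero_mul, S.φ_zero_mulVec, sub_zero]
  have haP' := (hmemP a).mp haP
  have hbP' := (hmemP b).mp hbP
  have hau : S.sr a u = u := hsr (by rw [S.B_symm]; exact haP'.1)
  have hbu : S.sr b u = u := hsr (by rw [S.B_symm]; exact hbP'.1)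
  have hay : S.sr a y₀ = y₀ := hsr (by rw [S.B_symm]; exact haP'.2)
  have hby : S.sr b y₀ = y₀ := hsr (by rw [S.B_symm]; exact hbP'.2)
  refine ⟨g, hg, ?_, ?_, ?_⟩
  · rw [hgx, hbu, hau, hbu, hau]
  · rw [hgx, hby, hay, hby, hay]
  · intro hgy
    rw [hgx] at hgy
    have h0 := refl_comm_fix S haa hbb hab hind h2L hgy
    apply hya
    rw [hyp, S.B_sub_left, S.B_sub_left, S.B_act, S.B_act, h0, S.B_symm u a, haP'.1,
      S.B_symm y₀ a, haP'.2]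
    ring

end Cfsg.Agent.Lib.Helper85.OKA2
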