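import Mathlib
import Cfsg.Prelude.Def_GeometricClasses
import Cfsg.Agent.Lib.Helper71.OK1
import Cfsg.Agent.Lib.Helper52.Siegel
import Cfsg.Agent.Lib.Helper85.OKA2
import Cfsg.Agent.Lib.Helper43.OKC1

/-!
# S5701 piece C2 (helper85)
-/

set_option autoImplicit false
set_option linter.unusedVariables false

namespace Cfsg.Agent.Lib.Helper85.OKC2

open Matrix Cfsg.Agent.Lib.Helper71.SpK Cfsg.Agent.Lib.Helper71.OK
open Cfsg.Agent.Lib.Helper85.OKA2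
open Cfsg.Agent.Lib.Helper43.OKC1

theorem max_plane {ι : Type} [Fintype ι] [DecidableEq ι] {F : Type*} [Field F] [Finite F]
    {Q : QuadraticForm F (ι → F)} {L : Type*} [Field L] [Algebra F L] [FiniteDimensional F L]
    (S : KO (QuadraticMap.polar ⇑Q) L) (h2 : (2 : F) ≠ 0)
    (hQ : (QuadraticMap.polarBilin Q).Nondegenerate)
    (hr : (Module.finrank F L).Prime) (hd : 4 * Module.finrank F L ≤ Fintype.card ι) (M : Subgroup (GL ι F)) (hNM : S.NO Q ≤ M) (hMΩ : M ≤ Cfsg.Geo.omegaGL ⇑Q) {u : ι → F} (hu : u ≠ 0) (huu : S.B u u = 0)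
    {W₂ : Submodule F (ι → F)} (hW₂ : S.InW M W₂) (hne : W₂ ≠ S.line u)
    (hD : S.line u ⊓ W₂ ≠ ⊥)
    (hmax : ∀ W₃ W₄, S.InW M W₃ → S.InW M W₄ → W₃ ≠ W₄ →
      Module.finrank F ↥(W₃ ⊓ W₄) ≤ Module.finrank F ↥(S.line u ⊓ W₂))
    {y₀ : ι → F} (hy₀ : y₀ ∈ W₂) (hy₀u : S.B y₀ u ≠ 0) :
    ∀ y ∈ W₂, ∃ a b : L, S.φ a *ᵥ u + S.φ b *ᵥ y₀ = y := by
  classical
  intro y hyW
  by_contra hcon
  have hy : ∀ a b : L, S.φ a *ᵥ u + S.φ b *ᵥ y₀ ≠ y := by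
    intro a b hab
    exact hcon ⟨a, b, hab⟩
  obtain ⟨g, hg, hgu, hgy₀, hgy⟩ := exists_fix_move S h2 hQ hr hd huu hy₀u hy
  have hgM : g ∈ M := hNM hg
  have hgW : S.InW M (gim W₂ g) := S.InW_gim hW₂ hgM
  -- gim W₂ g = W₂
  have hEq : gim W₂ g = W₂ := by
    by_contra hne'
    have h1 := hmax W₂ (gim W₂ g) hW₂ hgW (fun h => hne' h.symm)
    have hle : S.line u ⊓ W₂ ≤ W₂ ⊓ gim W₂ g := by
      intro x hx
      rw [Submodule.mem_inf] at hx ⊢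
      refine ⟨hx.2, ?_⟩
      obtain ⟨l, hl⟩ := S.mem_line.mp hx.1
      have h3 : (g : Matrix ι ι F) *ᵥ x = x := by
        rw [← hl, S.NO_act hg, hgu]
      rw [← h3]
      exact mulVec_mem_gim g hx.2
    have hy₀mem : y₀ ∈ W₂ ⊓ gim W₂ g := by
      rw [Submodule.mem_inf]
      refine ⟨hy₀, ?_⟩
      have h3 := mulVec_mem_gim g hy₀
      rwa [hgy₀] at h3
    have hy₀not : y₀ ∉ S.line u ⊓ W₂ := by
      intro h
      rw [Submodule.mem_inf] at h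
      exact hy₀u (S.B_line huu h.1)
    have hlt : S.line u ⊓ W₂ < W₂ ⊓ gim W₂ g := by
      refine lt_of_le_of_ne hle ?_
      intro h
      rw [h] at hy₀not
      exact hy₀not hy₀mem
    have h4 := Submodule.finrank_lt_finrank_of_lt hlt
    omega
  have hgyW : (g : Matrix ι ι F) *ᵥ y ∈ W₂ := by
    have h3 := mulVec_mem_gim g hyW
    rwa [hEq] at h3
  obtain ⟨e, he⟩ : ∃ e, e = (g : Matrix ι ι F) *ᵥ y - y := ⟨_, rfl⟩
  have heW : e ∈ W₂ := by rw [he]; exact W₂.sub_mem hgyW hyW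
  have heu : S.B e u = 0 := by
    have h3 : S.B ((g : Matrix ι ι F) *ᵥ y) u = S.B y u := by
      have h4 := S.NO_B hg y u
      rwa [hgu] at h4
    rw [he, S.B_sub_left, h3, sub_self]
  have hey₀ : S.B e y₀ = 0 := by
    have h3 : S.B ((g : Matrix ι ι F) *ᵥ y) y₀ = S.B y y₀ := by
      have h4 := S.NO_B hg y y₀
      rwa [hgy₀] at h4
    rw [he, S.B_sub_left, h3, sub_self]
  have heL := max_perp S h2 hQ hr hd M hNM hMΩ hu huu hW₂ hne hD hmax hy₀ hy₀u e heW heu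
  obtain ⟨l, hl⟩ := S.mem_line.mp heL
  have hl0 : l = 0 := by
    have h3 : l * S.B u y₀ = 0 := by rw [← S.B_act, hl]; exact hey₀
    rcases mul_eq_zero.mp h3 with h | h
    · exact h
    · exfalso; apply hy₀u; rw [S.B_symm]; exact h
  apply hgy
  rw [hl0, S.φ_zero_mulVec] at hl
  rw [← hl] at he
  exact sub_eq_zero.mp he.symm

end Cfsg.Agent.Lib.Helper85.OKC2
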