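import Mathlib
import Cfsg.Prelude.Def_GeometricClasses
import Cfsg.Agent.Lib.Helper71.OK1
import Cfsg.Agent.Lib.Helper52.Siegel
import Cfsg.Agent.Lib.Helper43.OKC1
import Cfsg.Agent.Lib.Helper85.OKC2
import Cfsg.Agent.Lib.Helper57.OKGEOM2
import Cfsg.Agent.Lib.Helper55.OKA1

/-!
# S5701 piece C3 (helper85)
-/

set_option autoImplicit false
set_option linter.unusedVariables false

namespace Cfsg.Agent.Lib.Helper85.OKC3

open Matrix Cfsg.Agent.Lib.Helper71.SpK Cfsg.Agent.Lib.Helper71.OK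
open Cfsg.Agent.Lib.Helper43.OKC1
open Cfsg.Agent.Lib.Helper85.OKC2
open Cfsg.Agent.Lib.Helper57.OKGEOM2
open Cfsg.Agent.Lib.Helper55.OKA1

theorem exists_orth_pair_of_max {ι : Type} [Fintype ι] [DecidableEq ι] {F : Type*} [Field F] [Finite F]
    {Q : QuadraticForm F (ι → F)} {L : Type*} [Field L] [Algebra F L] [FiniteDimensional F L]
    (S : KO (QuadraticMap.polar ⇑Q) L) (h2 : (2 : F) ≠ 0)
    (hQ : (QuadraticMap.polarBilin Q).Nondegenerate)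
    (hr : (Module.finrank F L).Prime) (hd : 4 * Module.finrank F L ≤ Fintype.card ι) (M : Subgroup (GL ι F)) (hNM : S.NO Q ≤ M) (hMΩ : M ≤ Cfsg.Geo.omegaGL ⇑Q) {u : ι → F} (hu : u ≠ 0) (huu : S.B u u = 0)
    {W₂ : Submodule F (ι → F)} (hW₂ : S.InW M W₂) (hne : W₂ ≠ S.line u)
    (hD : S.line u ⊓ W₂ ≠ ⊥)
    (hmax : ∀ W₃ W₄, S.InW M W₃ → S.InW M W₄ → W₃ ≠ W₄ →
      Module.finrank F ↥(W₃ ⊓ W₄) ≤ Module.finrank F ↥(S.line u ⊓ W₂)) :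
    ∃ W₃ W₄, S.InW M W₃ ∧ S.InW M W₄ ∧ W₃ ≠ W₄ ∧ Orth Q W₃ W₄ ∧ W₃ ⊓ W₄ ≠ ⊥ := by
  classical
  by_cases hcase : ∀ y ∈ W₂, S.B y u = 0
  · exact ⟨S.line u, W₂, S.InW_line M hu huu, hW₂, fun h => hne h.symm,
      S.Orth_line_iff.mpr hcase, hD⟩
  obtain ⟨y₀, hy₀, hy₀u⟩ : ∃ y₀ ∈ W₂, S.B y₀ u ≠ 0 := by
    by_contra h
    apply hcase
    intro y hy
    by_contra h'
    exact h ⟨y, hy, h'⟩
  have hpl := max_plane S h2 hQ hr hd M hNM hMΩ hu huu hW₂ hne hD hmax hy₀ hy₀u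
  -- (1) the functional
  obtain ⟨ψ, hψ⟩ : ∃ ψ : ↥W₂ →ₗ[F] L, ∀ y : ↥W₂, ψ y = S.B y₀ u * S.B (y : ι → F) u :=
    ⟨(LinearMap.mulLeft F (S.B y₀ u)).comp ((S.Bl u).comp W₂.subtype), fun y => rfl⟩
  have hrk := LinearMap.finrank_range_add_finrank_ker ψ
  have hW₂r := S.InW_finrank hW₂
  have hker : 0 < Module.finrank F ↥(LinearMap.ker ψ) := by
    obtain ⟨x, hx, hx0⟩ := (Submodule.ne_bot_iff _).mp hD
    rw [Submodule.mem_inf] at hx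
    have hxk : (⟨x, hx.2⟩ : ↥W₂) ∈ LinearMap.ker ψ := by
      rw [LinearMap.mem_ker, hψ]
      show S.B y₀ u * S.B x u = 0
      rw [S.B_line huu hx.1, mul_zero]
    rw [Nat.pos_iff_ne_zero]
    intro h0
    rw [Submodule.finrank_eq_zero] at h0
    rw [h0, Submodule.mem_bot] at hxk
    exact hx0 (congrArg Subtype.val hxk)
  have hJ : LinearMap.range ψ < ⊤ := by
    rw [lt_top_iff_ne_top]
    intro h
    have h3 : Module.finrank F ↥(LinearMap.range ψ) = Module.finrank F L := by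
      rw [h, finrank_top]
    omega
  obtain ⟨lam, hlam0, hlam⟩ := Submodule.exists_le_ker_of_lt_top _ hJ
  obtain ⟨μ, hμ⟩ := S.β_repr lam
  have hμ0 : μ ≠ 0 := by
    intro h
    apply hlam0
    ext l
    rw [hμ l, h, zero_mul, map_zero]
    rfl
  have h1 : ∀ y ∈ W₂, S.β (μ * (S.B y₀ u * S.B y u)) = 0 := by
    intro y hy
    have h3 : ψ ⟨y, hy⟩ ∈ LinearMap.ker lam := hlam (LinearMap.mem_range_self ψ _)
    rw [LinearMap.mem_ker, hμ, hψ] at h3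
    exact h3
  -- (2)
  obtain ⟨z, hzu, hzy₀, hzz⟩ := exists_norm S h2 hQ hr hd huu hy₀u μ
  have huz : S.B u z = 0 := by rw [S.B_symm]; exact hzu
  have hWz : ∀ y ∈ W₂, S.B y z = 0 := by
    intro y hy
    obtain ⟨a, b, hab⟩ := hpl y hy
    rw [← hab, S.B_add, S.B_act, S.B_act, huz, S.B_symm y₀ z, hzy₀, mul_zero, mul_zero, add_zero]
  obtain ⟨g, hg, hgx⟩ := exists_rho S h2 hQ hr hd huu huz
  have hgM : g ∈ M := hNM hg
  have hW₃ : S.InW M (gim W₂ g) := S.InW_gim hW₂ hgM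
  have hgu : (g : Matrix ι ι F) *ᵥ u = u := by rw [hgx, S.rho_self huu huz]
  -- (3)
  have hle : S.line u ⊓ W₂ ≤ W₂ ⊓ gim W₂ g := by
    intro x hx
    rw [Submodule.mem_inf] at hx ⊢
    refine ⟨hx.2, ?_⟩
    obtain ⟨l, hl⟩ := S.mem_line.mp hx.1
    have h3 : (g : Matrix ι ι F) *ᵥ x = x := by
      rw [← hl, S.NO_act hg, hgu]
    rw [← h3]
    exact mulVec_mem_gim g hx.2
  have hD' : W₂ ⊓ gim W₂ g ≠ ⊥ := by
    intro h
    apply hD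
    rw [eq_bot_iff, ← h]
    exact hle
  obtain ⟨y₃, hy₃⟩ : ∃ y₃, y₃ = (g : Matrix ι ι F) *ᵥ y₀ := ⟨_, rfl⟩
  have hy₃W : y₃ ∈ gim W₂ g := by rw [hy₃]; exact mulVec_mem_gim g hy₀
  have hy₃' : y₃ = y₀ - S.φ (S.B y₀ u) *ᵥ z - (2⁻¹ : F) • (S.φ (μ * S.B y₀ u) *ᵥ u) := by
    rw [hy₃, hgx]
    unfold KO.rho
    rw [hWz y₀ hy₀, S.φ_zero_mulVec, add_zero, hzz]
  have hy₃z : S.B y₃ z = -(S.B y₀ u * μ) := by
    rw [hy₃', S.B_sub_left, S.B_sub_left, S.B_act, S.B_smul_left, S.B_act, hWz y₀ hy₀, hzz, huz]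
    ring
  have hy₃not : y₃ ∉ W₂ := by
    intro h
    have h3 := hWz y₃ h
    rw [hy₃z, neg_eq_zero] at h3
    rcases mul_eq_zero.mp h3 with h | h
    · exact hy₀u h
    · exact hμ0 h
  have hne' : W₂ ≠ gim W₂ g := by
    intro h
    apply hy₃not
    rw [h]
    exact hy₃W
  -- (4)
  have h4 : ∀ y' ∈ W₂, QuadraticMap.polar ⇑Q y' y₃ = 0 := by
    intro y' hy'
    rw [S.f_eq, hy₃', S.B_sub_right, S.B_sub_right, S.B_act_right, S.B_smul_right,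
      S.B_act_right, hWz y' hy', mul_zero, sub_zero, map_sub, ← S.f_eq,
      S.InW_polar hMΩ hW₂ hy' hy₀, zero_sub, neg_eq_zero]
    rw [← Algebra.smul_def, map_smul, mul_assoc, h1 y' hy', smul_zero]
  -- (5)
  by_cases hO : Orth Q W₂ (gim W₂ g)
  · exact ⟨W₂, gim W₂ g, hW₂, hW₃, hne', hO, hD'⟩
  · exfalso
    apply hy₃not
    refine max_perp_inv S h2 hQ hr hd M hNM hMΩ hW₂ hW₃ hne' hD' ?_ hO y₃ hy₃W ?_
    · intro W₃ W₄ h3 h4' h34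
      exact le_trans (hmax W₃ W₄ h3 h4' h34) (Submodule.finrank_mono hle)
    · intro x hx
      exact h4 x hx

end Cfsg.Agent.Lib.Helper85.OKC3
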