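import Mathlib
import Cfsg.Prelude.Def_GeometricClasses
import Cfsg.Prelude.Def_LieClassical
import Cfsg.Agent.Lib.Helper4.OMPTRa

/-! Project SPG (architect helper71; S5662), piece TS6 (helper85, job 3952): transport of the
class-6 (symplectic-type) clause along the reindexing isomorphism `glReindex e`. -/

set_option autoImplicit false
set_option linter.unusedSectionVars false

namespace Cfsg.Agent.Lib.Helper85.SPGTS6

open Matrix Cfsg.Geo
open Cfsg.Agent.Lib.Helper4.OMPTRa (traEquiv traEquiv_val traEquiv_symm_val tra_val tra_mulVec)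

theorem ts6_norm {G G' : Type*} [Group G] [Group G'] (Φ : G ≃* G') (H : Subgroup G)
    (R' : Subgroup G') (h : H.map Φ.toMonoidHom ≤ Subgroup.normalizer (R' : Set G')) :
    H ≤ Subgroup.normalizer ((R'.comap Φ.toMonoidHom : Subgroup G) : Set G) := by
  intro g hg
  have h1 : Φ g ∈ Subgroup.normalizer (R' : Set G') := h ⟨g, hg, rfl⟩
  rw [Subgroup.mem_normalizer_iff] at h1 ⊢
  intro x
  show Φ x ∈ R' ↔ Φ (g * x * g⁻¹) ∈ R'
  rw [map_mul, map_mul, map_inv]
  exact h1 (Φ x)

theorem ts6_char {G G' : Type*} [Group G] [Group G'] (ψ : G ≃* G') (A : Subgroup G)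
    (hA : A.Characteristic) : (A.map ψ.toMonoidHom).Characteristic := by
  rw [Subgroup.characteristic_iff_map_eq] at hA ⊢
  intro ϕ'
  have h1 := hA (ψ.trans (ϕ'.trans ψ.symm))
  rw [Subgroup.map_map]
  have h2 : ϕ'.toMonoidHom.comp ψ.toMonoidHom =
      ψ.toMonoidHom.comp (ψ.trans (ϕ'.trans ψ.symm)).toMonoidHom := by
    refine MonoidHom.ext fun x => ?_
    simp
  rw [h2, ← Subgroup.map_map, h1]

theorem ts6_minus {G G' : Type*} [Group G] [Group G'] (Φ : G ≃* G') (R' : Subgroup G') (k : ℕ)
    (h : IsOfMinusType k R') : IsOfMinusType k (R'.comap Φ.toMonoidHom) := by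
  intro A hAc hA2
  have h1 := h (A.map (traEquiv Φ R').toMonoidHom) inferInstance (by
    rintro _ ⟨a, ha, rfl⟩
    have h2 := hA2 a ha
    rw [← map_mul, h2, map_one])
  rwa [Subgroup.card_map_of_injective (traEquiv Φ R').injective] at h1

variable {n : ℕ} {F : Type*} [Field F] [Fintype F]

section Transport

variable {κ : Type} [Fintype κ] [DecidableEq κ]

/-- the transported two-argument form on `Fin n → F` -/
def tf (e : κ ≃ Fin n) (f : (κ → F) → (κ → F) → F) : (Fin n → F) → (Fin n → F) → F :=
  fun u v => f (u ∘ e) (v ∘ e)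

/-- TS6: transport of the symplectic-type clause along `e : κ ≃ Fin n`. -/
theorem TS6 (e : κ ≃ Fin n) (f : (κ → F) → (κ → F) → F) (H : Subgroup (GL κ F))
    (R' : Subgroup (GL (Fin n) F)) (k : ℕ) :
    (H.map (glReindex e).toMonoidHom ≤ subgroupNormalizer R' →
      H ≤ subgroupNormalizer (R'.comap (glReindex e).toMonoidHom)) ∧
    (IsSymplecticTypeGroup 2 R' → IsSymplecticTypeGroup 2 (R'.comap (glReindex e).toMonoidHom)) ∧
    (ActsAbsolutelyIrreducibly (matrixSet R') →
      ActsAbsolutelyIrreducibly (matrixSet (R'.comap (glReindex e).toMonoidHom))) ∧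
    (R' ≤ similarityGroup (tf e f) → R'.comap (glReindex e).toMonoidHom ≤ similarityGroup f) ∧
    Nat.card (R'.comap (glReindex e).toMonoidHom) = Nat.card R' ∧
    Nat.card (Subgroup.center (R'.comap (glReindex e).toMonoidHom)) =
      Nat.card (Subgroup.center R') ∧
    (IsOfMinusType k R' → IsOfMinusType k (R'.comap (glReindex e).toMonoidHom)) := by
  classical
  have hsurj : Function.Surjective (glReindex (F := F) e) := (glReindex e).surjective
  have hcomp : ∀ w : κ → F, (w ∘ e.symm) ∘ e = w := by
    intro w; funext i; simp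
  refine ⟨?_, ?_, ?_, ?_, ?_, ?_, ?_⟩
  · intro hH
    exact ts6_norm (glReindex (F := F) e) H R' hH
  · intro hs
    refine ⟨hs.prime, hs.pGroup.of_equiv (traEquiv (glReindex (F := F) e) R').symm, ?_, ?_⟩
    · intro A hA hAc
      have hA' := ts6_char (traEquiv (glReindex (F := F) e) R') A hA
      have hcyc := hs.cyclic_of_characteristic
        (A.map (traEquiv (glReindex (F := F) e) R').toMonoidHom) hA' inferInstance
      exact (MulEquiv.subgroupMap (traEquiv (glReindex (F := F) e) R') A).isCyclic.mpr hcyc
    · rw [Monoid.exponent_eq_of_mulEquiv (traEquiv (glReindex (F := F) e) R')]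
      exact hs.exponent_eq
  · rintro ⟨hirr, hcomm⟩
    have hset : ∀ s' ∈ matrixSet R',
        ∃ s ∈ matrixSet (R'.comap (glReindex (F := F) e).toMonoidHom),
          s' = s.submatrix e.symm e.symm := by
      rintro _ ⟨g', hg', rfl⟩
      obtain ⟨g, rfl⟩ := hsurj g'
      exact ⟨(g : Matrix κ κ F), ⟨g, hg', rfl⟩, tra_val e g⟩
    refine ⟨?_, ?_⟩
    · intro W hW
      have key := hirr (W.comap (LinearMap.funLeft F F e)) (by
        intro s' hs'
        obtain ⟨s, hs, rfl⟩ := hset s' hs'
        rintro _ ⟨v, hv, rfl⟩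
        show LinearMap.funLeft F F e (Matrix.toLin' (s.submatrix e.symm e.symm) v) ∈ W
        have hv' : LinearMap.funLeft F F e v ∈ W := hv
        have h1 : LinearMap.funLeft F F e (Matrix.toLin' (s.submatrix e.symm e.symm) v) =
            Matrix.toLin' s (LinearMap.funLeft F F e v) := by
          rw [Matrix.toLin'_apply, Matrix.toLin'_apply, tra_mulVec]
          ext i
          show (s *ᵥ (v ∘ e)) (e.symm (e i)) = (s *ᵥ (v ∘ e)) i
          rw [Equiv.symm_apply_apply]
        rw [h1]
        exact hW s hs (Submodule.mem_map_of_mem hv'))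
      rcases key with h0 | h1
      · left
        rw [Submodule.eq_bot_iff]
        intro w hw
        have h2 : (w ∘ e.symm) ∈ W.comap (LinearMap.funLeft F F e) := by
          show LinearMap.funLeft F F e (w ∘ e.symm) ∈ W
          have h3 : LinearMap.funLeft F F e (w ∘ e.symm) = w := by
            ext i
            simp [LinearMap.funLeft_apply]
          rw [h3]
          exact hw
        rw [h0, Submodule.mem_bot] at h2
        ext i
        have h4 := congrFun h2 (e i)
        simpa using h4
      · right
        rw [Submodule.eq_top_iff']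
        intro w
        have h2 : (w ∘ e.symm) ∈ W.comap (LinearMap.funLeft F F e) := by
          rw [h1]
          trivial
        have h3 : LinearMap.funLeft F F e (w ∘ e.symm) = w := by
          ext i
          simp [LinearMap.funLeft_apply]
        have h4 : LinearMap.funLeft F F e (w ∘ e.symm) ∈ W := h2
        rw [h3] at h4
        exact h4
    · intro M hM
      obtain ⟨c, hc⟩ := hcomm (M.submatrix e.symm e.symm) (by
        intro s' hs'
        obtain ⟨s, hs, rfl⟩ := hset s' hs'
        rw [Matrix.submatrix_mul_equiv, Matrix.submatrix_mul_equiv, hM s hs])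
      refine ⟨c, ?_⟩
      ext i j
      have h1 := congrFun (congrFun hc (e i)) (e j)
      simpa [Matrix.one_apply] using h1
  · intro hR x hx
    have hx' : glReindex e x ∈ R' := hx
    obtain ⟨c, hc⟩ := hR hx'
    refine ⟨c, fun u v => ?_⟩
    have h1 := hc (u ∘ e.symm) (v ∘ e.symm)
    have key : ∀ w : κ → F,
        (((glReindex e x : GL (Fin n) F) : Matrix (Fin n) (Fin n) F) *ᵥ (w ∘ e.symm)) ∘ e =
          (x : Matrix κ κ F) *ᵥ w := by
      intro w
      rw [tra_val, tra_mulVec, hcomp, hcomp]
    simp only [tf] at h1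
    rw [key, key, hcomp, hcomp] at h1
    exact h1
  · exact Nat.card_congr (traEquiv (glReindex (F := F) e) R').toEquiv
  · exact Nat.card_congr (Subgroup.centerCongr (traEquiv (glReindex (F := F) e) R')).toEquiv
  · intro hm
    exact ts6_minus (glReindex (F := F) e) R' k hm

end Transport

end Cfsg.Agent.Lib.Helper85.SPGTS6
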