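import Mathlib
import Cfsg.Agent.Lib.Helper22.BFDefs
import Cfsg.Agent.Lib.Helper4.DGKIRR
import Cfsg.Agent.Lib.Helper88.DGKSUB
import Cfsg.Agent.Lib.Helper83.Linear
import Cfsg.Agent.Lib.Helper83.IrrBasic
import Cfsg.Agent.Lib.Helper92.DOCL5

/-!
# S4503 project (helper22), piece THETA

`θ` irreducible on `C = C_G(P)` with `P` in its kernel, `T` its stabiliser in `N_G(P)`:
`∑_{Kf} θ = 0`, or `θ = 1` on `Kf` and `T = N_G(P)`.
-/

set_option autoImplicit false
set_option linter.style.haveILetI false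

namespace Cfsg.Agent.Lib.Helper85.BFT

open Cfsg Cfsg.Agent.Lib.Helper22.BFD
open scoped ComplexConjugate

universe u

variable {G : Type u} [Group G] [Fintype G]

/-- PIECE THETA -/
theorem theta_dich (p : ℕ) [Fact p.Prime] (P : Sylow p G) (hP : Nat.card P = p)
    (θ : IrrCharacter (Subgroup.centralizer ((P : Subgroup G) : Set G)))
    (hθP : ∀ x : Subgroup.centralizer ((P : Subgroup G) : Set G),
      (x : G) ∈ (P : Subgroup G) → θ.1 x = θ.1 1)
    (T : Subgroup G)
    (hT : ∀ g : G, g ∈ T ↔ (g ∈ Subgroup.normalizer ((P : Subgroup G) : Set G) ∧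
      ∀ c c' : Subgroup.centralizer ((P : Subgroup G) : Set G), (c' : G) = g * c * g⁻¹ →
        θ.1 c' = θ.1 c))
    (z : G) (hz : z ∈ (P : Subgroup G)) (hz1 : z ≠ 1) :
    (∑ s ∈ Kf p z, extendByZero (Subgroup.centralizer ((P : Subgroup G) : Set G)) θ.1 s = 0) ∨
    ((∀ s ∈ Kf p z, extendByZero (Subgroup.centralizer ((P : Subgroup G) : Set G)) θ.1 s = 1) ∧
      T = Subgroup.normalizer ((P : Subgroup G) : Set G)) := by
  classical
  have hp := (Fact.out : p.Prime)
  obtain ⟨K, hK⟩ := Cfsg.Agent.Lib.Helper88.DG.exists_K p P hP z hz hz1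
  obtain ⟨θK, hθK⟩ := Cfsg.Agent.Lib.Helper4.DG.exists_thetaK p P hP z hz hz1 K hK θ hθP
  have hPz : (P : Subgroup G) = Subgroup.zpowers z :=
    Cfsg.Agent.Lib.Helper92.DO.cf_zpowers p P hP z hz hz1
  have hmemC : ∀ y : G, y * z = z * y →
      y ∈ Subgroup.centralizer ((P : Subgroup G) : Set G) := by
    intro y hy
    rw [Subgroup.mem_centralizer_iff]
    intro h hh
    rw [SetLike.mem_coe, hPz, Subgroup.mem_zpowers_iff] at hh
    obtain ⟨k, rfl⟩ := hh
    exact (Commute.zpow_left (show Commute z y from hy.symm) k).eq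
  have hCz : ∀ c : G, c ∈ Subgroup.centralizer ((P : Subgroup G) : Set G) → c * z = z * c := by
    intro c hc
    exact ((Subgroup.mem_centralizer_iff.1 hc) z hz).symm
  have hKC : K ≤ Subgroup.centralizer ((P : Subgroup G) : Set G) :=
    fun y hy => hmemC y ((hK y).1 hy).1
  have hext : ∀ (s : G) (hs : s ∈ Subgroup.centralizer ((P : Subgroup G) : Set G)),
      extendByZero (Subgroup.centralizer ((P : Subgroup G) : Set G)) θ.1 s = θ.1 ⟨s, hs⟩ :=
    fun s hs => Subtype.val_injective.extend_apply θ.1 0 ⟨s, hs⟩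
  have hmemKf : ∀ x : G, x ∈ Kf p z ↔ x ∈ K := by
    intro x
    rw [Kf, Finset.mem_filter, hK]
    simp
  have hextK : ∀ y : K,
      extendByZero (Subgroup.centralizer ((P : Subgroup G) : Set G)) θ.1 (y : G) = θK.1 y := by
    intro y
    rw [hext _ (hKC y.2), hθK y (hKC y.2)]
  have hsum : ∑ s ∈ Kf p z, extendByZero (Subgroup.centralizer ((P : Subgroup G) : Set G)) θ.1 s
      = ∑ y : K, θK.1 y := by
    rw [Finset.sum_subtype (Kf p z) (p := fun x => x ∈ K) hmemKf]
    exact Finset.sum_congr rfl (fun y _ => hextK y)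
  have hinner : classInner θK.1 (Cfsg.Agent.Lib.Helper83.trivIrr K).1
      = (Nat.card K : ℂ)⁻¹ * ∑ y : K, θK.1 y := by
    unfold classInner
    congr 1
    refine Finset.sum_congr rfl (fun y _ => ?_)
    show θK.1 y * conj (1 : ℂ) = _
    rw [map_one, mul_one]
  have horth := Cfsg.Agent.Lib.Helper83.irr_orthonormal θK (Cfsg.Agent.Lib.Helper83.trivIrr K)
  by_cases htriv : θK = Cfsg.Agent.Lib.Helper83.trivIrr K
  · right
    have hK1 : ∀ y : K, θK.1 y = 1 := by
      intro y
      rw [htriv]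
      rfl
    have hθ1 : θ.1 1 = 1 := by
      have h1 := hθK 1 (hKC (1 : K).2)
      rw [hK1 1] at h1
      rw [h1]
      rfl
    have hmul := Cfsg.Agent.Lib.Helper83.irr_linear_mul θ.2 hθ1
    obtain ⟨m, hm, hcop⟩ : ∃ m : ℕ, Nat.card G = p * m ∧ Nat.Coprime p m := by
      have h1 := P.card_eq_multiplicity
      rw [hP] at h1
      have h2 : (Nat.card G).factorization p = 1 := by
        apply Nat.pow_right_injective hp.two_le
        show p ^ _ = p ^ 1
        rw [pow_one]; exact h1.symm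
      have hdvd : p ∣ Nat.card G := by
        have := (hp.pow_dvd_iff_le_factorization (Nat.card_pos (α := G)).ne').2
          (le_of_eq h2.symm)
        rwa [pow_one] at this
      obtain ⟨m, hm⟩ := hdvd
      refine ⟨m, hm, ?_⟩
      rw [Nat.Prime.coprime_iff_not_dvd hp]
      intro hpm
      obtain ⟨m', rfl⟩ := hpm
      have h3 : p ^ 2 ∣ Nat.card G := ⟨m', by rw [hm]; ring⟩
      have h4 := (hp.pow_dvd_iff_le_factorization (Nat.card_pos (α := G)).ne').1 h3
      omega
    have hone : ∀ c : Subgroup.centralizer ((P : Subgroup G) : Set G), θ.1 c = 1 := by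
      rintro ⟨c, hc⟩
      obtain ⟨A, B, h1c, h2c, h3c⟩ := Cfsg.Agent.Lib.Helper4.DG.h4_split p m hcop hm c
      have hxC : c ^ ((m : ℤ) * B) ∈ Subgroup.centralizer ((P : Subgroup G) : Set G) :=
        zpow_mem hc _
      have hxP : c ^ ((m : ℤ) * B) ∈ (P : Subgroup G) :=
        Cfsg.Agent.Lib.Helper4.DG.h4_mem_sylow_of_pow p P _ hxC h2c
      have hyK : c ^ ((p : ℤ) * A) ∈ K := by
        rw [hK]
        refine ⟨(Commute.zpow_left (show Commute c z from hCz c hc) _).eq, ?_⟩
        intro hdvd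
        have h5 : orderOf (c ^ ((p : ℤ) * A)) ∣ m := orderOf_dvd_of_pow_eq_one h3c
        exact (Nat.Prime.coprime_iff_not_dvd hp).1 hcop (dvd_trans hdvd h5)
      have e1 : (⟨c, hc⟩ : Subgroup.centralizer ((P : Subgroup G) : Set G))
          = ⟨c ^ ((m : ℤ) * B), hxC⟩ * ⟨c ^ ((p : ℤ) * A), hKC hyK⟩ := Subtype.ext h1c
      rw [e1, hmul, hθP ⟨c ^ ((m : ℤ) * B), hxC⟩ hxP, hθ1, one_mul,
        ← hθK ⟨c ^ ((p : ℤ) * A), hyK⟩ (hKC hyK), hK1]
    refine ⟨?_, ?_⟩
    · intro s hs
      have hsK : s ∈ K := (hmemKf s).1 hs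
      rw [hextK ⟨s, hsK⟩, hK1]
    · ext g
      rw [hT]
      constructor
      · exact fun h => h.1
      · intro hg
        exact ⟨hg, fun c c' _ => by rw [hone c, hone c']⟩
  · left
    rw [if_neg htriv, hinner] at horth
    rw [hsum]
    have hKpos : (Nat.card K : ℂ) ≠ 0 := by exact_mod_cast (Nat.card_pos (α := K)).ne'
    rcases mul_eq_zero.mp horth with h | h
    · exact absurd (inv_eq_zero.mp h) hKpos
    · exact h

end Cfsg.Agent.Lib.Helper85.BFT
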