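import Mathlib

/-!
# S0508 piece ZA (helper85, for helper46): arithmetic of the Brauer–Suzuki–Wall conclusion
`|N(Q)| = q |D|`, `|G : N(Q)| = q + 1`, and `q ≥ 5` (the case `q = 3` is excluded by Burnside's
transfer theorem).
-/

set_option autoImplicit false

namespace Cfsg.Agent.Lib.Helper46.BSW

universe u

variable {G : Type u} [Group G]

theorem concl_arith [Finite G] [IsSimpleGroup G] (Q D : Subgroup G)
    (hcard : 2 * Nat.card G = Nat.card Q * (Nat.card Q + 1) * (Nat.card Q - 1))
    (hcent : ∀ x ∈ Q, x ≠ 1 → Subgroup.centralizer ({x} : Set G) = Q)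
    (hD : 2 * Nat.card D + 1 = Nat.card Q) (hQD : Q ⊓ D = ⊥)
    (hN : Subgroup.normalizer (Q : Set G) = Q ⊔ D) :
    5 ≤ Nat.card Q ∧
    Nat.card (Subgroup.normalizer (Q : Set G)) = Nat.card Q * Nat.card D ∧
    (Subgroup.normalizer (Q : Set G)).index = Nat.card Q + 1 := by
  classical
  have hDpos : 0 < Nat.card D := Nat.card_pos
  obtain ⟨q, hq⟩ : ∃ q, q = Nat.card Q := ⟨_, rfl⟩
  obtain ⟨d, hd⟩ : ∃ d, d = Nat.card D := ⟨_, rfl⟩
  rw [← hq, ← hd] at hD
  rw [← hq] at hcard
  rw [← hd] at hDpos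
  have hLE : D ≤ Subgroup.normalizer (Q : Set G) := by rw [hN]; exact le_sup_right
  have hQN : Q ≤ Q ⊔ D := le_sup_left
  have h1 : Q.relIndex (D ⊔ Q) = Q.relIndex D := by
    have i1 := Subgroup.normal_subgroupOf_of_le_normalizer hLE
    have i2 := Subgroup.normal_subgroupOf_sup_of_le_normalizer hLE
    exact Nat.card_congr
      (QuotientGroup.quotientInfEquivProdNormalizerQuotient D Q hLE).toEquiv.symm
  have h2 : Q.relIndex D = Nat.card D := by
    rw [← Subgroup.inf_relIndex_left, inf_comm, hQD, Subgroup.relIndex_bot_left]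
  have h3 : Nat.card Q * Q.relIndex (Q ⊔ D) = Nat.card (Q ⊔ D : Subgroup G) := by
    have h := Subgroup.relIndex_mul_relIndex (H := ⊥) (K := Q) (L := Q ⊔ D) bot_le hQN
    rwa [Subgroup.relIndex_bot_left, Subgroup.relIndex_bot_left] at h
  have hNcard : Nat.card (Subgroup.normalizer (Q : Set G)) = q * d := by
    rw [hN, ← h3, sup_comm, h1, h2, hq, hd]
  have hG : Nat.card G = q * d * (q + 1) := by
    have h4 : q - 1 = 2 * d := by omega
    rw [h4] at hcard
    apply Nat.eq_of_mul_eq_mul_left (show 0 < 2 by norm_num)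
    rw [hcard]; ring
  have hqd : 0 < q * d := Nat.mul_pos (by omega) hDpos
  have hidx : (Subgroup.normalizer (Q : Set G)).index = q + 1 := by
    have h5 := Subgroup.card_mul_index (Subgroup.normalizer (Q : Set G))
    rw [hNcard, hG] at h5
    exact Nat.eq_of_mul_eq_mul_left hqd h5
  refine ⟨?_, ?_, ?_⟩
  · rw [← hq]
    by_contra hlt
    have hd1 : d = 1 := by omega
    have hq3 : q = 3 := by omega
    rw [hq3, hd1] at hG
    have hab : ∀ a ∈ Q, ∀ b ∈ Q, a * b = b * a := by
      intro a ha b hb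
      by_cases hb1 : b = 1
      · rw [hb1, mul_one, one_mul]
      · have h6 : a ∈ Subgroup.centralizer ({b} : Set G) := by rw [hcent b hb hb1]; exact ha
        rw [Subgroup.mem_centralizer_iff] at h6
        exact (h6 b (Set.mem_singleton b)).symm
    have hDbot : D = ⊥ := Subgroup.card_eq_one.mp (by rw [← hd]; exact hd1)
    have hNQ : Subgroup.normalizer (Q : Set G) = Q := by rw [hN, hDbot, sup_bot_eq]
    have : Fact (Nat.Prime 3) := ⟨by norm_num⟩
    have hQ3 : IsPGroup 3 Q := IsPGroup.of_card (n := 1) (by rw [← hq]; omega)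
    have hQidx : Q.index = 4 := by
      have h7 := Subgroup.card_mul_index Q
      rw [← hq, hG, hq3] at h7
      omega
    obtain ⟨P, hPQ⟩ : ∃ P : Sylow 3 G, (P : Subgroup G) = Q :=
      ⟨hQ3.toSylow (by rw [hQidx]; norm_num), IsPGroup.toSylow_coe _ _⟩
    have hP : Subgroup.normalizer ((P : Subgroup G) : Set G)
        ≤ Subgroup.centralizer ((P : Subgroup G) : Set G) := by
      rw [hPQ, hNQ]
      intro a ha
      rw [Subgroup.mem_centralizer_iff]
      intro b hb
      exact hab b hb a ha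
    have hc := MonoidHom.ker_transferSylow_isComplement' P hP
    have hcm := hc.card_mul_card
    have hPc : Nat.card (P : Subgroup G) = 3 := by rw [hPQ, ← hq]; exact hq3
    rw [hPc, hG] at hcm
    rcases (MonoidHom.normal_ker (MonoidHom.transferSylow P hP)).eq_bot_or_eq_top with h | h
    · rw [h, Subgroup.card_bot] at hcm; omega
    · rw [h, Subgroup.card_top, hG] at hcm; omega
  · rw [← hq, ← hd]; exact hNcard
  · rw [← hq]; exact hidx

end Cfsg.Agent.Lib.Helper46.BSW
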