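import Mathlib
import Cfsg.Agent.Lib.Helper22.HPDefs
import Cfsg.Agent.Lib.Helper22.HPDefs2
import Cfsg.Agent.Lib.Helper83.IrrBasic
import Cfsg.Agent.Lib.Helper83.Central
import Cfsg.Agent.Lib.Helper83.Twist

/-!
# S4504 (helper22's HP project): piece HP-STAR-LAN1, core (`lan1_of`)

The constituents of `Pi1 = χ χ̄`: every non-trivial constituent is trivial on the centre and is
either of value `1` on the non-trivial powers of `z` with degree `p + 1`, or exceptional (values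
`-η`) of degree `e + 1`.  Here the shared pieces (TYPES, NOLIN, KFZ, ETA, EXACT, DEC) are
hypotheses.
-/

set_option autoImplicit false
set_option linter.style.haveILetI false
set_option linter.unusedVariables false

namespace Cfsg.Agent.Lib.Helper85.HPT

open Cfsg Cfsg.Agent.Lib.Helper22.BFD Cfsg.Agent.Lib.Helper22.HPD
open scoped ComplexConjugate

universe u

/-- the five types of an irreducible character (statement of the piece TYPES) -/
def lan1Types {G : Type u} [Group G] [Fintype G] (p : ℕ) [Fact p.Prime] (z : G) (φ : G → ℂ) :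
    Prop :=
    (∀ t : ZMod p, t ≠ 0 → ∑ y ∈ Kf p z, φ (z ^ t.val * y) = 0) ∨
    ((∀ t : ZMod p, t ≠ 0 → ∀ y ∈ Kf p z, φ (z ^ t.val * y) = 1) ∧
      ∃ m : ℕ, 1 ≤ m ∧ charDegree φ + (p - 1) = p * m) ∨
    ((∀ t : ZMod p, t ≠ 0 → ∀ y ∈ Kf p z, φ (z ^ t.val * y) = -1) ∧
      ∃ m : ℕ, charDegree φ = p * m + (p - 1)) ∨
    ((∀ t : ZMod p, t ≠ 0 → ∀ y ∈ Kf p z, φ (z ^ t.val * y) = φ (z ^ t.val)) ∧
      ∃ m : ℕ, 1 ≤ m ∧ charDegree φ + (Ef p z).card = p * m ∧
        ∑ t ∈ Finset.univ.filter (fun t : ZMod p => t ≠ 0), φ (z ^ t.val) =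
          ((Ef p z).card : ℂ)) ∨
    ((∀ t : ZMod p, t ≠ 0 → ∀ y ∈ Kf p z, φ (z ^ t.val * y) = φ (z ^ t.val)) ∧
      ∃ m : ℕ, charDegree φ = p * m + (Ef p z).card ∧
        ∑ t ∈ Finset.univ.filter (fun t : ZMod p => t ≠ 0), φ (z ^ t.val) =
          -((Ef p z).card : ℂ))

/-- a central element acts as a scalar of norm one -/
theorem lan1_central {G : Type u} [Group G] [Fintype G] (ψ : IrrCharacter G) (u : G)
    (hu : u ∈ Subgroup.center G) :
    ∃ c : ℂ, c * conj c = 1 ∧ ψ.1 u = c * ψ.1 1 ∧ ∀ g : G, ψ.1 (u * g) = c * ψ.1 g := by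
  have h1 := Cfsg.Agent.Lib.Helper83.irr_one_ne_zero ψ.2
  have hdeg := (Cfsg.Agent.Lib.Helper83.irr_degree ψ.2).2
  have hpos := (Cfsg.Agent.Lib.Helper83.irr_degree ψ.2).1
  have hnorm := Cfsg.Agent.Lib.Helper83.irr_central_norm ψ u hu
  refine ⟨ψ.1 u / ψ.1 1, ?_, ?_, ?_⟩
  · rw [Complex.mul_conj, Complex.normSq_eq_norm_sq, norm_div, hnorm, hdeg, Complex.norm_natCast]
    have h2 : (charDegree ψ.1 : ℝ) ≠ 0 := by exact_mod_cast hpos.ne'
    rw [div_self h2]
    simp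
  · rw [div_mul_cancel₀ _ h1]
  · intro g
    have h2 := Cfsg.Agent.Lib.Helper83.irr_central_mul ψ u hu g
    rw [div_mul_eq_mul_div, eq_div_iff h1]
    exact h2

/-- a constituent of `χ χ̄` is trivial on the centre -/
theorem lan1_trivZ {G : Type u} [Group G] [Fintype G] (χ ψ : IrrCharacter G)
    (hm : classInner (Pi1 χ.1) ψ.1 ≠ 0) : TrivZ ψ.1 := by
  intro u hu
  obtain ⟨c, hc1, hcu, hc⟩ := lan1_central ψ u hu
  obtain ⟨d, hd1, -, hd⟩ := lan1_central χ u hu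
  have hS : ∑ g : G, Pi1 χ.1 g * conj (ψ.1 g) =
      conj c * ∑ g : G, Pi1 χ.1 g * conj (ψ.1 g) := by
    conv_lhs => rw [← Equiv.sum_comp (Equiv.mulLeft u)]
    rw [Finset.mul_sum]
    refine Finset.sum_congr rfl fun g _ => ?_
    simp only [Equiv.coe_mulLeft, Pi1]
    rw [hc g, hd g, map_mul, map_mul]
    linear_combination (χ.1 g * conj (χ.1 g) * conj c * conj (ψ.1 g)) * hd1
  have hS0 : ∑ g : G, Pi1 χ.1 g * conj (ψ.1 g) ≠ 0 := by
    intro h0
    apply hm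
    unfold classInner
    rw [h0, mul_zero]
  have hcc : conj c = 1 := by
    have h3 : (1 - conj c) * ∑ g : G, Pi1 χ.1 g * conj (ψ.1 g) = 0 := by
      linear_combination hS
    rcases mul_eq_zero.mp h3 with h4 | h4
    · exact (sub_eq_zero.mp h4).symm
    · exact absurd h4 hS0
  have hc' : c = 1 := by
    have h5 := congrArg conj hcc
    rwa [Complex.conj_conj, map_one] at h5
  rw [hcu, hc', one_mul]

theorem lan1_card_ne_zero (p : ℕ) [Fact p.Prime] (e : ℕ) (he : 2 * e + 1 = p) :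
    (Finset.univ.filter (fun t : ZMod p => t ≠ 0)).card = 2 * e := by
  have h := Finset.card_filter_add_card_filter_not
    (s := (Finset.univ : Finset (ZMod p))) (fun t : ZMod p => t ≠ 0)
  have h2 : Finset.univ.filter (fun t : ZMod p => ¬ t ≠ 0) = {0} := by
    ext t
    simp
  rw [h2, Finset.card_singleton, Finset.card_univ, ZMod.card] at h
  omega

/-- splitting off `t = 0` from a sum over `ZMod p` -/
theorem lan1_sum_ne_zero (p : ℕ) [Fact p.Prime] (f : ZMod p → ℂ) :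
    ∑ t ∈ Finset.univ.filter (fun t : ZMod p => t ≠ 0), f t = ∑ t : ZMod p, f t - f 0 := by
  have h := Finset.sum_filter_add_sum_filter_not (Finset.univ : Finset (ZMod p))
    (fun t : ZMod p => t ≠ 0) f
  have h2 : Finset.univ.filter (fun t : ZMod p => ¬ t ≠ 0) = {0} := by
    ext t
    simp
  rw [h2, Finset.sum_singleton] at h
  linear_combination h

/-- the basic inequality for one character, with the equality case -/
theorem lan1_char {G : Type u} [Group G] [Fintype G] (p : ℕ) [Fact p.Prime] (e : ℕ)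
    (he : 2 * e + 1 = p) (he1 : 1 ≤ e) (z : G) (ζ : ℂ) (k : ℕ)
    (hEf : (Ef p z).card = e) (h1K : (1 : G) ∈ Kf p z)
    (hη0 : eta p ζ 0 = (e : ℂ)) (hηsum : ∑ t : ZMod p, eta p ζ t = 0)
    (hηk : ∀ t : ZMod p, t ≠ 0 → eta p ζ t + eta p ζ ((k : ZMod p) * t) = -1)
    (ψ : IrrCharacter G) (hlin : charDegree ψ.1 ≠ 1) (htype : lan1Types p z ψ.1)
    (hexact : ∃ γ α β : ℕ, ∀ t : ZMod p, ψ.1 (z ^ t.val) =
      (γ : ℂ) + (α : ℂ) * eta p ζ t + (β : ℂ) * eta p ζ ((k : ZMod p) * t)) :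
    ∃ r : ℝ, (e : ℂ) * (charDegree ψ.1 : ℂ) * ((Kf p z).card : ℂ) -
        ((e : ℂ) + 1) * ∑ t ∈ Finset.univ.filter (fun t : ZMod p => t ≠ 0),
          ∑ y ∈ Kf p z, ψ.1 (z ^ t.val * y) = (r : ℂ) ∧ 0 ≤ r ∧
      (r = 0 → (IsEp p z ψ.1 ∧ charDegree ψ.1 = p + 1) ∨
        (IsXp p ζ z k ψ.1 ∧ charDegree ψ.1 = e + 1)) := by
  have hηT : ∑ t ∈ Finset.univ.filter (fun t : ZMod p => t ≠ 0), eta p ζ t = -(e : ℂ) := by
    rw [lan1_sum_ne_zero, hηsum, hη0, zero_sub]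
  unfold lan1Types at htype
  obtain ⟨T, hTdef⟩ : ∃ T : Finset (ZMod p),
      T = Finset.univ.filter (fun t : ZMod p => t ≠ 0) := ⟨_, rfl⟩
  have hT : T.card = 2 * e := by rw [hTdef]; exact lan1_card_ne_zero p e he
  have hTmem : ∀ t ∈ T, t ≠ 0 := by
    intro t ht
    rw [hTdef] at ht
    exact (Finset.mem_filter.mp ht).2
  obtain ⟨K, hK⟩ : ∃ K : ℕ, K = (Kf p z).card := ⟨_, rfl⟩
  have hK1 : 1 ≤ K := by rw [hK]; exact Finset.card_pos.mpr ⟨1, h1K⟩
  obtain ⟨d, hd⟩ : ∃ d : ℕ, d = charDegree ψ.1 := ⟨_, rfl⟩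
  have hd1 : 1 ≤ d := by rw [hd]; exact (Cfsg.Agent.Lib.Helper83.irr_degree ψ.2).1
  have hψ1 : ψ.1 1 = (d : ℂ) := by rw [hd]; exact (Cfsg.Agent.Lib.Helper83.irr_degree ψ.2).2
  rw [← hTdef, ← hd, hEf] at htype
  rw [← hTdef] at hηT
  rw [← hTdef, ← hK, ← hd]
  have hKr : (1 : ℝ) ≤ K := by exact_mod_cast hK1
  have her : (1 : ℝ) ≤ e := by exact_mod_cast he1
  have hdr : (1 : ℝ) ≤ d := by exact_mod_cast hd1
  have hpos1 : (0 : ℝ) < (e : ℝ) * d * K :=
    mul_pos (mul_pos (by linarith) (by linarith)) (by linarith)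
  have hpos2 : (0 : ℝ) < (e : ℝ) * K := mul_pos (by linarith) (by linarith)
  rcases htype with hF | ⟨hE, m, hm1, hdm⟩ | ⟨hE, m, hdm⟩ | ⟨hX, m, hm1, hdm, hsum⟩ |
    ⟨hX, m, hdm, hsum⟩
  · -- flat
    have hs : ∑ t ∈ T, ∑ y ∈ Kf p z, ψ.1 (z ^ t.val * y) = 0 :=
      Finset.sum_eq_zero (fun t ht => hF t (hTmem t ht))
    refine ⟨(e : ℝ) * d * K, ?_, hpos1.le, fun h0 => ?_⟩
    · rw [hs]
      push_cast
      ring
    · exfalso
      linarith
  · -- value `1`
    have hs : ∑ t ∈ T, ∑ y ∈ Kf p z, ψ.1 (z ^ t.val * y) = (2 * (e : ℂ)) * K := by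
      rw [Finset.sum_congr rfl (fun t ht => Finset.sum_congr rfl
        (fun y hy => hE t (hTmem t ht) y hy))]
      simp only [Finset.sum_const, nsmul_eq_mul, mul_one, hT, ← hK]
      push_cast
      ring
    have hm2 : 2 ≤ m := by
      by_contra hlt
      have hm : m = 1 := by omega
      rw [hm, mul_one] at hdm
      apply hlin
      rw [← hd]
      omega
    have hdge : 2 * e + 2 ≤ d := by
      have h3 := Nat.mul_le_mul_left p hm2
      omega
    have hdge' : (0 : ℝ) ≤ (d : ℝ) - (2 * e + 2) := by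
      have h3 : ((2 * e + 2 : ℕ) : ℝ) ≤ d := by exact_mod_cast hdge
      push_cast at h3
      linarith
    refine ⟨(e : ℝ) * K * ((d : ℝ) - (2 * e + 2)), ?_, mul_nonneg hpos2.le hdge', fun h0 => ?_⟩
    · rw [hs]
      push_cast
      ring
    · refine Or.inl ⟨fun t ht => ?_, ?_⟩
      · have h3 := hE t ht 1 h1K
        rwa [mul_one] at h3
      · have h1 : (d : ℝ) - (2 * e + 2) = 0 := by
          rcases mul_eq_zero.mp h0 with h | h
          · exfalso
            linarith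
          · exact h
        have h2 : (d : ℝ) = ((2 * e + 2 : ℕ) : ℝ) := by
          push_cast
          linarith
        have h3 : d = 2 * e + 2 := by exact_mod_cast h2
        omega
  · -- value `-1`
    have hs : ∑ t ∈ T, ∑ y ∈ Kf p z, ψ.1 (z ^ t.val * y) = -((2 * (e : ℂ)) * K) := by
      rw [Finset.sum_congr rfl (fun t ht => Finset.sum_congr rfl
        (fun y hy => hE t (hTmem t ht) y hy))]
      simp only [Finset.sum_const, nsmul_eq_mul, hT, ← hK]
      push_cast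
      ring
    refine ⟨(e : ℝ) * d * K + ((e : ℝ) + 1) * (2 * e * K), ?_, by positivity, fun h0 => ?_⟩
    · rw [hs]
      push_cast
      ring
    · exfalso
      have h2 : (0 : ℝ) ≤ ((e : ℝ) + 1) * (2 * e * K) := by positivity
      linarith
  · -- exceptional, sum `e`
    have hs : ∑ t ∈ T, ∑ y ∈ Kf p z, ψ.1 (z ^ t.val * y) = (K : ℂ) * e := by
      rw [Finset.sum_congr rfl (fun t ht => Finset.sum_congr rfl
        (fun y hy => hX t (hTmem t ht) y hy))]
      simp only [Finset.sum_const, nsmul_eq_mul, ← hK]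
      rw [← Finset.mul_sum, hsum]
    have hdge : e + 1 ≤ d := by
      have h3 := Nat.mul_le_mul_left p hm1
      omega
    have hdge' : (0 : ℝ) ≤ (d : ℝ) - (e + 1) := by
      have h3 : ((e + 1 : ℕ) : ℝ) ≤ d := by exact_mod_cast hdge
      push_cast at h3
      linarith
    refine ⟨(e : ℝ) * K * ((d : ℝ) - (e + 1)), ?_, mul_nonneg hpos2.le hdge', fun h0 => ?_⟩
    · rw [hs]
      push_cast
      ring
    · have h1 : (d : ℝ) - (e + 1) = 0 := by
        rcases mul_eq_zero.mp h0 with h | h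
        · exfalso
          linarith
        · exact h
      have h2' : (d : ℝ) = ((e + 1 : ℕ) : ℝ) := by
        push_cast
        linarith
      have h2 : d = e + 1 := by exact_mod_cast h2'
      refine Or.inr ⟨?_, h2⟩
      obtain ⟨γ, α, β, hv⟩ := hexact
      have h0' := hv 0
      rw [ZMod.val_zero, pow_zero, mul_zero, hη0, hψ1, h2] at h0'
      have h0n : e + 1 = γ + α * e + β * e := by exact_mod_cast h0'
      have hηkT : ∑ t ∈ T, eta p ζ ((k : ZMod p) * t) = -(e : ℂ) := by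
        have h3 : ∀ t ∈ T, eta p ζ ((k : ZMod p) * t) = -1 - eta p ζ t :=
          fun t ht => by linear_combination hηk t (hTmem t ht)
        rw [Finset.sum_congr rfl h3, Finset.sum_sub_distrib, hηT, Finset.sum_const, hT,
          nsmul_eq_mul]
        push_cast
        ring
      have hsum' : ∑ t ∈ T, ψ.1 (z ^ t.val) =
          (2 * e : ℂ) * γ + α * (-(e : ℂ)) + β * (-(e : ℂ)) := by
        rw [Finset.sum_congr rfl (fun t _ => hv t), Finset.sum_add_distrib,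
          Finset.sum_add_distrib, ← Finset.mul_sum, ← Finset.mul_sum, hηT, hηkT,
          Finset.sum_const, hT, nsmul_eq_mul]
        push_cast
        ring
      rw [hsum] at hsum'
      have h3 : (e : ℤ) = 2 * e * γ - α * e - β * e := by
        have h4 : ((e : ℤ) : ℂ) = ((2 * e * γ - α * e - β * e : ℤ) : ℂ) := by
          push_cast
          linear_combination hsum'
        exact_mod_cast h4
      have h4 : 2 * γ = 1 + α + β := by
        have h5 : (e : ℤ) * (2 * γ - α - β - 1) = 0 := by linear_combination -h3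
        rcases mul_eq_zero.mp h5 with h6 | h6
        · omega
        · omega
      have h5 : α + β = 1 := by
        rcases Nat.lt_or_ge (α + β) 2 with h6 | h6
        · omega
        · exfalso
          have h7 : 2 * e ≤ (α + β) * e := Nat.mul_le_mul_right e h6
          have h8 : (α + β) * e = α * e + β * e := by ring
          omega
      have hγ : γ = 1 := by omega
      rcases Nat.eq_zero_or_pos α with hα | hα
      · have hβ : β = 1 := by omega
        refine Or.inl (fun t ht => ?_)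
        rw [hv t, hγ, hα, hβ]
        push_cast
        linear_combination hηk t ht
      · have hα1 : α = 1 := by omega
        have hβ : β = 0 := by omega
        refine Or.inr (fun t ht => ?_)
        rw [hv t, hγ, hα1, hβ]
        push_cast
        linear_combination hηk t ht
  · -- exceptional, sum `-e`
    have hs : ∑ t ∈ T, ∑ y ∈ Kf p z, ψ.1 (z ^ t.val * y) = -((K : ℂ) * e) := by
      rw [Finset.sum_congr rfl (fun t ht => Finset.sum_congr rfl
        (fun y hy => hX t (hTmem t ht) y hy))]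
      simp only [Finset.sum_const, nsmul_eq_mul, ← hK]
      rw [← Finset.mul_sum, hsum]
      ring
    refine ⟨(e : ℝ) * d * K + ((e : ℝ) + 1) * (K * e), ?_, by positivity, fun h0 => ?_⟩
    · rw [hs]
      push_cast
      ring
    · exfalso
      have h2 : (0 : ℝ) ≤ ((e : ℝ) + 1) * (K * e) := by positivity
      linarith

/-- LAN1 from the shared pieces (TYPES, NOLIN, KFZ, ETA, EXACT, DEC as hypotheses) -/
theorem lan1_of {G : Type u} [Group G] [Fintype G] [Fintype (IrrCharacter G)] (p : ℕ)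
    [Fact p.Prime] (χ : IrrCharacter G) (e : ℕ) (he : charDegree χ.1 = e)
    (hdeg : 2 * e + 1 = p) (z : G) (ζ : ℂ) (hHP : HP p ζ z χ.1) (k : ℕ)
    (hkfz : ∀ y : G, y ∈ Kf p z ↔ y ∈ Subgroup.center G)
    (hSq : (Sq p).card = e)
    (hη0 : eta p ζ 0 = (e : ℂ))
    (hηsum : ∑ t : ZMod p, eta p ζ t = 0)
    (hηsq : ∑ t : ZMod p, eta p ζ t * conj (eta p ζ t) = ((p * e : ℕ) : ℂ))
    (hηk : ∀ t : ZMod p, t ≠ 0 → eta p ζ t + eta p ζ ((k : ZMod p) * t) = -1)
    (m₁ : IrrCharacter G → ℕ)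
    (hm₁ : ∀ φ : IrrCharacter G, classInner (Pi1 χ.1) φ.1 = (m₁ φ : ℂ))
    (hPi : ∀ g : G, Pi1 χ.1 g = ∑ φ : IrrCharacter G, (m₁ φ : ℂ) * φ.1 g)
    (htriv : ∀ φ : IrrCharacter G, φ.1 = (fun _ => 1) → m₁ φ = 1)
    (htypes : ∀ φ : IrrCharacter G, lan1Types p z φ.1)
    (hnolin : ∀ μ : IrrCharacter G, charDegree μ.1 = 1 →
      classInner (Pi1 χ.1) μ.1 ≠ 0 → μ.1 = fun _ => 1)
    (hexact : ∀ φ : IrrCharacter G, ∃ γ α β : ℕ, ∀ t : ZMod p, φ.1 (z ^ t.val) =
      (γ : ℂ) + (α : ℂ) * eta p ζ t + (β : ℂ) * eta p ζ ((k : ZMod p) * t))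
    (φ : IrrCharacter G) (hφ1 : φ.1 ≠ fun _ => 1) (hm : classInner (Pi1 χ.1) φ.1 ≠ 0) :
    TrivZ φ.1 ∧ ((IsEp p z φ.1 ∧ charDegree φ.1 = p + 1) ∨
      (IsXp p ζ z k φ.1 ∧ charDegree φ.1 = e + 1)) := by
  refine ⟨lan1_trivZ χ φ hm, ?_⟩
  have hp : p.Prime := Fact.out
  have he1 : 1 ≤ e := by
    rcases Nat.eq_zero_or_pos e with h0 | h0
    · rw [h0] at hdeg
      rw [← hdeg] at hp
      exact absurd hp (by norm_num)
    · exact h0
  obtain ⟨T, hTdef⟩ : ∃ T : Finset (ZMod p),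
      T = Finset.univ.filter (fun t : ZMod p => t ≠ 0) := ⟨_, rfl⟩
  have hT : T.card = 2 * e := by rw [hTdef]; exact lan1_card_ne_zero p e hdeg
  have h1K : (1 : G) ∈ Kf p z := (hkfz 1).mpr (Subgroup.one_mem _)
  have hEf : (Ef p z).card = e := by
    classical
    rw [← hSq]
    congr 1
    ext a
    unfold Ef
    rw [Finset.mem_filter]
    simp only [Finset.mem_univ, true_and]
    exact hHP.hE a
  obtain ⟨K, hK⟩ : ∃ K : ℕ, K = (Kf p z).card := ⟨_, rfl⟩
  have hχ1 : χ.1 1 = (e : ℂ) := by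
    rw [(Cfsg.Agent.Lib.Helper83.irr_degree χ.2).2, he]
  -- the trivial character
  obtain ⟨ψ₀, hψ₀⟩ : ∃ ψ₀ : IrrCharacter G, ψ₀.1 = fun _ => 1 :=
    ⟨Cfsg.Agent.Lib.Helper83.trivIrr G, rfl⟩
  have hφψ₀ : φ ≠ ψ₀ := fun h => hφ1 (by rw [h]; exact hψ₀)
  have hdψ₀ : charDegree ψ₀.1 = 1 := by
    have h1 := (Cfsg.Agent.Lib.Helper83.irr_degree ψ₀.2).2
    rw [hψ₀] at h1
    have h2 : ((1 : ℕ) : ℂ) = (charDegree (fun _ : G => (1 : ℂ)) : ℂ) := by
      rw [Nat.cast_one]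
      exact h1
    rw [hψ₀]
    exact (Nat.cast_injective h2).symm
  -- the defect of the basic inequality
  obtain ⟨D, hD⟩ : ∃ D : IrrCharacter G → ℂ, ∀ ψ : IrrCharacter G,
      D ψ = (e : ℂ) * (charDegree ψ.1 : ℂ) * (K : ℂ) -
        ((e : ℂ) + 1) * ∑ t ∈ T, ∑ y ∈ Kf p z, ψ.1 (z ^ t.val * y) := ⟨_, fun _ => rfl⟩
  have hC : ∑ ψ : IrrCharacter G, (m₁ ψ : ℂ) * (charDegree ψ.1 : ℂ) = (e : ℂ) * e := by
    have h1 := hPi 1
    unfold Pi1 at h1
    rw [hχ1, Complex.conj_natCast] at h1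
    rw [h1]
    refine Finset.sum_congr rfl fun ψ _ => ?_
    rw [(Cfsg.Agent.Lib.Helper83.irr_degree ψ.2).2]
  have hA : ∑ ψ : IrrCharacter G, (m₁ ψ : ℂ) * ∑ t ∈ T, ∑ y ∈ Kf p z, ψ.1 (z ^ t.val * y) =
      ∑ t ∈ T, ∑ y ∈ Kf p z, Pi1 χ.1 (z ^ t.val * y) := by
    simp only [Finset.mul_sum]
    rw [Finset.sum_comm]
    refine Finset.sum_congr rfl fun t _ => ?_
    rw [Finset.sum_comm]
    refine Finset.sum_congr rfl fun y _ => ?_
    rw [hPi]
  have hηT : ∑ t ∈ T, eta p ζ t * conj (eta p ζ t) = ((p * e : ℕ) : ℂ) - (e : ℂ) * e := by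
    rw [hTdef, lan1_sum_ne_zero p (fun t => eta p ζ t * conj (eta p ζ t)), hηsq, hη0,
      Complex.conj_natCast]
  have hB : ∑ t ∈ T, ∑ y ∈ Kf p z, Pi1 χ.1 (z ^ t.val * y) =
      (K : ℂ) * (((p * e : ℕ) : ℂ) - (e : ℂ) * e) := by
    have h1 : ∀ t ∈ T, ∑ y ∈ Kf p z, Pi1 χ.1 (z ^ t.val * y) =
        (K : ℂ) * (eta p ζ t * conj (eta p ζ t)) := by
      intro t _
      have h2 : ∀ y ∈ Kf p z, Pi1 χ.1 (z ^ t.val * y) = eta p ζ t * conj (eta p ζ t) := by
        intro y hy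
        have hyc : y ∈ Subgroup.center G := (hkfz y).mp hy
        obtain ⟨dc, hdc1, -, hdc⟩ := lan1_central χ y hyc
        have hcomm : z ^ t.val * y = y * z ^ t.val := Subgroup.mem_center_iff.mp hyc (z ^ t.val)
        unfold Pi1
        rw [hcomm, hdc, hHP.hval t, map_mul]
        linear_combination (eta p ζ t * conj (eta p ζ t)) * hdc1
      rw [Finset.sum_congr rfl h2, Finset.sum_const, nsmul_eq_mul, ← hK]
    rw [Finset.sum_congr rfl h1, ← Finset.mul_sum, hηT]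
  have hsumD : ∑ ψ : IrrCharacter G, (m₁ ψ : ℂ) * D ψ = -((e : ℂ) * p * (K : ℂ)) := by
    have h1 : ∑ ψ : IrrCharacter G, (m₁ ψ : ℂ) * D ψ =
        (e : ℂ) * (K : ℂ) * ∑ ψ : IrrCharacter G, (m₁ ψ : ℂ) * (charDegree ψ.1 : ℂ) -
          ((e : ℂ) + 1) * ∑ ψ : IrrCharacter G,
            (m₁ ψ : ℂ) * ∑ t ∈ T, ∑ y ∈ Kf p z, ψ.1 (z ^ t.val * y) := by
      rw [Finset.mul_sum, Finset.mul_sum, ← Finset.sum_sub_distrib]
      refine Finset.sum_congr rfl fun ψ _ => ?_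
      rw [hD ψ]
      ring
    rw [h1, hC, hA, hB, ← hdeg]
    push_cast
    ring
  have hDψ₀ : D ψ₀ = -((e : ℂ) * p * (K : ℂ)) := by
    rw [hD ψ₀, hdψ₀, hψ₀]
    simp only [Finset.sum_const, nsmul_eq_mul, mul_one, hT, ← hK]
    rw [← hdeg]
    push_cast
    ring
  haveI : DecidableEq (IrrCharacter G) := Classical.decEq _
  have hrest : ∑ ψ ∈ Finset.univ.erase ψ₀, (m₁ ψ : ℂ) * D ψ = 0 := by
    have h1 := Finset.add_sum_erase Finset.univ (fun ψ => (m₁ ψ : ℂ) * D ψ) (Finset.mem_univ ψ₀)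
    rw [hsumD, htriv ψ₀ hψ₀, hDψ₀, Nat.cast_one, one_mul] at h1
    linear_combination h1
  have hper : ∀ ψ : IrrCharacter G, ψ ≠ ψ₀ → ∃ r : ℝ, (m₁ ψ : ℂ) * D ψ = (r : ℂ) ∧ 0 ≤ r ∧
      (r = 0 → m₁ ψ ≠ 0 → (IsEp p z ψ.1 ∧ charDegree ψ.1 = p + 1) ∨
        (IsXp p ζ z k ψ.1 ∧ charDegree ψ.1 = e + 1)) := by
    intro ψ hψ
    by_cases hmψ : m₁ ψ = 0
    · refine ⟨0, ?_, le_refl _, fun _ h => absurd hmψ h⟩
      rw [hmψ, Nat.cast_zero, zero_mul, Complex.ofReal_zero]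
    · have hmψ' : classInner (Pi1 χ.1) ψ.1 ≠ 0 := by
        rw [hm₁]
        exact_mod_cast hmψ
      have hlin : charDegree ψ.1 ≠ 1 := by
        intro h1
        apply hψ
        apply Subtype.ext
        rw [hnolin ψ h1 hmψ', hψ₀]
      obtain ⟨r, hr, hr0, hrz⟩ := lan1_char p e hdeg he1 z ζ k hEf h1K hη0 hηsum hηk ψ hlin
        (htypes ψ) (hexact ψ)
      rw [← hTdef, ← hK, ← hD ψ] at hr
      refine ⟨(m₁ ψ : ℝ) * r, ?_, mul_nonneg (Nat.cast_nonneg _) hr0, fun h0 _ => hrz ?_⟩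
      · rw [hr]
        push_cast
        ring
      · rcases mul_eq_zero.mp h0 with h | h
        · exact absurd (by exact_mod_cast h) hmψ
        · exact h
  choose! r hr using hper
  have hreal : ∑ ψ ∈ Finset.univ.erase ψ₀, r ψ = 0 := by
    have h1 : ∑ ψ ∈ Finset.univ.erase ψ₀, ((r ψ : ℝ) : ℂ) = 0 := by
      rw [← hrest]
      exact Finset.sum_congr rfl
        (fun ψ hψ => ((hr ψ (Finset.ne_of_mem_erase hψ)).1).symm)
    exact_mod_cast h1
  have hall := (Finset.sum_eq_zero_iff_of_nonneg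
    (fun ψ hψ => (hr ψ (Finset.ne_of_mem_erase hψ)).2.1)).mp hreal
  have hφmem : φ ∈ Finset.univ.erase ψ₀ := Finset.mem_erase.mpr ⟨hφψ₀, Finset.mem_univ _⟩
  have hmφ : m₁ φ ≠ 0 := by
    intro h0
    apply hm
    rw [hm₁, h0, Nat.cast_zero]
  exact (hr φ hφψ₀).2.2 (hall φ hφmem) hmφ

end Cfsg.Agent.Lib.Helper85.HPT
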