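import Mathlib
import Cfsg.Agent.Lib.Helper22.HPDefs
import Cfsg.Agent.Lib.Helper83.IrrBasic
import Cfsg.Agent.Lib.Helper83.Central
import Cfsg.Agent.Lib.Helper83.Twist
import Cfsg.Agent.Lib.Helper67.BFZCENT

/-!
# S4504 / HP-RECOG sub-piece P7CHAR, core (helper85 for helper1)

`hprp7char_core`: no faithful irreducible character of degree 3 when some `L ≥ Z(G)` has
`L / Z(G)` elementary abelian of order 8 -- with the statement of `recog_ab_norm` for `χ`
taken as the hypothesis `hprp7char_AbNorm χ.1`.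
-/

set_option autoImplicit false

namespace Cfsg.Agent.Lib.Helper85.HPR

open Cfsg Cfsg.Agent.Lib.Helper22.BFD Cfsg.Agent.Lib.Helper22.HPD

universe u

open Classical in
/-- the statement of `recog_ab_norm` for the function `χ` -/
def hprp7char_AbNorm {G : Type u} [Group G] [Fintype G] (χ : G → ℂ) : Prop :=
  ∀ (A : Subgroup G), (∀ a ∈ A, ∀ b ∈ A, a * b = b * a) →
    ∃ k : ℕ, (k = 3 ∨ k = 5 ∨ k = 9) ∧
      ∑ a ∈ Finset.univ.filter (fun a : G => a ∈ A), ‖χ a‖ ^ 2 = (Nat.card A : ℝ) * k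

theorem hprp7char_card {G : Type u} [Group G] [Fintype G] (A : Subgroup G)
    [DecidablePred (fun a : G => a ∈ A)] :
    (Finset.univ.filter (fun a : G => a ∈ A)).card = Nat.card A := by
  rw [Nat.card_eq_fintype_card, Fintype.card_subtype]

open Classical in
theorem hprp7char_split {G : Type u} [Group G] [Fintype G] (f : G → ℝ) (Z A : Subgroup G)
    (hZA : Z ≤ A) (hc : ∀ x ∈ Z, f x = 9) (t : ℝ) (ht : ∀ x ∈ A, x ∉ Z → f x = t) :
    ∑ a ∈ Finset.univ.filter (fun a : G => a ∈ A), f a =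
      9 * (Nat.card Z : ℝ) + ((Nat.card A : ℝ) - Nat.card Z) * t := by
  have hfe : (Finset.univ.filter (fun a : G => a ∈ A)).filter (fun a => a ∈ Z) =
      Finset.univ.filter (fun a : G => a ∈ Z) := by
    ext a
    simp only [Finset.mem_filter, Finset.mem_univ, true_and]
    exact ⟨fun h => h.2, fun h => ⟨hZA h, h⟩⟩
  have h1 : ∑ x ∈ (Finset.univ.filter (fun a : G => a ∈ A)).filter (fun a => a ∈ Z), f x =
      9 * (Nat.card Z : ℝ) := by
    rw [hfe]
    have hc' : ∀ x ∈ Finset.univ.filter (fun a : G => a ∈ Z), f x = (9 : ℝ) :=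
      fun x hx => hc x (Finset.mem_filter.1 hx).2
    rw [Finset.sum_congr rfl hc', Finset.sum_const, nsmul_eq_mul, hprp7char_card]
    ring
  have h2 : ∑ x ∈ (Finset.univ.filter (fun a : G => a ∈ A)).filter (fun a => ¬ a ∈ Z), f x =
      ((Nat.card A : ℝ) - Nat.card Z) * t := by
    have hc' : ∀ x ∈ (Finset.univ.filter (fun a : G => a ∈ A)).filter (fun a => ¬ a ∈ Z),
        f x = t := by
      intro x hx
      rw [Finset.mem_filter, Finset.mem_filter] at hx
      exact ht x hx.1.2 hx.2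
    rw [Finset.sum_congr rfl hc', Finset.sum_const, nsmul_eq_mul]
    have hcard : ((Finset.univ.filter (fun a : G => a ∈ A)).filter (fun a => ¬ a ∈ Z)).card +
        Nat.card Z = Nat.card A := by
      rw [← hprp7char_card A, ← Finset.card_filter_add_card_filter_not
        (s := Finset.univ.filter (fun a : G => a ∈ A)) (p := fun a => a ∈ Z), hfe,
        hprp7char_card]
      ring
    have hcast : (((Finset.univ.filter (fun a : G => a ∈ A)).filter
        (fun a => ¬ a ∈ Z)).card : ℝ) = (Nat.card A : ℝ) - Nat.card Z := by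
      rw [← hcard]; push_cast; ring
    rw [hcast]
  rw [← Finset.sum_filter_add_sum_filter_not (Finset.univ.filter (fun a : G => a ∈ A))
    (fun a => a ∈ Z), h1, h2]

/-- `Z ∪ bZ` as a subgroup, for `b² ∈ Z = Z(G)` -/
def hprp7char_B {G : Type u} [Group G] (b : G) (hb : b ^ 2 ∈ Subgroup.center G) : Subgroup G where
  carrier := {g | g ∈ Subgroup.center G ∨ b⁻¹ * g ∈ Subgroup.center G}
  one_mem' := Or.inl (Subgroup.one_mem _)
  mul_mem' := by
    rintro g h (hg | hg) (hh | hh)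
    · exact Or.inl (Subgroup.mul_mem _ hg hh)
    · right
      have h1 : b⁻¹ * (g * h) = g * (b⁻¹ * h) := by
        rw [← mul_assoc, Subgroup.mem_center_iff.1 hg b⁻¹, mul_assoc]
      show b⁻¹ * (g * h) ∈ Subgroup.center G
      rw [h1]; exact Subgroup.mul_mem _ hg hh
    · right
      have h1 : b⁻¹ * (g * h) = (b⁻¹ * g) * h := by group
      show b⁻¹ * (g * h) ∈ Subgroup.center G
      rw [h1]; exact Subgroup.mul_mem _ hg hh
    · left
      have hu := Subgroup.mem_center_iff.1 hg b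
      have h1 : g * h = (b⁻¹ * g) * b ^ 2 * (b⁻¹ * h) := by
        calc g * h = (b * (b⁻¹ * g)) * (b * (b⁻¹ * h)) := by group
          _ = ((b⁻¹ * g) * b) * (b * (b⁻¹ * h)) := by rw [hu]
          _ = (b⁻¹ * g) * b ^ 2 * (b⁻¹ * h) := by group
      show g * h ∈ Subgroup.center G
      rw [h1]; exact Subgroup.mul_mem _ (Subgroup.mul_mem _ hg hb) hh
  inv_mem' := by
    rintro g (hg | hg)
    · exact Or.inl (Subgroup.inv_mem _ hg)
    · right
      have hu := Subgroup.mem_center_iff.1 (Subgroup.inv_mem _ hg) b⁻¹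
      have h1 : b⁻¹ * g⁻¹ = (b⁻¹ * g)⁻¹ * (b ^ 2)⁻¹ := by
        calc b⁻¹ * g⁻¹ = (b⁻¹ * (b⁻¹ * g)⁻¹) * b⁻¹ := by group
          _ = ((b⁻¹ * g)⁻¹ * b⁻¹) * b⁻¹ := by rw [hu]
          _ = (b⁻¹ * g)⁻¹ * (b ^ 2)⁻¹ := by group
      show b⁻¹ * g⁻¹ ∈ Subgroup.center G
      rw [h1]; exact Subgroup.mul_mem _ (Subgroup.inv_mem _ hg) (Subgroup.inv_mem _ hb)

theorem hprp7char_mem_B {G : Type u} [Group G] (b : G) (hb : b ^ 2 ∈ Subgroup.center G) (g : G) :
    g ∈ hprp7char_B b hb ↔ g ∈ Subgroup.center G ∨ b⁻¹ * g ∈ Subgroup.center G := Iff.rfl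

theorem hprp7char_B_comm {G : Type u} [Group G] (b : G) (hb : b ^ 2 ∈ Subgroup.center G) :
    ∀ x ∈ hprp7char_B b hb, ∀ y ∈ hprp7char_B b hb, x * y = y * x := by
  intro x hx y hy
  rw [hprp7char_mem_B] at hx hy
  rcases hx with hx | hx
  · exact (Subgroup.mem_center_iff.1 hx y).symm
  rcases hy with hy | hy
  · exact Subgroup.mem_center_iff.1 hy x
  obtain ⟨u, hu_def⟩ : ∃ u, u = b⁻¹ * x := ⟨_, rfl⟩
  obtain ⟨v, hv_def⟩ : ∃ v, v = b⁻¹ * y := ⟨_, rfl⟩
  rw [← hu_def] at hx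
  rw [← hv_def] at hy
  have hx_eq : x = b * u := by rw [hu_def]; group
  have hy_eq : y = b * v := by rw [hv_def]; group
  have hu' := Subgroup.mem_center_iff.1 hx
  have hv' := Subgroup.mem_center_iff.1 hy
  rw [hx_eq, hy_eq]
  calc b * u * (b * v) = b * (u * b) * v := by group
    _ = b * (b * u) * v := by rw [← hu' b]
    _ = b * b * (u * v) := by group
    _ = b * b * (v * u) := by rw [hu' v]
    _ = b * (b * v) * u := by group
    _ = b * (v * b) * u := by rw [hv' b]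
    _ = b * v * (b * u) := by group

theorem hprp7char_B_card {G : Type u} [Group G] [Fintype G] (b : G)
    (hb : b ^ 2 ∈ Subgroup.center G) (hbZ : b ∉ Subgroup.center G) :
    Nat.card (hprp7char_B b hb) = 2 * Nat.card (Subgroup.center G) := by
  classical
  rw [← hprp7char_card (hprp7char_B b hb), ← hprp7char_card (Subgroup.center G),
    ← Finset.card_filter_add_card_filter_not
      (s := Finset.univ.filter (fun a : G => a ∈ hprp7char_B b hb))
      (p := fun a => a ∈ Subgroup.center G)]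
  have hfe : (Finset.univ.filter (fun a : G => a ∈ hprp7char_B b hb)).filter
      (fun a => a ∈ Subgroup.center G) = Finset.univ.filter (fun a : G => a ∈ Subgroup.center G) := by
    ext a
    simp only [Finset.mem_filter, Finset.mem_univ, true_and]
    exact ⟨fun h => h.2, fun h => ⟨Or.inl h, h⟩⟩
  have hbij : ((Finset.univ.filter (fun a : G => a ∈ hprp7char_B b hb)).filter
      (fun a => ¬ a ∈ Subgroup.center G)).card =
      (Finset.univ.filter (fun a : G => a ∈ Subgroup.center G)).card := by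
    refine Finset.card_nbij' (fun a => b⁻¹ * a) (fun u => b * u) ?_ ?_ ?_ ?_
    · intro a ha
      simp only [Finset.coe_filter, Finset.mem_filter, Finset.mem_univ, true_and,
        Set.mem_ofPred_eq] at ha ⊢
      exact ((hprp7char_mem_B b hb a).1 ha.1).resolve_left ha.2
    · intro u hu
      simp only [Finset.coe_filter, Finset.mem_filter, Finset.mem_univ, true_and,
        Set.mem_ofPred_eq] at hu ⊢
      refine ⟨(hprp7char_mem_B b hb _).2 (Or.inr (by simpa using hu)), fun h => hbZ ?_⟩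
      have := Subgroup.mul_mem _ h (Subgroup.inv_mem _ hu)
      simpa using this
    · intro a _
      simp
    · intro u _
      simp
  rw [hfe, hbij]
  ring

theorem hprp7char_normb {G : Type u} [Group G] [Fintype G] (χ : IrrCharacter G)
    (hfaith : ∀ g : G, χ.1 g = χ.1 1 → g = 1) (hdeg : charDegree χ.1 = 3)
    (hab : hprp7char_AbNorm χ.1) (b : G) (hb2 : b ^ 2 ∈ Subgroup.center G)
    (hbZ : b ∉ Subgroup.center G) : ‖χ.1 b‖ = 1 := by
  classical
  have hZB : Subgroup.center G ≤ hprp7char_B b hb2 := fun g hg => Or.inl hg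
  obtain ⟨k, hk, hsum⟩ := hab (hprp7char_B b hb2) (hprp7char_B_comm b hb2)
  have hχ1 : χ.1 1 = 3 := by
    have := (Cfsg.Agent.Lib.Helper83.irr_degree χ.2).2
    rw [hdeg] at this
    exact_mod_cast this
  have hcZ : ∀ x ∈ Subgroup.center G, ‖χ.1 x‖ ^ 2 = 9 := by
    intro x hx
    have := Cfsg.Agent.Lib.Helper83.irr_central_norm χ x hx
    rw [this, hdeg]; norm_num
  have ht : ∀ x ∈ hprp7char_B b hb2, x ∉ Subgroup.center G → ‖χ.1 x‖ ^ 2 = ‖χ.1 b‖ ^ 2 := by
    intro x hx hxZ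
    have hu : b⁻¹ * x ∈ Subgroup.center G := ((hprp7char_mem_B b hb2 x).1 hx).resolve_left hxZ
    have h1 := Cfsg.Agent.Lib.Helper83.irr_central_mul χ (b⁻¹ * x) hu b
    have h2 : χ.1 (b⁻¹ * x * b) = χ.1 x := by
      have := Cfsg.Agent.Lib.Helper83.irr_classFunction χ.2 x b⁻¹
      rwa [inv_inv] at this
    rw [h2, hχ1] at h1
    have h3 := Cfsg.Agent.Lib.Helper83.irr_central_norm χ (b⁻¹ * x) hu
    rw [hdeg] at h3
    have h4 : ‖χ.1 x‖ * 3 = 3 * ‖χ.1 b‖ := by
      have := congrArg norm h1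
      rw [norm_mul, norm_mul, h3] at this
      simpa using this
    have h5 : ‖χ.1 x‖ = ‖χ.1 b‖ := by linarith
    rw [h5]
  have hsplit := hprp7char_split (fun g => ‖χ.1 g‖ ^ 2) (Subgroup.center G) (hprp7char_B b hb2)
    hZB hcZ _ ht
  rw [hsplit, hprp7char_B_card b hb2 hbZ] at hsum
  have hZpos : (0 : ℝ) < Nat.card (Subgroup.center G) := by exact_mod_cast Nat.card_pos
  push_cast at hsum
  have ht0 : 0 ≤ ‖χ.1 b‖ := norm_nonneg _
  have hkey : 9 + ‖χ.1 b‖ ^ 2 = 2 * (k : ℝ) := by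
    have : (Nat.card (Subgroup.center G) : ℝ) * (9 + ‖χ.1 b‖ ^ 2) =
        (Nat.card (Subgroup.center G) : ℝ) * (2 * (k : ℝ)) := by linarith
    exact mul_left_cancel₀ hZpos.ne' this
  rcases hk with rfl | rfl | rfl
  · exfalso
    have := sq_nonneg ‖χ.1 b‖
    push_cast at hkey
    linarith
  · push_cast at hkey
    have h1 : ‖χ.1 b‖ ^ 2 = 1 ^ 2 := by linarith
    exact (sq_eq_sq₀ ht0 (by norm_num)).1 h1
  · exfalso
    push_cast at hkey
    have h1 : ‖χ.1 b‖ ^ 2 = 3 ^ 2 := by linarith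
    have h3 : ‖χ.1 b‖ = 3 := (sq_eq_sq₀ ht0 (by norm_num)).1 h1
    apply hbZ
    refine Cfsg.Agent.Lib.Helper67.BFT.central_of_norm χ hfaith b (χ.1 b / 3) ?_ ?_
    · rw [norm_div, h3]; norm_num
    · rw [hχ1]; ring

theorem hprp7char_comm {G : Type u} [Group G] [Fintype G] (χ : IrrCharacter G)
    (hfaith : ∀ g : G, χ.1 g = χ.1 1 → g = 1) (hdeg : charDegree χ.1 = 3)
    (hab : hprp7char_AbNorm χ.1) (L : Subgroup G)
    (hsq : ∀ l ∈ L, l ^ 2 ∈ Subgroup.center G)
    (hcomm : ∀ a ∈ L, ∀ b ∈ L, a * b * a⁻¹ * b⁻¹ ∈ Subgroup.center G) :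
    ∀ a ∈ L, ∀ b ∈ L, a * b = b * a := by
  intro a ha b hb
  by_cases hbZ : b ∈ Subgroup.center G
  · exact Subgroup.mem_center_iff.1 hbZ a
  · have hn := hprp7char_normb χ hfaith hdeg hab b (hsq b hb) hbZ
    have hc := hcomm a ha b hb
    have h1 := Cfsg.Agent.Lib.Helper83.irr_central_mul χ _ hc b
    have h2 : a * b * a⁻¹ * b⁻¹ * b = a * b * a⁻¹ := by group
    rw [h2, Cfsg.Agent.Lib.Helper83.irr_classFunction χ.2 b a] at h1
    have hb0 : χ.1 b ≠ 0 := by
      intro h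
      rw [h, norm_zero] at hn
      norm_num at hn
    have h3 : χ.1 (a * b * a⁻¹ * b⁻¹) = χ.1 1 := by
      have : χ.1 b * χ.1 1 = χ.1 b * χ.1 (a * b * a⁻¹ * b⁻¹) := by rw [h1]; ring
      exact (mul_left_cancel₀ hb0 this).symm
    have h4 := hfaith _ h3
    calc a * b = (a * b * a⁻¹ * b⁻¹) * (b * a) := by group
      _ = b * a := by rw [h4, one_mul]

/-- P7CHAR with the abelian-norm statement as a hypothesis -/
theorem hprp7char_core {G : Type u} [Group G] [Fintype G] (χ : IrrCharacter G)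
    (hfaith : ∀ g : G, χ.1 g = χ.1 1 → g = 1) (hdeg : charDegree χ.1 = 3)
    (hab : hprp7char_AbNorm χ.1)
    (L : Subgroup G) (hZL : Subgroup.center G ≤ L)
    (hcard : Nat.card L = 8 * Nat.card (Subgroup.center G))
    (hsq : ∀ l ∈ L, l ^ 2 ∈ Subgroup.center G)
    (hcomm : ∀ a ∈ L, ∀ b ∈ L, a * b * a⁻¹ * b⁻¹ ∈ Subgroup.center G) : False := by
  classical
  have hLc := hprp7char_comm χ hfaith hdeg hab L hsq hcomm
  obtain ⟨k, hk, hsum⟩ := hab L hLc
  have hcZ : ∀ x ∈ Subgroup.center G, ‖χ.1 x‖ ^ 2 = 9 := by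
    intro x hx
    have := Cfsg.Agent.Lib.Helper83.irr_central_norm χ x hx
    rw [this, hdeg]; norm_num
  have ht : ∀ x ∈ L, x ∉ Subgroup.center G → ‖χ.1 x‖ ^ 2 = 1 := by
    intro x hx hxZ
    rw [hprp7char_normb χ hfaith hdeg hab x (hsq x hx) hxZ]; norm_num
  have hsplit := hprp7char_split (fun g => ‖χ.1 g‖ ^ 2) (Subgroup.center G) L hZL hcZ 1 ht
  rw [hsplit, hcard] at hsum
  have hZpos : (0 : ℝ) < Nat.card (Subgroup.center G) := by exact_mod_cast Nat.card_pos
  push_cast at hsum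
  have h16 : (Nat.card (Subgroup.center G) : ℝ) * 16 =
      (Nat.card (Subgroup.center G) : ℝ) * (8 * k) := by linarith
  have hk2 : (16 : ℝ) = 8 * k := mul_left_cancel₀ hZpos.ne' h16
  rcases hk with rfl | rfl | rfl <;> norm_num at hk2

end Cfsg.Agent.Lib.Helper85.HPR
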