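import Mathlib
import Cfsg.Agent.Lib.Helper85.HPRP7CHARa
import Cfsg.Agent.Lib.Helper73.HPRABNORM
import Cfsg.Agent.Lib.Helper4.CharClosure

/-!
# S4504 / HP-RECOG sub-piece P7CHAR (helper85 for helper1)

No faithful irreducible character of degree 3 when some `L ≥ Z(G)` has `L / Z(G)` elementary
abelian of order 8.
-/

set_option autoImplicit false

namespace Cfsg.Agent.Lib.Helper85.HPR

open Cfsg Cfsg.Agent.Lib.Helper22.BFD Cfsg.Agent.Lib.Helper22.HPD

universe u

/-- SUB-PIECE P7CHAR: no faithful irreducible character of degree 3 when some `L ≥ Z(G)` has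
`L / Z(G)` elementary abelian of order 8 -/
theorem recog_p7_char {G : Type u} [Group G] [Fintype G] (χ : IrrCharacter G)
    (hfaith : ∀ g : G, χ.1 g = χ.1 1 → g = 1) (hdeg : charDegree χ.1 = 3)
    (L : Subgroup G) (hZL : Subgroup.center G ≤ L)
    (hcard : Nat.card L = 8 * Nat.card (Subgroup.center G))
    (hsq : ∀ l ∈ L, l ^ 2 ∈ Subgroup.center G)
    (hcomm : ∀ a ∈ L, ∀ b ∈ L, a * b * a⁻¹ * b⁻¹ ∈ Subgroup.center G) : False :=
  hprp7char_core χ hfaith hdeg
    (fun A hA => Cfsg.Agent.Lib.Helper73.HPR.recog_ab_norm χ.1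
      (Cfsg.Agent.Lib.Helper4.isCharacter_of_irr χ) hdeg A hA)
    L hZL hcard hsq hcomm

end Cfsg.Agent.Lib.Helper85.HPR
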