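import Mathlib
import Cfsg.Agent.S0854
import Cfsg.Agent.Lib.Helper5.CharInt
import Cfsg.Agent.Lib.Helper83.LinearCount
import Cfsg.Agent.Lib.Helper4.Eigen

set_option autoImplicit false

namespace Cfsg.Agent.Lib.Helper85

open Cfsg Cfsg.Agent.Lib Cfsg.Agent.Lib.Helper20

/-- If an irreducible representation has `‖χ(a)‖ = χ(1)` for all `a` in a subgroup `A`, then
`χ(1)` divides the index of `A`. -/
theorem finrank_dvd_index_of_norm {T : Type*} [Group T] [Finite T] {W : Type*} [AddCommGroup W]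
    [Module ℂ W] [FiniteDimensional ℂ W] (σ : Representation ℂ T W) [σ.IsIrreducible]
    (A : Subgroup T) (hA : ∀ a ∈ A, ‖σ.character a‖ = (Module.finrank ℂ W : ℝ)) :
    Module.finrank ℂ W ∣ A.index :=
  Helper5.finrank_dvd_index_of_scalar σ A
    (fun a ha => (Helper4.norm_char_eq_iff σ a).mp (hA a ha))

theorem irr_degree_dvd_index_of_norm {T : Type*} [Group T] [Finite T] {ψ : T → ℂ}
    (hψ : IsIrrCharacter T ψ) (A : Subgroup T) (hA : ∀ a ∈ A, ‖ψ a‖ = ‖ψ 1‖) :
    charDegree ψ ∣ A.index := by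
  obtain ⟨hpos, h1⟩ := Helper83.irr_degree hψ
  obtain ⟨n, σ, hσ, rfl⟩ := hψ
  have := hσ
  have hn : σ.character 1 = (n : ℂ) := by
    rw [Representation.char_one]; simp
  have hdeg : charDegree σ.character = n := by
    rw [hn] at h1
    exact_mod_cast h1.symm
  rw [hdeg]
  have h2 := finrank_dvd_index_of_norm σ A (by
    intro a ha
    rw [hA a ha, hn]
    simp)
  simpa using h2

/-- **Itô's theorem**, character form. -/
theorem ito_char {G : Type*} [Group G] [Finite G] (H : Subgroup G) [hN : H.Normal]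
    (hH : ∀ a ∈ H, ∀ b ∈ H, a * b = b * a) {χ : G → ℂ} (hχ : IsIrrCharacter G χ) :
    charDegree χ ∣ H.index := by
  classical
  let _ : Fintype G := Fintype.ofFinite G
  let _ : Fintype H := Fintype.ofFinite H
  have := Helper4.irr_finite (G := H)
  let _ : Fintype (IrrCharacter H) := Fintype.ofFinite _
  have hcharχ := Helper35.isChar_of_irr hχ
  obtain ⟨b, hb⟩ := Helper4.exists_decomp_of_isCharacter (fun n : H => χ n)
    (Helper35.isCharacter_res H hcharχ)
  obtain ⟨hdpos, hd1⟩ := Helper83.irr_degree hχ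
  have hex : ∃ ϑ : IrrCharacter H, b ϑ ≠ 0 := by
    by_contra hcon
    push Not at hcon
    have h1 := congrFun hb 1
    simp only [hcon, Nat.cast_zero, zero_smul, Finset.sum_const_zero, Pi.zero_apply] at h1
    have h2 : χ 1 = 0 := h1
    rw [hd1] at h2
    have : charDegree χ = 0 := by exact_mod_cast h2
    omega
  obtain ⟨ϑ, hϑb⟩ := hex
  have hcon : classInner (fun n : H => χ n) (ϑ : H → ℂ) ≠ 0 := by
    rw [hb, Helper4.classInner_sum_irr (fun ξ => (b ξ : ℂ)) ϑ]
    exact_mod_cast hϑb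
  let T : Subgroup G :=
    { carrier := {g | conjFun H (ϑ : H → ℂ) g = ϑ}
      mul_mem' := by
        intro a c ha hc
        rw [Set.mem_ofPred_eq] at ha hc ⊢
        rw [← conjFun_conjFun, ha, hc]
      one_mem' := conjFun_one H _
      inv_mem' := by
        intro a ha
        rw [Set.mem_ofPred_eq] at ha ⊢
        apply conjFun_inj H _ _ a
        rw [conjFun_conjFun, inv_mul_cancel, conjFun_one, ha] }
  let _ : Fintype T := Fintype.ofFinite T
  have hT : ∀ g : G, g ∈ T ↔ ∀ n : H, (ϑ : H → ℂ) ⟨g * n * g⁻¹, hN.conj_mem (n : G) n.2 g⟩ =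
      (ϑ : H → ℂ) n := by
    intro g
    constructor
    · intro h n
      exact congrFun h n
    · intro h
      funext n
      exact h n
  have hHT : H ≤ T := by
    intro h hh
    rw [hT]
    intro n
    have e : (⟨h * n * h⁻¹, hN.conj_mem (n : G) n.2 h⟩ : H) = n := by
      apply Subtype.ext
      show h * n * h⁻¹ = n
      rw [hH h hh n n.2, mul_inv_cancel_right]
    rw [e]
  obtain ⟨ψ, hψ, hind, hinner⟩ := Cfsg.Agent.S0854.result H (ϑ : H → ℂ) ϑ.2 T hT hHT χ hχ hcon
  have hcon' : classInner (fun n : H => ψ ⟨(n : G), hHT n.2⟩) (ϑ : H → ℂ) ≠ 0 := by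
    rw [hinner]; exact hcon
  have hres := Cfsg.Agent.S0854.inertia_res H (ϑ : H → ℂ) ϑ.2 T (fun g hg => (hT g).mp hg) hHT
    ψ hψ hcon'
  have hcommH : IsMulCommutative H := ⟨⟨fun a c => Subtype.ext (hH a a.2 c c.2)⟩⟩
  have hϑ1 : (ϑ : H → ℂ) 1 = 1 := Helper83.irr_comm_degree ϑ.2
  have hnorm : ∀ a ∈ H.subgroupOf T, ‖ψ a‖ = ‖ψ 1‖ := by
    intro a ha
    have ha' : (a : G) ∈ H := ha
    have h1 := hres ⟨(a : G), ha'⟩
    have h2 := hres 1
    have e1 : (⟨((⟨(a : G), ha'⟩ : H) : G), hHT ha'⟩ : T) = a := Subtype.ext rfl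
    have e2 : (⟨((1 : H) : G), hHT (1 : H).2⟩ : T) = 1 := Subtype.ext rfl
    rw [e1] at h1
    rw [e2] at h2
    rw [h1, h2, norm_mul, norm_mul, Helper83.irr_linear_norm ϑ.2 hϑ1, hϑ1, norm_one]
  have hdvd := irr_degree_dvd_index_of_norm hψ (H.subgroupOf T) hnorm
  obtain ⟨hψpos, hψ1⟩ := Helper83.irr_degree hψ
  have hdeg : charDegree χ = T.index * charDegree ψ := by
    have h1 := Helper35.indFun_one_eq T ψ
    rw [hind, hd1, hψ1] at h1
    exact_mod_cast h1
  rw [hdeg, ← Subgroup.relIndex_mul_index hHT, mul_comm]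
  exact Nat.mul_dvd_mul_right hdvd _

/-- **Itô's theorem**, representation form. -/
theorem ito_rep {G : Type*} [Group G] [Finite G] {V : Type*} [AddCommGroup V] [Module ℂ V]
    [FiniteDimensional ℂ V] (ρ : Representation ℂ G V) [ρ.IsIrreducible] (H : Subgroup G)
    [H.Normal] (hH : ∀ a ∈ H, ∀ b ∈ H, a * b = b * a) : Module.finrank ℂ V ∣ H.index := by
  have hχ := Helper4.isIrrCharacter_of_irreducible ρ
  have h := ito_char H hH hχ
  have h1 : charDegree ρ.character = Module.finrank ℂ V := by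
    have h2 := (Helper83.irr_degree hχ).2
    rw [Representation.char_one] at h2
    exact_mod_cast h2.symm
  rwa [h1] at h

end Cfsg.Agent.Lib.Helper85
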