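import Mathlib
import Cfsg.Agent.Lib.Helper78.JNDefs

/-! JN-AUT (job 3429, helper78's project JN for S2944): automorphisms of an elementary abelian
2-group normalizing an `S₃` acting on a four-group. -/

set_option autoImplicit false

namespace Cfsg.Agent.Lib.Helper85.JN

open Cfsg.Agent.Lib.Helper78.JN Cfsg.Agent.Lib.Helper72.JL Cfsg.Agent.Lib.Helper72.SC
  Cfsg.Agent.Lib.Helper78.Jc

open scoped commutatorElement

universe u

/-- JN-AUT, stated with Mathlib notions only -/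
theorem jnaut_core (V : Type u) [Group V] [Finite V] (comm : ∀ a b : V, a * b = b * a)
    (inv2 : ∀ v : V, v * v = 1) (W : Subgroup V) (hW : Nat.card ↥W ≤ 4) (φ σ : MulAut V)
    (N : Subgroup (MulAut V)) (hN : IsPGroup 3 ↥N) (hφN : φ ∈ N) (hφ3 : φ ^ 3 = 1) (hφ1 : φ ≠ 1)
    (hφW : ∀ v : V, v⁻¹ * φ v ∈ W) (hσ2 : σ * σ = 1) (hσφ : σ * φ * σ⁻¹ = φ⁻¹)
    (hσfix : ∀ v : V, φ v = v → σ v = v) (θ : MulAut V) (hθW : ∀ w ∈ W, θ w ∈ W)
    (hθN : θ * φ * θ⁻¹ ∈ N) :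
    (θ * φ * θ⁻¹ = φ ∨ θ * φ * θ⁻¹ = φ⁻¹) ∧ ∃ j : ℕ, θ * σ * θ⁻¹ = φ ^ j * σ := by
  classical
  have : Std.Commutative (fun a b : V => a * b) := ⟨comm⟩
  have hinv : ∀ v : V, v⁻¹ = v := fun v => inv_eq_of_mul_eq_one_left (inv2 v)
  have φ3 : ∀ v, φ (φ (φ v)) = v := by
    intro v
    have := congrArg (fun f : MulAut V => f v) hφ3
    simpa [pow_succ, MulAut.mul_apply] using this
  have φinv : ∀ v, φ⁻¹ v = φ (φ v) := by
    intro v
    apply φ.injective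
    rw [MulAut.apply_inv_self, φ3]
  have P_mul : ∀ α β : MulAut V, (∀ v, v⁻¹ * α v ∈ W) → (∀ v, v⁻¹ * β v ∈ W) →
      ∀ v, v⁻¹ * (α * β) v ∈ W := by
    intro α β hα hβ v
    have h1 := W.mul_mem (hβ v) (hα (β v))
    have : v⁻¹ * (α * β) v = v⁻¹ * β v * ((β v)⁻¹ * α (β v)) := by
      rw [MulAut.mul_apply]; group
    rw [this]; exact h1
  have P_inv : ∀ α : MulAut V, (∀ v, v⁻¹ * α v ∈ W) → ∀ v, v⁻¹ * α⁻¹ v ∈ W := by
    intro α hα v
    have h1 := W.inv_mem (hα (α⁻¹ v))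
    rw [MulAut.apply_inv_self] at h1
    have : v⁻¹ * α⁻¹ v = ((α⁻¹ v)⁻¹ * v)⁻¹ := by group
    rw [this]; exact h1
  have P_pres : ∀ α : MulAut V, (∀ v, v⁻¹ * α v ∈ W) → ∀ w ∈ W, α w ∈ W := by
    intro α hα w hw
    have := W.mul_mem hw (hα w)
    rwa [mul_inv_cancel_left] at this
  have conj_apply : ∀ τ ψ : MulAut V, τ * φ * τ⁻¹ = ψ → ∀ v, τ (φ v) = ψ (τ v) := by
    intro τ ψ h v
    rw [← h, MulAut.mul_apply, MulAut.mul_apply, MulAut.inv_apply_self]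
  obtain ⟨x₀, hx₀⟩ : ∃ x, x⁻¹ * φ x ≠ 1 := by
    by_contra hcon
    apply hφ1
    ext v
    have : v⁻¹ * φ v = 1 := by
      by_contra h; exact hcon ⟨v, h⟩
    rw [MulAut.one_apply]
    exact (inv_mul_eq_one.mp this).symm
  have struct : ∀ x : V, x⁻¹ * φ x ≠ 1 →
      φ (x⁻¹ * φ x) ≠ x⁻¹ * φ x ∧
      ∀ w ∈ W, w = 1 ∨ w = x⁻¹ * φ x ∨ w = φ (x⁻¹ * φ x) ∨ w = φ (φ (x⁻¹ * φ x)) := by
    intro x hx
    obtain ⟨w₁, hw₁⟩ : ∃ w₁, w₁ = x⁻¹ * φ x := ⟨_, rfl⟩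
    rw [← hw₁] at hx ⊢
    have hw₁W : w₁ ∈ W := hw₁ ▸ hφW x
    have h21 : φ w₁ ≠ w₁ := by
      intro h
      have e1 : φ w₁ = φ x * φ (φ x) := by rw [hw₁, map_mul, map_inv, hinv]
      have e2 : w₁ = φ x * x := by rw [hw₁, hinv, comm]
      rw [e1] at h
      have e3 : φ (φ x) = x := mul_left_cancel (h.trans e2)
      have e4 : x = φ x := by
        have := congrArg φ e3
        rw [φ3] at this
        exact this
      apply hx
      rw [hw₁, ← e4]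
      exact inv_mul_cancel x
    have hw₂W : φ w₁ ∈ W := P_pres φ hφW _ hw₁W
    have hw₃W : φ (φ w₁) ∈ W := P_pres φ hφW _ hw₂W
    have h20 : φ w₁ ≠ 1 := fun h => hx (φ.injective (h.trans (map_one φ).symm))
    have h30 : φ (φ w₁) ≠ 1 := fun h => h20 (φ.injective (h.trans (map_one φ).symm))
    have h32 : φ (φ w₁) ≠ φ w₁ := fun h => h21 (φ.injective h)
    have h31 : φ (φ w₁) ≠ w₁ := by
      intro h
      have := congrArg φ h
      rw [φ3] at this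
      exact h21 this.symm
    refine ⟨h21, ?_⟩
    intro w hw
    by_contra hne
    simp only [not_or] at hne
    obtain ⟨n0, n1, n2, n3⟩ := hne
    have c2 : (({φ (φ w₁), w} : Finset V)).card = 2 := Finset.card_pair (Ne.symm n3)
    have c3 : (({φ w₁, φ (φ w₁), w} : Finset V)).card = 3 := by
      rw [Finset.card_insert_of_notMem (by
        simp only [Finset.mem_insert, Finset.mem_singleton, not_or]
        exact ⟨Ne.symm h32, Ne.symm n2⟩), c2]
    have c4 : (({w₁, φ w₁, φ (φ w₁), w} : Finset V)).card = 4 := by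
      rw [Finset.card_insert_of_notMem (by
        simp only [Finset.mem_insert, Finset.mem_singleton, not_or]
        exact ⟨Ne.symm h21, Ne.symm h31, Ne.symm n1⟩), c3]
    have c5 : (({1, w₁, φ w₁, φ (φ w₁), w} : Finset V)).card = 5 := by
      rw [Finset.card_insert_of_notMem (by
        simp only [Finset.mem_insert, Finset.mem_singleton, not_or]
        exact ⟨Ne.symm hx, Ne.symm h20, Ne.symm h30, Ne.symm n0⟩), c4]
    have hsub : ((({1, w₁, φ w₁, φ (φ w₁), w} : Finset V)) : Set V) ⊆ (W : Set V) := by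
      intro y hy
      simp only [Finset.coe_insert, Finset.coe_singleton, Set.mem_insert_iff,
        Set.mem_singleton_iff] at hy
      rcases hy with h | h | h | h | h
      · rw [h]; exact W.one_mem
      · rw [h]; exact hw₁W
      · rw [h]; exact hw₂W
      · rw [h]; exact hw₃W
      · rw [h]; exact hw
    have hle := Set.ncard_le_ncard hsub (Set.toFinite _)
    rw [Set.ncard_coe_finset, c5] at hle
    have hWc : (W : Set V).ncard = Nat.card ↥W := (Nat.card_coe_set_eq _).symm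
    omega
  have decomp : ∀ v : V, ∃ c w, φ c = c ∧ w ∈ W ∧ v = c * w := by
    intro v
    refine ⟨v * φ v * φ (φ v), φ v * φ (φ v), ?_, ?_, ?_⟩
    · rw [map_mul, map_mul, φ3]
      ac_rfl
    · have h2 := hφW (φ v)
      rwa [hinv] at h2
    · have : v * φ v * φ (φ v) * (φ v * φ (φ v)) = v * (φ v * φ v) * (φ (φ v) * φ (φ v)) := by
        ac_rfl
      rw [this, inv2, inv2, mul_one, mul_one]
  have Wform : ∀ w ∈ W, ∃ u, w = u⁻¹ * φ u := by
    intro w hw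
    rcases (struct x₀ hx₀).2 w hw with h | h | h | h
    · exact ⟨1, by rw [h, map_one, inv_one, one_mul]⟩
    · exact ⟨x₀, h⟩
    · exact ⟨φ x₀, by rw [h, map_mul, map_inv]⟩
    · exact ⟨φ (φ x₀), by simp only [h, map_mul, map_inv]⟩
  have inv_pres : ∀ τ : MulAut V, (∀ v, τ (φ v) = φ⁻¹ (τ v)) → ∀ w ∈ W, τ w ∈ W := by
    intro τ hτ w hw
    obtain ⟨u, hu⟩ := Wform w hw
    rw [hu, map_mul, map_inv, hτ]
    exact P_inv φ hφW (τ u)
  have hσinv := conj_apply σ φ⁻¹ hσφ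
  have σσ : ∀ v, σ (σ v) = v := by
    intro v
    have := congrArg (fun f : MulAut V => f v) hσ2
    simpa [MulAut.mul_apply] using this
  have σW := inv_pres σ hσinv
  obtain ⟨x, hx, hσx⟩ : ∃ x, x⁻¹ * φ x ≠ 1 ∧ σ (x⁻¹ * φ x) = x⁻¹ * φ x := by
    by_cases h : σ (x₀⁻¹ * φ x₀) = x₀⁻¹ * φ x₀
    · exact ⟨x₀, hx₀, h⟩
    · have hu : (x₀⁻¹ * φ x₀) * σ (x₀⁻¹ * φ x₀) ∈ W := W.mul_mem (hφW x₀) (σW _ (hφW x₀))
      obtain ⟨u, hu'⟩ := Wform _ hu
      refine ⟨u, ?_, ?_⟩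
      · rw [← hu']
        intro h1
        apply h
        exact (eq_inv_of_mul_eq_one_right h1).trans (hinv _)
      · rw [← hu', map_mul, σσ, comm]
  obtain ⟨h21, hall⟩ := struct x hx
  obtain ⟨w₁, hw₁⟩ : ∃ w₁, w₁ = x⁻¹ * φ x := ⟨_, rfl⟩
  rw [← hw₁] at hx hσx h21 hall
  have hw₁W : w₁ ∈ W := hw₁ ▸ hφW x
  have hw₂W : φ w₁ ∈ W := P_pres φ hφW _ hw₁W
  have hw₃W : φ (φ w₁) ∈ W := P_pres φ hφW _ hw₂W
  have h20 : φ w₁ ≠ 1 := fun h => hx (φ.injective (h.trans (map_one φ).symm))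
  have h30 : φ (φ w₁) ≠ 1 := fun h => h20 (φ.injective (h.trans (map_one φ).symm))
  have h32 : φ (φ w₁) ≠ φ w₁ := fun h => h21 (φ.injective h)
  have h31 : φ (φ w₁) ≠ w₁ := by
    intro h
    have := congrArg φ h
    rw [φ3] at this
    exact h21 this.symm
  -- an element of the 3-group `N` with commutators in `W` fixing `w₁` is trivial
  have kill : ∀ n : MulAut V, n ∈ N → (∀ v, v⁻¹ * n v ∈ W) → n w₁ = w₁ → n = 1 := by
    intro n hnN hnP hn1
    have hnW := P_pres n hnP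
    have hn2 : n (φ w₁) = φ w₁ ∨ n (φ w₁) = φ (φ w₁) := by
      rcases hall _ (hnW _ hw₂W) with h | h | h | h
      · exfalso; exact h20 (n.injective (h.trans (map_one n).symm))
      · exfalso; exact h21 (n.injective (h.trans hn1.symm))
      · exact Or.inl h
      · exact Or.inr h
    have hn3 : n (φ (φ w₁)) = φ w₁ ∨ n (φ (φ w₁)) = φ (φ w₁) := by
      rcases hall _ (hnW _ hw₃W) with h | h | h | h
      · exfalso; exact h30 (n.injective (h.trans (map_one n).symm))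
      · exfalso; exact h31 (n.injective (h.trans hn1.symm))
      · exact Or.inl h
      · exact Or.inr h
    have hnn : ∀ w ∈ W, n (n w) = w := by
      intro w hw
      rcases hall w hw with h | h | h | h
      · rw [h, map_one, map_one]
      · rw [h, hn1, hn1]
      · rw [h]
        rcases hn2 with h2 | h2
        · rw [h2, h2]
        · rcases hn3 with h3 | h3
          · rw [h2, h3]
          · exfalso; exact h32 (n.injective (h3.trans h2.symm))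
      · rw [h]
        rcases hn3 with h3 | h3
        · rcases hn2 with h2 | h2
          · exfalso; exact h32 (n.injective (h3.trans h2.symm))
          · rw [h3, h2]
        · rw [h3, h3]
    have hmm : ∀ v, (n * n) ((n * n) v) = v := by
      intro v
      have hP := P_mul n n hnP hnP
      obtain ⟨a, ha⟩ : ∃ a, a = v⁻¹ * (n * n) v := ⟨_, rfl⟩
      have haW : a ∈ W := ha ▸ hP v
      have e1 : (n * n) v = v * a := by rw [ha, mul_inv_cancel_left]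
      have e2 : (n * n) a = a := hnn a haW
      rw [e1, map_mul, e1, e2, mul_assoc, inv2, mul_one]
    have h4 : n ^ 4 = 1 := by
      ext v
      have : n ^ 4 = (n * n) * (n * n) := by
        rw [show (4 : ℕ) = 2 + 2 from rfl, pow_add, pow_two]
      rw [this, MulAut.mul_apply, hmm, MulAut.one_apply]
    obtain ⟨k, hk⟩ := hN ⟨n, hnN⟩
    have hk' : n ^ (3 ^ k) = 1 := by
      have := congrArg (fun g : ↥N => (g : MulAut V)) hk
      simpa using this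
    have d1 : orderOf n ∣ 3 ^ k := orderOf_dvd_of_pow_eq_one hk'
    have d2 : orderOf n ∣ 4 := orderOf_dvd_of_pow_eq_one h4
    have d3 : orderOf n ∣ Nat.gcd (3 ^ k) 4 := Nat.dvd_gcd d1 d2
    have hc : Nat.gcd (3 ^ k) 4 = 1 := Nat.Coprime.pow_left k (by norm_num)
    rw [hc] at d3
    exact orderOf_eq_one_iff.mp (Nat.dvd_one.mp d3)
  -- an automorphism inverting `φ`, fixing `w₁` and the fixed points of `φ` is `σ`
  have uniq : ∀ τ : MulAut V, (∀ v, τ (φ v) = φ⁻¹ (τ v)) → τ w₁ = w₁ →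
      (∀ c, φ c = c → τ c = c) → τ = σ := by
    intro τ hτ hτ1 hτfix
    have hW' : ∀ w ∈ W, τ w = σ w := by
      intro w hw
      rcases hall w hw with h | h | h | h
      · rw [h, map_one, map_one]
      · rw [h, hτ1, hσx]
      · rw [h, hτ, hσinv, hτ1, hσx]
      · rw [h, hτ, hσinv, hτ, hσinv, hτ1, hσx]
    ext v
    obtain ⟨c, w, hc, hw, hv⟩ := decomp v
    rw [hv, map_mul, map_mul, hτfix c hc, hσfix c hc, hW' w hw]
  have pick : ∀ y ∈ W, y ≠ 1 → ∃ ψ : MulAut V, (ψ = 1 ∨ ψ = φ ∨ ψ = φ⁻¹) ∧ ψ w₁ = y := by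
    intro y hy hy1
    rcases hall y hy with h | h | h | h
    · exact absurd h hy1
    · exact ⟨1, Or.inl rfl, by rw [h, MulAut.one_apply]⟩
    · exact ⟨φ, Or.inr (Or.inl rfl), h.symm⟩
    · exact ⟨φ⁻¹, Or.inr (Or.inr rfl), by rw [h, φinv]⟩
  have ψprops : ∀ ψ : MulAut V, (ψ = 1 ∨ ψ = φ ∨ ψ = φ⁻¹) →
      ψ ∈ N ∧ (∀ v, v⁻¹ * ψ v ∈ W) ∧ (∀ c, φ c = c → ψ c = c) ∧ ψ * φ = φ * ψ := by
    intro ψ hψ
    rcases hψ with h | h | h
    · rw [h]
      exact ⟨N.one_mem, fun v => by rw [MulAut.one_apply, inv_mul_cancel]; exact W.one_mem,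
        fun c _ => rfl, by rw [one_mul, mul_one]⟩
    · rw [h]; exact ⟨hφN, hφW, fun c hc => hc, rfl⟩
    · rw [h]
      refine ⟨N.inv_mem hφN, P_inv φ hφW, fun c hc => ?_, by rw [inv_mul_cancel, mul_inv_cancel]⟩
      rw [φinv, hc, hc]
  -- part (a)
  obtain ⟨φ', hφ'⟩ : ∃ φ', φ' = θ * φ * θ⁻¹ := ⟨_, rfl⟩
  rw [← hφ'] at hθN ⊢
  have hφ'P : ∀ v, v⁻¹ * φ' v ∈ W := by
    intro v
    have := hθW _ (hφW (θ⁻¹ v))
    rw [map_mul, map_inv, MulAut.apply_inv_self] at this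
    rw [hφ']
    exact this
  have hφ'W := P_pres φ' hφ'P
  have hφ'ne : φ' ≠ 1 := by
    intro h
    apply hφ1
    rw [hφ'] at h
    have : φ = θ⁻¹ * (θ * φ * θ⁻¹) * θ := by group
    rw [this, h]; group
  have hφ'w₁ : φ' w₁ ∈ W := hφ'W _ hw₁W
  have hφ'w₁ne : φ' w₁ ≠ 1 := fun h => hx (φ'.injective (h.trans (map_one φ').symm))
  obtain ⟨ψ, hψ, hψw⟩ := pick _ hφ'w₁ hφ'w₁ne
  obtain ⟨ψN, ψP, ψfix, ψcomm⟩ := ψprops ψ hψ
  have hn : ψ⁻¹ * φ' = 1 := by
    apply kill _ (N.mul_mem (N.inv_mem ψN) hθN) (P_mul _ _ (P_inv ψ ψP) hφ'P)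
    rw [MulAut.mul_apply, ← hψw, MulAut.inv_apply_self]
  have hφ'ψ : φ' = ψ := (inv_mul_eq_one.mp hn).symm
  have parta : φ' = φ ∨ φ' = φ⁻¹ := by
    rcases hψ with h | h | h
    · exact absurd (hφ'ψ.trans h) hφ'ne
    · exact Or.inl (hφ'ψ.trans h)
    · exact Or.inr (hφ'ψ.trans h)
  refine ⟨parta, ?_⟩
  -- part (b)
  obtain ⟨s, hs⟩ : ∃ s, s = θ * σ * θ⁻¹ := ⟨_, rfl⟩
  rw [← hs]
  have hsφ' : s * φ' * s⁻¹ = φ'⁻¹ := by
    rw [hs, hφ']
    have : θ * σ * θ⁻¹ * (θ * φ * θ⁻¹) * (θ * σ * θ⁻¹)⁻¹ = θ * (σ * φ * σ⁻¹) * θ⁻¹ := by group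
    rw [this, hσφ]; group
  have hsφ : s * φ * s⁻¹ = φ⁻¹ := by
    rcases parta with h | h
    · rw [h] at hsφ'; exact hsφ'
    · rw [h] at hsφ'
      have : s * φ * s⁻¹ = (s * φ⁻¹ * s⁻¹)⁻¹ := by group
      rw [this, hsφ', inv_inv]
  have hsinv := conj_apply s φ⁻¹ hsφ
  have sW := inv_pres s hsinv
  have sfix : ∀ c, φ c = c → s c = c := by
    intro c hc
    have h1 : φ' c = c := by
      rcases parta with h | h
      · rw [h, hc]
      · rw [h, φinv, hc, hc]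
    have h2 : φ (θ⁻¹ c) = θ⁻¹ c := by
      apply θ.injective
      rw [MulAut.apply_inv_self]
      rw [hφ'] at h1
      exact h1
    rw [hs, MulAut.mul_apply, MulAut.mul_apply, hσfix _ h2, MulAut.apply_inv_self]
  have hsw₁ : s w₁ ∈ W := sW _ hw₁W
  have hsw₁ne : s w₁ ≠ 1 := fun h => hx (s.injective (h.trans (map_one s).symm))
  obtain ⟨ψ₂, hψ₂, hψ₂w⟩ := pick _ hsw₁ hsw₁ne
  obtain ⟨-, -, ψ₂fix, ψ₂comm⟩ := ψprops ψ₂ hψ₂
  have hτσ : ψ₂⁻¹ * s = σ := by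
    apply uniq
    · intro v
      have hc : ψ₂⁻¹ * φ⁻¹ = φ⁻¹ * ψ₂⁻¹ := by rw [← mul_inv_rev, ← mul_inv_rev, ψ₂comm]
      have e := congrArg (fun f : MulAut V => f (s v)) hc
      simp only [MulAut.mul_apply] at e ⊢
      rw [hsinv, e]
    · rw [MulAut.mul_apply, ← hψ₂w, MulAut.inv_apply_self]
    · intro c hc
      rw [MulAut.mul_apply, sfix c hc]
      apply ψ₂.injective
      rw [MulAut.apply_inv_self, ψ₂fix c hc]
  obtain ⟨j, hj⟩ : ∃ j : ℕ, ψ₂ = φ ^ j := by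
    rcases hψ₂ with h | h | h
    · exact ⟨0, by rw [h, pow_zero]⟩
    · exact ⟨1, by rw [h, pow_one]⟩
    · refine ⟨2, ?_⟩
      rw [h]
      exact inv_eq_of_mul_eq_one_right (by rw [← pow_succ']; exact hφ3)
  refine ⟨j, ?_⟩
  rw [← hj, ← hτσ]; group

/-- JN-AUT -/
theorem aut : AutStmt.{u} := by
  unfold AutStmt
  intro V _ _ comm inv2 W hW φ σ N hN hφN hφ3 hφ1 hφW hσ2 hσφ hσfix θ hθW hθN
  exact jnaut_core V comm inv2 W hW φ σ N hN hφN hφ3 hφ1 hφW hσ2 hσφ hσfix θ hθW hθN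

end Cfsg.Agent.Lib.Helper85.JN
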