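import Mathlib
import Cfsg.Agent.Lib.Helper72.JQDefs
import Cfsg.Agent.Lib.Helper82.JcOCPC
import Cfsg.Agent.Lib.Helper75.JcWF

/-! JQ-FIN (job 3664, helper72's final step of S2949): a `J(T)`-component outside `M`, from the
elementary facts JE-A1 … JE-A4 and the generation theorem of project JP. -/

set_option autoImplicit false

namespace Cfsg.Agent.Lib.Helper85.JQ

open Cfsg.Agent.Lib.Helper72.JQ Cfsg.Agent.Lib.Helper72.JP Cfsg.Agent.Lib.Helper72.JL
  Cfsg.Agent.Lib.Helper58.JE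

universe u

/-- a 2-subgroup of `L` normalized by a Sylow 2-subgroup `T` of `L` lies in `T` -/
theorem jqfin_le_sylowIn {G : Type*} [Group G] [Finite G] (T L P : Subgroup G) (hTL : T ≤ L)
    (hT2 : IsPGroup 2 ↥T) (hodd : Odd (T.relIndex L)) (hPL : P ≤ L) (hP2 : IsPGroup 2 ↥P)
    (hN : T ≤ Subgroup.normalizer (P : Set G)) : P ≤ T := by
  have hS : IsPGroup 2 (T ⊔ P : Subgroup G) := IsPGroup.to_sup_of_normal_right' hT2 hP2 hN
  have hle : T ⊔ P ≤ L := sup_le hTL hPL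
  have hmul : T.relIndex (T ⊔ P) * (T ⊔ P).relIndex L = T.relIndex L :=
    Subgroup.relIndex_mul_relIndex T (T ⊔ P) L le_sup_left hle
  obtain ⟨n, hn⟩ := IsPGroup.index hS (T.subgroupOf (T ⊔ P))
  have hn' : T.relIndex (T ⊔ P) = 2 ^ n := hn
  rw [hn'] at hmul
  have hn0 : n = 0 := by
    by_contra hne
    have h2dvd : 2 ∣ 2 ^ n * (T ⊔ P).relIndex L := Dvd.dvd.mul_right (dvd_pow_self 2 hne) _
    rw [hmul] at h2dvd
    exact (Nat.not_even_iff_odd.mpr hodd) (even_iff_two_dvd.mpr h2dvd)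
  rw [hn0, pow_zero] at hn'
  exact le_sup_right.trans (Subgroup.relIndex_eq_one.1 hn')

/-- JQ-FIN -/
theorem fin : FinStmt.{u} := by
  intro h1 h2 h3 h4 h5 G _ _ hL hN hZ hO2 S M hM hNS T hT
  have hTs : T ∈ Cfsg.straddlingTwoSubgroups M := hT.1
  obtain ⟨hT2, hTne, hTM, L, hLloc, hTL, hLM⟩ := hTs
  have hNJ : Subgroup.normalizer (Cfsg.thompsonSubgroupOf 2 T : Set G) ≤ M :=
    h1 G S M T hNS hT
  have hA2 : ∀ T₀ : Subgroup G, Cfsg.IsSylowTwoIn T₀ L → Cfsg.thompsonSubgroupOf 2 T ≤ T₀ →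
      Cfsg.thompsonSubgroupOf 2 T = Cfsg.thompsonSubgroupOf 2 T₀ ∧
        T₀ ∈ Cfsg.straddlingTwoSubgroups M :=
    fun T₀ hT₀ hJ => h2 G M T L T₀ hT hNJ hLloc hLM hT₀ hJ
  have hTsyl : Cfsg.IsSylowTwoIn T L := h4 G M T L hT hLloc hLM hTL hA2
  have hLov : L ∈ Cfsg.jOvergroups T := h3 G hL M T L T hNJ hLloc hLM hTsyl rfl
  have hZN : ZNHyp G := ⟨hL, hN, hZ⟩
  have hex : ∃ K : Subgroup G, Cfsg.IsJComponent T K ∧ K ≤ L ∧ ¬ K ≤ M := by
    by_contra hcon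
    apply hLM
    apply h5 G hZN T hT2 hTne L hLov M
    · intro K hK hKL
      by_contra hKM
      exact hcon ⟨K, hK, hKL, hKM⟩
    · exact inf_le_right.trans hNJ
  obtain ⟨K, hK, hKL, hKM⟩ := hex
  have hW4 : Nat.card ↥(Cfsg.wOf K) = 4 := hK.2.2.2.2.1
  refine ⟨K, ⟨hK, ?_⟩, hKM, ?_⟩
  · intro S' hJS' hS'
    have hWloc : Cfsg.IsTwoLocal (Subgroup.normalizer (Cfsg.wOf K : Set G)) := by
      refine ⟨Cfsg.wOf K, ?_, ?_, rfl⟩
      · exact IsPGroup.of_card (n := 2) (by rw [hW4]; norm_num)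
      · intro hbot
        rw [hbot] at hW4
        simp at hW4
    have hKW : K ≤ Subgroup.normalizer (Cfsg.wOf K : Set G) := by
      intro g hg
      exact Cfsg.Agent.Lib.Helper75.Jc.wf_normalizer (Cfsg.omegaCenterOf (Cfsg.pCoreOf 2 K)) K g
        (Cfsg.Agent.Lib.Helper82.Jc.oc_normalizer _
          (Cfsg.Agent.Lib.Helper82.Jc.pc_le_normalizer K hg))
        (Subgroup.le_normalizer hg)
    have hWM : ¬ Subgroup.normalizer (Cfsg.wOf K : Set G) ≤ M := fun h => hKM (hKW.trans h)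
    exact ((h2 G M T _ S' hT hNJ hWloc hWM hS' hJS').1).symm
  · obtain ⟨-, -, hodd⟩ := hTsyl
    obtain ⟨O, hOdef⟩ : ∃ O, O = Cfsg.pCoreOf 2 L := ⟨_, rfl⟩
    have hO2g : IsPGroup 2 ↥O := hOdef ▸ Cfsg.Agent.Lib.Helper82.Jc.pc_pgroup L
    have hOL : O ≤ L := hOdef ▸ Cfsg.Agent.Lib.Helper82.Jc.pc_le L
    have hLO : L ≤ Subgroup.normalizer (O : Set G) :=
      hOdef ▸ Cfsg.Agent.Lib.Helper82.Jc.pc_le_normalizer L
    have hOT : O ≤ T := jqfin_le_sylowIn T L O hTL hT2 hodd hOL hO2g (hTL.trans hLO)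
    have hcent : Subgroup.centralizer (O : Set G) ≤ O := hOdef ▸ hLov.2.2
    have hOne : O ≠ ⊥ := by
      intro hbot
      apply hTne
      rw [Subgroup.eq_bot_iff_forall]
      intro t ht
      have : t ∈ Subgroup.centralizer (O : Set G) := by
        rw [Subgroup.mem_centralizer_iff]
        intro h hh
        have hh' : h ∈ O := hh
        rw [hbot, Subgroup.mem_bot] at hh'
        rw [hh', one_mul, mul_one]
      have ht' := hcent this
      rw [hbot, Subgroup.mem_bot] at ht'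
      exact ht'
    have hHL : K ⊔ T ≤ L := sup_le hKL hTL
    have hOH : O ≤ K ⊔ T := hOT.trans le_sup_right
    have hnorm : (O.subgroupOf (K ⊔ T)).Normal :=
      Subgroup.normal_subgroupOf_of_le_normalizer (hHL.trans hLO)
    have hp : IsPGroup 2 ↥(O.subgroupOf (K ⊔ T)) := IsPGroup.comap_subtype hO2g
    have hle : O.subgroupOf (K ⊔ T) ≤ Cfsg.pCore 2 ↥(K ⊔ T : Subgroup G) :=
      le_sSup ⟨hnorm, hp⟩
    have hOle : O ≤ Cfsg.pCoreOf 2 (K ⊔ T) := by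
      have h := Subgroup.map_mono (f := (K ⊔ T).subtype) hle
      rw [Subgroup.map_subgroupOf_eq_of_le hOH] at h
      exact h
    intro hbot
    rw [hbot] at hOle
    exact hOne (le_bot_iff.mp hOle)

end Cfsg.Agent.Lib.Helper85.JQ
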