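import Mathlib
import Cfsg.Agent.Lib.Helper78.JQDefs

/-! JQ-IND (job 3838, helper78's project JQ for S2945): the distinct `A`-conjugates of the
four-group `W` are independent. -/

set_option autoImplicit false

namespace Cfsg.Agent.Lib.Helper85.JQ

open Cfsg.Agent.Lib.Helper78.JQ Cfsg.Agent.Lib.Helper78.Jc

universe u

theorem jqind_mem_cj {X : Type*} [Group X] (a : X) (W : Subgroup X) (v : X) :
    v ∈ cj a W ↔ a⁻¹ * v * a ∈ W := by
  unfold cj
  rw [Subgroup.mem_map]
  constructor
  · rintro ⟨w, hw, rfl⟩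
    have e : a⁻¹ * ((MulAut.conj a).toMonoidHom w) * a = w := by
      show a⁻¹ * (a * w * a⁻¹) * a = w
      group
    rw [e]; exact hw
  · intro h
    refine ⟨a⁻¹ * v * a, h, ?_⟩
    show a * (a⁻¹ * v * a) * a⁻¹ = v
    group

theorem jqind_cj_mul {X : Type*} [Group X] (g h : X) (W : Subgroup X) :
    cj (g * h) W = cj g (cj h W) := by
  ext v
  rw [jqind_mem_cj, jqind_mem_cj, jqind_mem_cj]
  have e : (g * h)⁻¹ * v * (g * h) = h⁻¹ * (g⁻¹ * v * g) * h := by group
  rw [e]

theorem jqind_cj_one {X : Type*} [Group X] (W : Subgroup X) : cj 1 W = W := by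
  ext v
  rw [jqind_mem_cj, inv_one, one_mul, mul_one]

theorem jqind_norm_iff {X : Type*} [Group X] (g : X) (W : Subgroup X) :
    g ∈ Subgroup.normalizer (W : Set X) ↔ cj g W = W := by
  constructor
  · intro hg
    ext v
    rw [jqind_mem_cj]
    have h1 := (Subgroup.mem_normalizer_iff.mp hg) (g⁻¹ * v * g)
    have e : g * (g⁻¹ * v * g) * g⁻¹ = v := by group
    rw [e] at h1
    exact h1
  · intro h
    rw [Subgroup.mem_normalizer_iff]
    intro n
    have e : g⁻¹ * (g * n * g⁻¹) * g = n := by group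
    have h' : g * n * g⁻¹ ∈ cj g W ↔ n ∈ W := by rw [jqind_mem_cj, e]
    rw [h] at h'
    exact h'.symm

/-- elements of the join of two subgroups of an abelian subgroup are products -/
theorem jqind_decomp {X : Type*} [Group X] (U P Q : Subgroup X)
    (hUab : ∀ a ∈ U, ∀ b ∈ U, a * b = b * a) (hP : P ≤ U) (hQ : Q ≤ U) (x : X)
    (hx : x ∈ P ⊔ Q) : ∃ d ∈ P, ∃ e ∈ Q, x = d * e := by
  let R : Subgroup X :=
    { carrier := {x | ∃ d ∈ P, ∃ e ∈ Q, x = d * e}
      one_mem' := ⟨1, P.one_mem, 1, Q.one_mem, (mul_one 1).symm⟩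
      mul_mem' := by
        rintro _ _ ⟨d, hd, e, he, rfl⟩ ⟨d', hd', e', he', rfl⟩
        refine ⟨d * d', P.mul_mem hd hd', e * e', Q.mul_mem he he', ?_⟩
        have hc : e * d' = d' * e := hUab e (hQ he) d' (hP hd')
        calc d * e * (d' * e') = d * (e * d') * e' := by group
          _ = d * (d' * e) * e' := by rw [hc]
          _ = d * d' * (e * e') := by group
      inv_mem' := by
        rintro _ ⟨d, hd, e, he, rfl⟩
        refine ⟨d⁻¹, P.inv_mem hd, e⁻¹, Q.inv_mem he, ?_⟩
        rw [mul_inv_rev]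
        exact hUab _ (U.inv_mem (hQ he)) _ (U.inv_mem (hP hd)) }
  have hle : P ⊔ Q ≤ R := by
    refine sup_le ?_ ?_
    · intro d hd
      exact ⟨d, hd, 1, Q.one_mem, (mul_one d).symm⟩
    · intro e he
      exact ⟨1, P.one_mem, e, he, (one_mul e).symm⟩
  exact hle hx

/-- the set of `A`-conjugates of `W` -/
abbrev jqind_idx {X : Type u} [Group X] (A W : Subgroup X) : Type u :=
  {D : Subgroup X // ∃ a : ↥A, cj (a : X) W = D}

/-- JQ-IND -/
theorem ind : IndStmt.{u} := by
  intro X _ _ U A W y hUn hUab hWU hW4 hyN hfpf hcent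
  classical
  haveI : Finite (jqind_idx A W) := inferInstance
  letI : Fintype (jqind_idx A W) := Fintype.ofFinite _
  have hex : ∀ i : jqind_idx A W, ∃ a : ↥A, cj (a : X) W = (i : Subgroup X) := fun i => i.2
  choose rep hrep using hex
  -- the basic facts
  have F1 : ∀ i : jqind_idx A W, ∀ d ∈ (i : Subgroup X),
      ((rep i : X) * y * (rep i : X)⁻¹) * d * ((rep i : X) * y * (rep i : X)⁻¹)⁻¹ = d → d = 1 := by
    intro i d hd hfix
    rw [← hrep i, jqind_mem_cj] at hd
    have h1 : y * ((rep i : X)⁻¹ * d * (rep i : X)) * y⁻¹ = (rep i : X)⁻¹ * d * (rep i : X) := by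
      calc y * ((rep i : X)⁻¹ * d * (rep i : X)) * y⁻¹
          = (rep i : X)⁻¹ * (((rep i : X) * y * (rep i : X)⁻¹) * d *
              ((rep i : X) * y * (rep i : X)⁻¹)⁻¹) * (rep i : X) := by group
        _ = (rep i : X)⁻¹ * d * (rep i : X) := by rw [hfix]
    have h2 := hfpf _ hd h1
    calc d = (rep i : X) * ((rep i : X)⁻¹ * d * (rep i : X)) * (rep i : X)⁻¹ := by group
      _ = 1 := by rw [h2]; group
  have F2 : ∀ i j : jqind_idx A W, i ≠ j → ∀ d ∈ (j : Subgroup X),
      ((rep i : X) * y * (rep i : X)⁻¹) * d = d * ((rep i : X) * y * (rep i : X)⁻¹) := by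
    intro i j hij d hd
    rw [← hrep j, jqind_mem_cj] at hd
    have hne : cj ((rep j : X)⁻¹ * (rep i : X)) W ≠ W := by
      intro h
      apply hij
      apply Subtype.ext
      rw [← hrep i, ← hrep j]
      have h3 := jqind_cj_mul (rep j : X) ((rep j : X)⁻¹ * (rep i : X)) W
      rw [mul_inv_cancel_left, h] at h3
      exact h3
    have h1 := hcent ((rep j : X)⁻¹ * (rep i : X)) (A.mul_mem (A.inv_mem (rep j).2) (rep i).2)
      hne _ hd
    calc ((rep i : X) * y * (rep i : X)⁻¹) * d
        = (rep j : X) * ((((rep j : X)⁻¹ * (rep i : X)) * y * ((rep j : X)⁻¹ * (rep i : X))⁻¹) *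
            ((rep j : X)⁻¹ * d * (rep j : X))) * (rep j : X)⁻¹ := by group
      _ = (rep j : X) * (((rep j : X)⁻¹ * d * (rep j : X)) *
            (((rep j : X)⁻¹ * (rep i : X)) * y * ((rep j : X)⁻¹ * (rep i : X))⁻¹)) *
            (rep j : X)⁻¹ := by rw [h1]
      _ = d * ((rep i : X) * y * (rep i : X)⁻¹) := by group
  have F3 : ∀ i : jqind_idx A W, (i : Subgroup X) ≤ U := by
    intro i d hd
    rw [← hrep i, jqind_mem_cj] at hd
    have h1 := hUn.conj_mem _ (hWU hd) (rep i : X)
    have e : (rep i : X) * ((rep i : X)⁻¹ * d * (rep i : X)) * (rep i : X)⁻¹ = d := by group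
    rw [e] at h1
    exact h1
  have F4 : ∀ i : jqind_idx A W, Nat.card ↥(i : Subgroup X) = 4 := by
    intro i
    rw [← hrep i]
    unfold cj
    rw [Subgroup.card_map_of_injective (MulAut.conj (rep i : X)).injective, hW4]
  -- the sup over the distinct conjugates
  have hsup : cjSup A W = ⨆ i : jqind_idx A W, (i : Subgroup X) := by
    unfold cjSup
    apply le_antisymm
    · exact iSup_le fun a => le_iSup_of_le (⟨cj (a : X) W, a, rfl⟩ : jqind_idx A W) le_rfl
    · refine iSup_le fun i => ?_
      rw [← hrep i]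
      exact le_iSup (fun a : ↥A => cj (a : X) W) (rep i)
  have hcommP : Pairwise fun i j : jqind_idx A W =>
      ∀ x y : X, x ∈ (i : Subgroup X) → y ∈ (j : Subgroup X) → Commute x y :=
    fun i j _ x y hx hy => hUab x (F3 i hx) y (F3 j hy)
  have hind : iSupIndep fun i : jqind_idx A W => (i : Subgroup X) := by
    intro i
    rw [Subgroup.disjoint_def]
    intro x hx hx'
    apply F1 i x hx
    have hle : (⨆ j, ⨆ (_ : j ≠ i), ((j : jqind_idx A W) : Subgroup X)) ≤
        Subgroup.centralizer {(rep i : X) * y * (rep i : X)⁻¹} := by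
      refine iSup_le fun j => iSup_le fun hj => ?_
      intro d hd
      rw [Subgroup.mem_centralizer_iff]
      intro g hg
      rw [Set.mem_singleton_iff] at hg
      rw [hg]
      exact F2 i j (Ne.symm hj) d hd
    have hc := hle hx'
    rw [Subgroup.mem_centralizer_iff] at hc
    have h2 := hc _ rfl
    rw [h2, mul_inv_cancel_right]
  -- the number of distinct conjugates
  have Q1 : ∀ a b : ↥A, a⁻¹ * b ∈ (Subgroup.normalizer (W : Set X)).subgroupOf A ↔
      cj (a : X) W = cj (b : X) W := by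
    intro a b
    rw [Subgroup.mem_subgroupOf, jqind_norm_iff]
    have e : ((a⁻¹ * b : ↥A) : X) = (a : X)⁻¹ * (b : X) := rfl
    rw [e]
    constructor
    · intro h
      have h3 := jqind_cj_mul (a : X) ((a : X)⁻¹ * (b : X)) W
      rw [mul_inv_cancel_left, h] at h3
      exact h3.symm
    · intro h
      rw [jqind_cj_mul, ← h, ← jqind_cj_mul, inv_mul_cancel, jqind_cj_one]
  have hcardι : Fintype.card (jqind_idx A W) =
      (A ⊓ Subgroup.normalizer (W : Set X)).relIndex A := by
    rw [Subgroup.inf_relIndex_left]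
    show Fintype.card (jqind_idx A W) =
      Nat.card (↥A ⧸ (Subgroup.normalizer (W : Set X)).subgroupOf A)
    rw [← Nat.card_eq_fintype_card]
    refine Nat.card_congr (Equiv.ofBijective
      (fun i : jqind_idx A W =>
        (QuotientGroup.mk (rep i) : ↥A ⧸ (Subgroup.normalizer (W : Set X)).subgroupOf A))
      ⟨?_, ?_⟩)
    · intro i j hij
      have h1 := (Q1 (rep i) (rep j)).mp (QuotientGroup.eq.mp hij)
      apply Subtype.ext
      rw [← hrep i, ← hrep j]
      exact h1
    · intro q
      obtain ⟨a, rfl⟩ := QuotientGroup.mk_surjective q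
      refine ⟨⟨cj (a : X) W, a, rfl⟩, ?_⟩
      apply QuotientGroup.eq.mpr
      exact (Q1 _ a).mpr (hrep _)
  -- the key claim for (ii)
  have K : ∀ s : Finset (jqind_idx A W), ∀ u ∈ ⨆ i ∈ s, (i : Subgroup X),
      (∀ i ∈ s, ((rep i : X) * y * (rep i : X)⁻¹) * u = u * ((rep i : X) * y * (rep i : X)⁻¹)) →
      u = 1 := by
    intro s
    induction s using Finset.induction_on with
    | empty =>
      intro u hu _
      simpa using hu
    | insert j s hj ih =>
      intro u hu hcomm
      rw [Finset.iSup_insert] at hu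
      obtain ⟨d, hd, e, he, rfl⟩ := jqind_decomp U (j : Subgroup X) (⨆ i ∈ s, (i : Subgroup X))
        hUab (F3 j) (iSup₂_le fun i _ => F3 i) u hu
      have hce : ((rep j : X) * y * (rep j : X)⁻¹) * e = e * ((rep j : X) * y * (rep j : X)⁻¹) := by
        have hle : (⨆ i ∈ s, ((i : jqind_idx A W) : Subgroup X)) ≤
            Subgroup.centralizer {(rep j : X) * y * (rep j : X)⁻¹} := by
          refine iSup₂_le fun i hi => ?_
          intro z hz
          rw [Subgroup.mem_centralizer_iff]
          intro g hg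
          rw [Set.mem_singleton_iff] at hg
          rw [hg]
          exact F2 j i (fun h => hj (h ▸ hi)) z hz
        have hc := hle he
        rw [Subgroup.mem_centralizer_iff] at hc
        exact hc _ rfl
      have hcd : ((rep j : X) * y * (rep j : X)⁻¹) * d * ((rep j : X) * y * (rep j : X)⁻¹)⁻¹ = d := by
        have h1 := hcomm j (Finset.mem_insert_self j s)
        obtain ⟨x, hx⟩ : ∃ x, x = (rep j : X) * y * (rep j : X)⁻¹ := ⟨_, rfl⟩
        rw [← hx] at h1 hce ⊢
        calc x * d * x⁻¹ = x * (d * e) * e⁻¹ * x⁻¹ := by group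
          _ = d * e * x * e⁻¹ * x⁻¹ := by rw [h1]
          _ = d * (e * x) * e⁻¹ * x⁻¹ := by group
          _ = d * (x * e) * e⁻¹ * x⁻¹ := by rw [hce]
          _ = d := by group
      have hd1 : d = 1 := F1 j d hd hcd
      rw [hd1, one_mul]
      apply ih e he
      intro i hi
      have h3 := hcomm i (Finset.mem_insert_of_mem hi)
      rw [hd1, one_mul] at h3
      exact h3
  refine ⟨?_, ?_, ?_⟩
  · rw [hsup]
    have hrange := Subgroup.noncommPiCoprod_range (hcomm := hcommP)
    have hinj := Subgroup.injective_noncommPiCoprod_of_iSupIndep (hcomm := hcommP) hind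
    rw [← hrange, ← Nat.card_congr (MonoidHom.ofInjective hinj).toEquiv, Nat.card_pi,
      Finset.prod_congr rfl (fun i _ => F4 i), Finset.prod_const, Finset.card_univ, hcardι]
  · intro u hu hcomm
    rw [hsup] at hu
    apply K Finset.univ u
    · simpa using hu
    · intro i _
      exact hcomm (rep i : X) (rep i).2
  · rw [eq_bot_iff]
    intro v hv
    obtain ⟨hvW, hvN⟩ := Subgroup.mem_inf.mp hv
    rw [Subgroup.mem_bot]
    apply hfpf v hvW
    have hle : cjSupNe A W ≤ Subgroup.centralizer {y} := by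
      unfold cjSupNe
      refine iSup_le fun a => ?_
      intro d hd
      rw [Subgroup.mem_centralizer_iff]
      intro g hg
      rw [Set.mem_singleton_iff] at hg
      rw [hg]
      obtain ⟨⟨a, haA⟩, hane⟩ := a
      have hne' : cj (a⁻¹) W ≠ W := by
        intro h
        apply hane
        show cj a W = W
        have h3 := jqind_cj_mul a a⁻¹ W
        rw [mul_inv_cancel, jqind_cj_one, h] at h3
        exact h3.symm
      have hw : a⁻¹ * d * a ∈ W := (jqind_mem_cj a W d).mp hd
      have h1 := hcent a⁻¹ (A.inv_mem haA) hne' _ hw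
      calc y * d = a * ((a⁻¹ * y * a⁻¹⁻¹) * (a⁻¹ * d * a)) * a⁻¹ := by group
        _ = a * ((a⁻¹ * d * a) * (a⁻¹ * y * a⁻¹⁻¹)) * a⁻¹ := by rw [h1]
        _ = d * y := by group
    have hc := hle hvN
    rw [Subgroup.mem_centralizer_iff] at hc
    have h2 := hc y rfl
    rw [h2, mul_inv_cancel_right]

end Cfsg.Agent.Lib.Helper85.JQ
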