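import Mathlib
import Cfsg.Agent.Lib.Helper85.AbFourier

set_option autoImplicit false

/-!
# The lattice property for a faithful coprime action of an abelian group

An abelian group `C` of order prime to `p` acting faithfully on an abelian group `A` of exponent
`p` satisfies `Tprop C (c ↦ |A| / |C_A(c)|)`.
-/

namespace Cfsg.Agent.Lib.Helper85.Knorr

open Cfsg.Agent.Lib.Helper85

universe u

theorem relIndex_mul_card_inf {X : Type*} [Group X] [Finite X] (H K : Subgroup X) :
    H.relIndex K * Nat.card ↥(H ⊓ K) = Nat.card K := by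
  have h1 := Subgroup.card_mul_index (H.subgroupOf K)
  have h2 : Nat.card (H.subgroupOf K) = Nat.card ↥(H ⊓ K) := by
    rw [← Subgroup.inf_subgroupOf_right]
    exact Nat.card_congr (Subgroup.subgroupOfEquivOfLe inf_le_right).toEquiv
  rw [h2] at h1
  rw [Subgroup.relIndex, mul_comm]
  exact h1

section Act

variable {A C : Type u} [CommGroup A] [Finite A] [CommGroup C] [Finite C] (α : C →* MulAut A)

/-- The subgroup of fixed points of `c`. -/
def fx (c : C) : Subgroup A where
  carrier := {u | α c u = u}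
  mul_mem' := by
    intro a b ha hb
    simp only [Set.mem_ofPred_eq] at *
    rw [map_mul, ha, hb]
  one_mem' := map_one _
  inv_mem' := by
    intro a ha
    simp only [Set.mem_ofPred_eq] at *
    rw [map_inv, ha]

omit [Finite A] [Finite C] in
theorem mem_fx (c : C) (u : A) : u ∈ fx α c ↔ α c u = u := Iff.rfl

/-- The map `u ↦ α c u * u⁻¹`, a homomorphism since `A` is abelian. -/
def dl (c : C) : A →* A where
  toFun u := α c u * u⁻¹
  map_one' := by simp
  map_mul' a b := by rw [map_mul, mul_inv, mul_mul_mul_comm]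

omit [Finite A] [Finite C] in
theorem dl_apply (c : C) (u : A) : dl α c u = α c u * u⁻¹ := rfl

omit [Finite A] [Finite C] in
theorem alpha_comm (c d : C) (u : A) : α c (α d u) = α d (α c u) := by
  rw [← MulAut.mul_apply, ← MulAut.mul_apply, ← map_mul, ← map_mul, mul_comm]

omit [Finite A] [Finite C] in
theorem alpha_inv_apply (c : C) (u : A) : α c (α c⁻¹ u) = u := by
  rw [← MulAut.mul_apply, ← map_mul, mul_inv_cancel, map_one]
  rfl

omit [Finite A] [Finite C] in
theorem alpha_inv_apply' (c : C) (u : A) : α c⁻¹ (α c u) = u := by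
  rw [← MulAut.mul_apply, ← map_mul, inv_mul_cancel, map_one]
  rfl

theorem chain_step (p : ℕ) (hAexp : ∀ a : A, a ^ p = 1) (hCp : Nat.Coprime (Nat.card C) p)
    (W' W : Subgroup A) (hW'W : W' ≤ W) (hne : W' ≠ W)
    (hW'inv : ∀ c : C, ∀ u ∈ W', α c u ∈ W') (hWinv : ∀ c : C, ∀ u ∈ W, α c u ∈ W)
    (hmax : ∀ E : Subgroup A, W' ≤ E → E ≤ W → (∀ c : C, ∀ u ∈ E, α c u ∈ E) →
      E = W' ∨ E = W)
    (D' : Type u) [CommGroup D'] [Fintype D'] (wD' : D' → ℝ) (f' : C →* D')
    (hnn : ∀ x, 0 ≤ wD' x) (hT : AbF.Tprop D' wD')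
    (hker : ∀ c, f' c = 1 ↔ ∀ u ∈ W', α c u = u)
    (hw : ∀ c, wD' (f' c) ≤ (Nat.card W' : ℝ) / (Nat.card ↥(W' ⊓ fx α c) : ℝ)) :
    ∃ (D : Type u) (_ : CommGroup D) (_ : Fintype D) (wD : D → ℝ) (f : C →* D),
      (∀ x, 0 ≤ wD x) ∧ AbF.Tprop D wD ∧ (∀ c, f c = 1 ↔ ∀ u ∈ W, α c u = u) ∧
      ∀ c, wD (f c) ≤ (Nat.card W : ℝ) / (Nat.card ↥(W ⊓ fx α c) : ℝ) := by
  classical
  let K₁ : Subgroup C :=
    { carrier := {c | ∀ u ∈ W, dl α c u ∈ W'}
      one_mem' := by
        intro u _
        rw [dl_apply, map_one, MulAut.one_apply, mul_inv_cancel]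
        exact W'.one_mem
      mul_mem' := by
        intro c d hc hd u hu
        have h1 : dl α (c * d) u = α c (dl α d u) * dl α c u := by
          simp only [dl_apply, map_mul, MulAut.mul_apply, map_inv]
          group
        rw [h1]
        exact W'.mul_mem (hW'inv c _ (hd u hu)) (hc u hu)
      inv_mem' := by
        intro c hc u hu
        have hu' : α c⁻¹ u ∈ W := hWinv c⁻¹ u hu
        have h1 := hc _ hu'
        have h2 : dl α c⁻¹ u = (dl α c (α c⁻¹ u))⁻¹ := by
          rw [dl_apply, dl_apply, alpha_inv_apply, mul_inv_rev, inv_inv]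
        rw [h2]
        exact W'.inv_mem h1 }
  have hK₁ : ∀ c : C, c ∈ K₁ ↔ ∀ u ∈ W, dl α c u ∈ W' := fun c => Iff.rfl
  -- the key consequence of maximality
  have hF : ∀ e : C, e ∉ K₁ → ∀ u ∈ W, dl α e u ∈ W' → u ∈ W' := by
    intro e he u hu huW'
    let E : Subgroup A := W ⊓ W'.comap (dl α e)
    have hE1 : W' ≤ E := by
      intro x hx
      refine ⟨hW'W hx, ?_⟩
      show dl α e x ∈ W'
      rw [dl_apply]
      exact W'.mul_mem (hW'inv e x hx) (W'.inv_mem hx)
    have hE2 : E ≤ W := inf_le_left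
    have hE3 : ∀ c : C, ∀ x ∈ E, α c x ∈ E := by
      intro c x hx
      refine ⟨hWinv c x hx.1, ?_⟩
      have h1 : dl α e x ∈ W' := hx.2
      show dl α e (α c x) ∈ W'
      have h2 : dl α e (α c x) = α c (dl α e x) := by
        rw [dl_apply, dl_apply, alpha_comm, map_mul, map_inv]
      rw [h2]
      exact hW'inv c _ h1
    rcases hmax E hE1 hE2 hE3 with h | h
    · rw [← h]
      exact ⟨hu, huW'⟩
    · exfalso
      apply he
      intro x hx
      have : x ∈ E := by rw [h]; exact hx
      exact this.2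
  let _ : Fintype (C ⧸ K₁) := Fintype.ofFinite _
  let _ : Fintype ((C ⧸ K₁) →* ℂˣ) := @Fintype.ofFinite _ AbF.dual_finite
  let wD : D' × (C ⧸ K₁) → ℝ :=
    fun z => wD' z.1 * (if z.2 = 1 then 1 else 1 + (Nat.card (C ⧸ K₁) : ℝ))
  refine ⟨D' × (C ⧸ K₁), inferInstance, inferInstance, wD,
    f'.prod (QuotientGroup.mk' K₁), ?_, ?_, ?_, ?_⟩
  · intro z
    apply mul_nonneg (hnn z.1)
    split_ifs
    · exact zero_le_one
    · positivity
  · refine AbF.tprop_mono (fun z => le_of_eq ?_) (AbF.tprop_prod (H₁ := C ⧸ K₁) hnn hT)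
    simp only [wD]
    by_cases hz : z.2 = 1 <;> simp [hz]
  · intro c
    rw [MonoidHom.prod_apply, Prod.ext_iff]
    simp only [Prod.fst_one, Prod.snd_one, QuotientGroup.mk'_apply, QuotientGroup.eq_one_iff]
    constructor
    · rintro ⟨h1, h2⟩ u hu
      have hfix := (hker c).mp h1
      set z := dl α c u with hz
      have hzW' : z ∈ W' := (hK₁ c).mp h2 u hu
      have hαz : α c z = z := hfix z hzW'
      have hαu : α c u = z * u := by
        rw [hz, dl_apply, inv_mul_cancel_right]
      have hpow : ∀ k : ℕ, α (c ^ k) u = z ^ k * u := by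
        intro k
        induction k with
        | zero => simp
        | succ k ih =>
          rw [pow_succ', map_mul, MulAut.mul_apply, ih, map_mul, map_pow, hαz, hαu,
            pow_succ, mul_assoc]
      have h3 := hpow (Nat.card C)
      rw [pow_card_eq_one', map_one, MulAut.one_apply] at h3
      have hzm : z ^ Nat.card C = 1 := by
        have := h3.symm
        rwa [mul_eq_right] at this
      have hzp : z ^ p = 1 := hAexp z
      have hord : orderOf z ∣ Nat.gcd (Nat.card C) p :=
        Nat.dvd_gcd (orderOf_dvd_of_pow_eq_one hzm) (orderOf_dvd_of_pow_eq_one hzp)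
      rw [hCp.gcd_eq_one, Nat.dvd_one, orderOf_eq_one_iff] at hord
      rw [hαu, hord, one_mul]
    · intro h
      refine ⟨(hker c).mpr (fun u hu => h u (hW'W hu)), ?_⟩
      rw [hK₁]
      intro u hu
      rw [dl_apply, h u hu, mul_inv_cancel]
      exact W'.one_mem
  · intro c
    have ha' : 0 < Nat.card W' := Nat.card_pos
    have hb' : 0 < Nat.card ↥(W' ⊓ fx α c) := Nat.card_pos
    have hb : 0 < Nat.card ↥(W ⊓ fx α c) := Nat.card_pos
    have hr1 := relIndex_mul_card_inf W' W
    rw [inf_eq_left.mpr hW'W] at hr1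
    show wD' (f' c) * (if (QuotientGroup.mk' K₁ c : C ⧸ K₁) = 1 then 1
      else 1 + (Nat.card (C ⧸ K₁) : ℝ)) ≤ _
    by_cases hc : c ∈ K₁
    · have hq : (QuotientGroup.mk' K₁ c : C ⧸ K₁) = 1 := (QuotientGroup.eq_one_iff c).mpr hc
      rw [if_pos hq, mul_one]
      refine le_trans (hw c) ?_
      rw [div_le_div_iff₀ (by exact_mod_cast hb') (by exact_mod_cast hb)]
      have hr := relIndex_mul_card_inf W' (W ⊓ fx α c)
      rw [← inf_assoc, inf_eq_left.mpr hW'W] at hr
      have hle : W'.relIndex (W ⊓ fx α c) ≤ W'.relIndex W := by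
        apply Subgroup.relIndex_le_of_le_right inf_le_left
        intro h0
        rw [h0, zero_mul] at hr1
        exact (Nat.card_pos (α := W)).ne' hr1.symm
      have key : Nat.card W' * Nat.card ↥(W ⊓ fx α c) ≤ Nat.card W * Nat.card ↥(W' ⊓ fx α c) := by
        calc Nat.card W' * Nat.card ↥(W ⊓ fx α c)
            = Nat.card W' * (W'.relIndex (W ⊓ fx α c) * Nat.card ↥(W' ⊓ fx α c)) := by rw [hr]
          _ ≤ Nat.card W' * (W'.relIndex W * Nat.card ↥(W' ⊓ fx α c)) :=
              Nat.mul_le_mul_left _ (Nat.mul_le_mul_right _ hle)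
          _ = Nat.card W * Nat.card ↥(W' ⊓ fx α c) := by rw [← hr1]; ring
      exact_mod_cast key
    · have hq : ¬ (QuotientGroup.mk' K₁ c : C ⧸ K₁) = 1 :=
        fun h => hc ((QuotientGroup.eq_one_iff c).mp h)
      rw [if_neg hq]
      have hbb : W ⊓ fx α c = W' ⊓ fx α c := by
        ext u
        constructor
        · rintro ⟨hu1, hu2⟩
          refine ⟨hF c hc u hu1 ?_, hu2⟩
          rw [dl_apply, (mem_fx α c u).mp hu2, mul_inv_cancel]
          exact W'.one_mem
        · rintro ⟨hu1, hu2⟩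
          exact ⟨hW'W hu1, hu2⟩
      rw [hbb]
      -- the index bound
      obtain ⟨u₀, hu₀W, hu₀W'⟩ : ∃ u₀, u₀ ∈ W ∧ u₀ ∉ W' := by
        by_contra hcon
        push Not at hcon
        exact hne (le_antisymm hW'W hcon)
      let g : Option (C ⧸ K₁) → ↥W ⧸ (W'.subgroupOf W) := fun o =>
        match o with
        | none => 1
        | some q => QuotientGroup.mk ⟨α q.out u₀, hWinv _ _ hu₀W⟩
      have hg : Function.Injective g := by
        intro o o' hoo'
        match o, o' with
        | none, none => rfl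
        | none, some q =>
          exfalso
          have h1 : (QuotientGroup.mk ⟨α q.out u₀, hWinv _ _ hu₀W⟩ : ↥W ⧸ (W'.subgroupOf W)) = 1 :=
            hoo'.symm
          rw [QuotientGroup.eq_one_iff, Subgroup.mem_subgroupOf] at h1
          apply hu₀W'
          have := hW'inv (q.out)⁻¹ _ h1
          rwa [alpha_inv_apply'] at this
        | some q, none =>
          exfalso
          have h1 : (QuotientGroup.mk ⟨α q.out u₀, hWinv _ _ hu₀W⟩ : ↥W ⧸ (W'.subgroupOf W)) = 1 :=
            hoo'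
          rw [QuotientGroup.eq_one_iff, Subgroup.mem_subgroupOf] at h1
          apply hu₀W'
          have := hW'inv (q.out)⁻¹ _ h1
          rwa [alpha_inv_apply'] at this
        | some q, some q' =>
          have h1 : (QuotientGroup.mk ⟨α q.out u₀, hWinv _ _ hu₀W⟩ : ↥W ⧸ (W'.subgroupOf W)) =
              QuotientGroup.mk ⟨α q'.out u₀, hWinv _ _ hu₀W⟩ := hoo'
          rw [QuotientGroup.eq, Subgroup.mem_subgroupOf] at h1
          have h2 : (α q.out u₀)⁻¹ * α q'.out u₀ ∈ W' := h1
          have h3 := hW'inv (q.out)⁻¹ _ h2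
          rw [map_mul, map_inv, alpha_inv_apply', ← MulAut.mul_apply, ← map_mul] at h3
          have h4 : dl α ((q.out)⁻¹ * q'.out) u₀ ∈ W' := by
            rw [dl_apply, mul_comm]
            exact h3
          have h5 : (q.out)⁻¹ * q'.out ∈ K₁ := by
            by_contra hcon
            exact hu₀W' (hF _ hcon u₀ hu₀W h4)
          have h6 : (QuotientGroup.mk q.out : C ⧸ K₁) = QuotientGroup.mk q'.out :=
            QuotientGroup.eq.mpr h5
          rw [QuotientGroup.out_eq', QuotientGroup.out_eq'] at h6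
          rw [h6]
      have hcard : Nat.card (C ⧸ K₁) + 1 ≤ W'.relIndex W := by
        have h1 := Nat.card_le_card_of_injective g hg
        rw [Finite.card_option] at h1
        rw [Subgroup.relIndex, Subgroup.index_eq_card]
        exact h1
      have key : Nat.card W' * (1 + Nat.card (C ⧸ K₁)) ≤ Nat.card W := by
        rw [← hr1, mul_comm]
        apply Nat.mul_le_mul_right
        omega
      calc wD' (f' c) * (1 + (Nat.card (C ⧸ K₁) : ℝ))
          ≤ (Nat.card W' : ℝ) / (Nat.card ↥(W' ⊓ fx α c) : ℝ) * (1 + (Nat.card (C ⧸ K₁) : ℝ)) :=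
            mul_le_mul_of_nonneg_right (hw c) (by positivity)
        _ = ((Nat.card W' : ℝ) * (1 + (Nat.card (C ⧸ K₁) : ℝ))) /
              (Nat.card ↥(W' ⊓ fx α c) : ℝ) := by ring
        _ ≤ (Nat.card W : ℝ) / (Nat.card ↥(W' ⊓ fx α c) : ℝ) := by
            apply div_le_div_of_nonneg_right _ (by positivity)
            exact_mod_cast key

theorem chain (p : ℕ) (hAexp : ∀ a : A, a ^ p = 1) (hCp : Nat.Coprime (Nat.card C) p) :
    ∀ (n : ℕ) (W : Subgroup A), Nat.card W = n → (∀ c : C, ∀ u ∈ W, α c u ∈ W) →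
    ∃ (D : Type u) (_ : CommGroup D) (_ : Fintype D) (wD : D → ℝ) (f : C →* D),
      (∀ x, 0 ≤ wD x) ∧ AbF.Tprop D wD ∧ (∀ c, f c = 1 ↔ ∀ u ∈ W, α c u = u) ∧
      ∀ c, wD (f c) ≤ (Nat.card W : ℝ) / (Nat.card ↥(W ⊓ fx α c) : ℝ) := by
  intro n
  induction n using Nat.strong_induction_on with
  | _ n ih =>
    intro W hn hWinv
    by_cases hbot : W = ⊥
    · subst hbot
      refine ⟨PUnit, inferInstance, inferInstance, fun _ => 1, 1, fun _ => zero_le_one,
        AbF.tprop_subsingleton (le_refl 1), ?_, ?_⟩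
      · intro c
        simp
      · intro c
        simp
    · obtain ⟨W', -, hmaxW'⟩ := Finite.exists_le_maximal
        (p := fun E : Subgroup A => E < W ∧ ∀ c : C, ∀ u ∈ E, α c u ∈ E) (a := ⊥)
        ⟨bot_lt_iff_ne_bot.mpr hbot, by
          intro c u hu
          rw [Subgroup.mem_bot] at hu ⊢
          rw [hu, map_one]⟩
      have hlt : Nat.card W' < n := by
        rw [← hn]
        apply lt_of_le_of_ne (Subgroup.card_le_of_le hmaxW'.prop.1.le)
        intro heq
        exact hmaxW'.prop.1.ne (Subgroup.eq_of_le_of_card_ge hmaxW'.prop.1.le heq.ge)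
      obtain ⟨D', i1, i2, wD', f', h1, h2, h3, h4⟩ := ih (Nat.card W') hlt W' rfl hmaxW'.prop.2
      refine chain_step α p hAexp hCp W' W hmaxW'.prop.1.le hmaxW'.prop.1.ne hmaxW'.prop.2
        hWinv ?_ D' wD' f' h1 h2 h3 h4
      intro E hE1 hE2 hE3
      by_cases hEW : E = W
      · exact Or.inr hEW
      · left
        exact le_antisymm (hmaxW'.le_of_ge ⟨lt_of_le_of_ne hE2 hEW, hE3⟩ hE1) hE1

/-- The lattice property for a faithful coprime action. -/
theorem tprop_of_faithful [Fintype C] (p : ℕ) (hAexp : ∀ a : A, a ^ p = 1)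
    (hCp : Nat.Coprime (Nat.card C) p) (hfaith : ∀ c : C, (∀ u : A, α c u = u) → c = 1) :
    AbF.Tprop C (fun c => (Nat.card A : ℝ) / (Nat.card ↥(fx α c) : ℝ)) := by
  obtain ⟨D, i1, i2, wD, f, h1, h2, h3, h4⟩ := chain α p hAexp hCp
    (Nat.card (⊤ : Subgroup A)) ⊤ rfl (fun _ _ _ => Subgroup.mem_top _)
  have hinj : Function.Injective f := by
    rw [injective_iff_map_eq_one]
    intro c hc
    exact hfaith c (fun u => (h3 c).mp hc u (Subgroup.mem_top u))
  refine AbF.tprop_mono ?_ (AbF.tprop_comap f hinj h2)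
  intro c
  refine le_trans (h4 c) (le_of_eq ?_)
  rw [Subgroup.card_top, top_inf_eq]

end Act

end Cfsg.Agent.Lib.Helper85.Knorr
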