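import Mathlib
import Cfsg.Agent.Lib.Helper85.AbFourier
import Cfsg.Agent.Lib.Helper20.Clifford
import Cfsg.Agent.Lib.Helper83.Linear
import Cfsg.Agent.Lib.Helper35.Ind

set_option autoImplicit false

/-!
# Characters restricted to abelian subgroups and the lattice property
-/

namespace Cfsg.Agent.Lib.Helper85.Knorr

open Cfsg Cfsg.Agent.Lib Cfsg.Agent.Lib.Helper85
open scoped ComplexConjugate

universe u

/-- A character of a finite abelian group, divided by the group order, has integral Fourier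
coefficients. -/
theorem intFC_of_isCharacter {H : Type u} [CommGroup H] [Fintype H] {θ : H → ℂ}
    (hθ : IsCharacter H θ) : AbF.IntFC (fun h => θ h / (Nat.card H : ℂ)) := by
  intro γ
  have hγ : IsIrrCharacter H (fun h => ((γ h : ℂˣ) : ℂ)) := Helper83.isIrr_of_hom γ
  obtain ⟨k, hk⟩ := Helper35.classInner_char_nat hθ (Helper35.isChar_of_irr hγ)
  refine ⟨k, ?_⟩
  rw [AbF.fc_def]
  have h1 : classInner θ (fun h => ((γ h : ℂˣ) : ℂ)) =
      ∑ h, θ h / (Nat.card H : ℂ) * conj ((γ h : ℂˣ) : ℂ) := by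
    unfold classInner
    rw [Finset.mul_sum]
    apply Finset.sum_congr rfl
    intro h _
    ring
  rw [← h1, hk]
  simp

section Core

variable {X : Type u} [Group X] {C : Type u} [CommGroup C] [Fintype C] (ι : C →* X)

/-- The lattice property applied to a character restricted to an abelian subgroup. -/
theorem char_sum_ge {w : C → ℝ} (hT : AbF.Tprop C w) {χ : X → ℂ} (hχ : IsCharacter X χ)
    (h1 : χ 1 ≠ 0) : (Nat.card C : ℝ) ^ 2 ≤ ∑ c : C, w c * ‖χ (ι c)‖ ^ 2 := by
  have hN : (0 : ℝ) < (Nat.card C : ℝ) := by exact_mod_cast (Nat.card_pos (α := C))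
  have hint := intFC_of_isCharacter (Helper20.isCharacter_comp ι hχ)
  have hne : (fun c : C => χ (ι c) / (Nat.card C : ℂ)) ≠ 0 := by
    intro h0
    have h2 := congrFun h0 1
    simp only [map_one, Pi.zero_apply] at h2
    have hN' : (Nat.card C : ℂ) ≠ 0 := by exact_mod_cast hN.ne'
    rcases div_eq_zero_iff.mp h2 with h3 | h3
    · exact h1 h3
    · exact hN' h3
  have key := hT _ hint hne
  have h3 : ∑ c : C, w c * ‖χ (ι c) / (Nat.card C : ℂ)‖ ^ 2 =
      (∑ c : C, w c * ‖χ (ι c)‖ ^ 2) / (Nat.card C : ℝ) ^ 2 := by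
    rw [Finset.sum_div]
    apply Finset.sum_congr rfl
    intro c _
    rw [norm_div, Complex.norm_natCast, div_pow]
    ring
  rw [h3, le_div_iff₀ (by positivity)] at key
  linarith

variable {H₁ : Type u} [CommGroup H₁] [Fintype H₁] [Fintype (H₁ →* ℂˣ)] (κ : H₁ →* X)

open Classical in
/-- The off-identity version for a second abelian factor commuting with the first. -/
theorem char_sum_ge_ne (comm : ∀ (c : C) (y : H₁), Commute (ι c) (κ y)) {w : C → ℝ}
    (hw : ∀ c, 0 ≤ w c) (hT : AbF.Tprop C w) {χ : X → ℂ} (hχ : IsCharacter X χ) (y₀ : H₁)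
    (hy₀ : y₀ ≠ 1) (h1 : χ (κ y₀) ≠ 0) :
    ((Nat.card H₁ : ℝ) - 1) * (Nat.card C : ℝ) ^ 2 ≤
      ∑ c : C, ∑ y : H₁, (if y = 1 then 0 else w c * ‖χ (ι c * κ y)‖ ^ 2) := by
  have hN : (0 : ℝ) < (Nat.card C : ℝ) := by exact_mod_cast (Nat.card_pos (α := C))
  have hn : (0 : ℝ) < (Nat.card H₁ : ℝ) := by exact_mod_cast (Nat.card_pos (α := H₁))
  have hint := intFC_of_isCharacter
    (Helper20.isCharacter_comp (ι.noncommCoprod κ comm) hχ)
  have hcard : (Nat.card (C × H₁) : ℂ) = (Nat.card C : ℂ) * (Nat.card H₁ : ℂ) := by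
    rw [Nat.card_prod]
    push_cast
    rfl
  have hNn : (Nat.card C : ℂ) * (Nat.card H₁ : ℂ) ≠ 0 := by
    apply mul_ne_zero
    · exact_mod_cast hN.ne'
    · exact_mod_cast hn.ne'
  have key := AbF.tprop_prod_ne hw hT _ hint 1 y₀ hy₀ (by
    simp only [MonoidHom.noncommCoprod_apply, map_one, one_mul]
    rw [hcard]
    exact div_ne_zero h1 hNn)
  have h3 : ∑ c : C, ∑ y : H₁, (if y = 1 then 0 else
      w c * ‖χ ((ι.noncommCoprod κ comm) (c, y)) / (Nat.card (C × H₁) : ℂ)‖ ^ 2) =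
      (∑ c : C, ∑ y : H₁, (if y = 1 then 0 else w c * ‖χ (ι c * κ y)‖ ^ 2)) /
        ((Nat.card C : ℝ) * (Nat.card H₁ : ℝ)) ^ 2 := by
    rw [Finset.sum_div]
    apply Finset.sum_congr rfl
    intro c _
    rw [Finset.sum_div]
    apply Finset.sum_congr rfl
    intro y _
    split_ifs
    · rw [zero_div]
    · rw [MonoidHom.noncommCoprod_apply, hcard, norm_div, norm_mul, Complex.norm_natCast,
        Complex.norm_natCast, div_pow]
      ring
  rw [h3, le_div_iff₀ (by positivity)] at key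
  have h4 : ((Nat.card H₁ : ℝ) - 1) / (Nat.card H₁ : ℝ) ^ 2 *
      ((Nat.card C : ℝ) * (Nat.card H₁ : ℝ)) ^ 2 =
      ((Nat.card H₁ : ℝ) - 1) * (Nat.card C : ℝ) ^ 2 := by
    field_simp
  rw [h4] at key
  exact key

end Core

end Cfsg.Agent.Lib.Helper85.Knorr
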