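import Mathlib
import Cfsg.Agent.Lib.Helper52.LPDefs
import Cfsg.Agent.Lib.Helper52.OutMain
import Cfsg.Agent.Lib.Helper52.LangOdd

/-!
# LP project (helper52, S2736/S2737), piece LP-5 (helper85)
Elements of `inndiagPOmegaPlus` are induced by class-preserving similarities, and the
inner-diagonal group is stable under conjugation by any automorphism induced by a semisimilarity.
-/

set_option autoImplicit false

namespace Cfsg.Agent.Lib.Helper85.LP5

open Module QuadraticMap Matrix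
open Cfsg Cfsg.Agent.Lib.Helper51 Cfsg.Agent.Lib.Helper52 Cfsg.Agent.Lib.Helper54
open Cfsg.Agent.Lib.Helper52.OU Cfsg.Agent.Lib.Helper52.OUMain Cfsg.Agent.Lib.Helper52.LP

variable {ι : Type} [Fintype ι] [DecidableEq ι] {F : Type*} [Field F]

theorem map_id_of (σ : F ≃+* F) (hσ : ∀ x, σ x = x) (g : GL ι F) :
    Matrix.GeneralLinearGroup.map (σ : F →+* F) g = g := by
  apply Units.ext
  ext i j
  rw [Matrix.GeneralLinearGroup.map_apply]
  exact hσ _

theorem coe_map (σ : F ≃+* F) (g : GL ι F) :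
    ((Matrix.GeneralLinearGroup.map (σ : F →+* F) g : GL ι F) : Matrix ι ι F)
      = (g : Matrix ι ι F).map σ := by
  ext i j
  rw [Matrix.GeneralLinearGroup.map_apply]
  rfl

theorem pres_one (Q : (ι → F) → F) :
    PreservesSingularClasses Q ((1 : GL ι F) : Matrix ι ι F) := by
  intro U _
  unfold SameParityClass
  rw [Units.val_one, imageSubmodule_one, inf_idem, Nat.sub_self]
  exact Even.zero

theorem inndiag_plus_ind {m : ℕ}
    (hmul : ∀ g h : GL (Fin m ⊕ Fin m) F,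
      g ∈ Cfsg.Geo.quadSimilarityGroup (F := F) (Cfsg.quadFormPlus m F) →
      h ∈ Cfsg.Geo.quadSimilarityGroup (F := F) (Cfsg.quadFormPlus m F) →
      PreservesSingularClasses (Cfsg.quadFormPlus m F)
        (g : Matrix (Fin m ⊕ Fin m) (Fin m ⊕ Fin m) F) →
      PreservesSingularClasses (Cfsg.quadFormPlus m F)
        (h : Matrix (Fin m ⊕ Fin m) (Fin m ⊕ Fin m) F) →
      PreservesSingularClasses (Cfsg.quadFormPlus m F)
        ((g * h : GL (Fin m ⊕ Fin m) F) : Matrix (Fin m ⊕ Fin m) (Fin m ⊕ Fin m) F))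
    (hinv : ∀ g : GL (Fin m ⊕ Fin m) F,
      g ∈ Cfsg.Geo.quadSimilarityGroup (F := F) (Cfsg.quadFormPlus m F) →
      PreservesSingularClasses (Cfsg.quadFormPlus m F)
        (g : Matrix (Fin m ⊕ Fin m) (Fin m ⊕ Fin m) F) →
      PreservesSingularClasses (Cfsg.quadFormPlus m F)
        ((g⁻¹ : GL (Fin m ⊕ Fin m) F) : Matrix (Fin m ⊕ Fin m) (Fin m ⊕ Fin m) F))
    (δ : MulAut (Cfsg.POmega F (Cfsg.quadFormPlus m F)))
    (hδ : δ ∈ Cfsg.inndiagPOmegaPlus m F) :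
    ∃ g : GL (Fin m ⊕ Fin m) F,
      g ∈ Cfsg.Geo.quadSimilarityGroup (F := F) (Cfsg.quadFormPlus m F) ∧
      PreservesSingularClasses (Cfsg.quadFormPlus m F)
        (g : Matrix (Fin m ⊕ Fin m) (Fin m ⊕ Fin m) F) ∧
      Ind (Cfsg.quadFormPlus m F) δ g (RingEquiv.refl F) := by
  unfold Cfsg.inndiagPOmegaPlus Cfsg.autSubgroupOf at hδ
  refine Subgroup.closure_induction
    (p := fun x _ => ∃ g : GL (Fin m ⊕ Fin m) F,
      g ∈ Cfsg.Geo.quadSimilarityGroup (F := F) (Cfsg.quadFormPlus m F) ∧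
      PreservesSingularClasses (Cfsg.quadFormPlus m F)
        (g : Matrix (Fin m ⊕ Fin m) (Fin m ⊕ Fin m) F) ∧
      Ind (Cfsg.quadFormPlus m F) x g (RingEquiv.refl F)) ?_ ?_ ?_ ?_ hδ
  · intro β hβ
    obtain ⟨g, hg, hP, hI⟩ := hβ
    refine ⟨g, hg, hP, ?_, hI⟩
    obtain ⟨c, hc⟩ := hg
    exact ⟨c, fun v => hc v⟩
  · exact ⟨1, Subgroup.one_mem _, pres_one _, ind_one _⟩
  · intro x y _ _ ihx ihy
    obtain ⟨g, hg, hP, hI⟩ := ihx
    obtain ⟨g', hg', hP', hI'⟩ := ihy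
    refine ⟨g * g', Subgroup.mul_mem _ hg hg', hmul g g' hg hg' hP hP', ?_⟩
    exact LSMain.ind_congr _ (ind_mul _ hI hI')
      (by rw [map_id_of (RingEquiv.refl F) (fun _ => rfl)]) (fun _ => rfl)
  · intro x _ ihx
    obtain ⟨g, hg, hP, hI⟩ := ihx
    refine ⟨g⁻¹, Subgroup.inv_mem _ hg, hinv g hg hP, ?_⟩
    exact LSMain.ind_congr _ (ind_inv _ hI)
      (by rw [map_id_of (RingEquiv.refl F).symm (fun _ => rfl)]) (fun _ => rfl)

theorem inndiag_plus_conj {m : ℕ}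
    (hmax : ∀ U : Submodule F (Fin m ⊕ Fin m → F),
      IsMaxTotallySingular (Cfsg.quadFormPlus m F) U ↔ IsLag m (QPlus m F) U)
    (hmul : ∀ g h : GL (Fin m ⊕ Fin m) F,
      g ∈ Cfsg.Geo.quadSimilarityGroup (F := F) (Cfsg.quadFormPlus m F) →
      h ∈ Cfsg.Geo.quadSimilarityGroup (F := F) (Cfsg.quadFormPlus m F) →
      PreservesSingularClasses (Cfsg.quadFormPlus m F)
        (g : Matrix (Fin m ⊕ Fin m) (Fin m ⊕ Fin m) F) →
      PreservesSingularClasses (Cfsg.quadFormPlus m F)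
        (h : Matrix (Fin m ⊕ Fin m) (Fin m ⊕ Fin m) F) →
      PreservesSingularClasses (Cfsg.quadFormPlus m F)
        ((g * h : GL (Fin m ⊕ Fin m) F) : Matrix (Fin m ⊕ Fin m) (Fin m ⊕ Fin m) F))
    (hinv : ∀ g : GL (Fin m ⊕ Fin m) F,
      g ∈ Cfsg.Geo.quadSimilarityGroup (F := F) (Cfsg.quadFormPlus m F) →
      PreservesSingularClasses (Cfsg.quadFormPlus m F)
        (g : Matrix (Fin m ⊕ Fin m) (Fin m ⊕ Fin m) F) →
      PreservesSingularClasses (Cfsg.quadFormPlus m F)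
        ((g⁻¹ : GL (Fin m ⊕ Fin m) F) : Matrix (Fin m ⊕ Fin m) (Fin m ⊕ Fin m) F))
    (α δ : MulAut (Cfsg.POmega F (Cfsg.quadFormPlus m F))) (a : GL (Fin m ⊕ Fin m) F)
    (τ : F ≃+* F) (hα : Ind (Cfsg.quadFormPlus m F) α a τ)
    (hδ : δ ∈ Cfsg.inndiagPOmegaPlus m F) :
    α * δ * α⁻¹ ∈ Cfsg.inndiagPOmegaPlus m F := by
  obtain ⟨g, hgGO, Pg, Ig⟩ := inndiag_plus_ind hmul hinv δ hδ
  have I1 := ind_mul _ (ind_mul _ hα Ig) (ind_inv _ hα)
  obtain ⟨g', hg'⟩ : ∃ g' : GL (Fin m ⊕ Fin m) F,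
      g' = a * Matrix.GeneralLinearGroup.map (τ : F →+* F) g * a⁻¹ := ⟨_, rfl⟩
  have e0 : Matrix.GeneralLinearGroup.map (((RingEquiv.refl F).trans τ : F ≃+* F) : F →+* F)
      (Matrix.GeneralLinearGroup.map (τ.symm : F →+* F) a⁻¹) = a⁻¹ := by
    apply Units.ext
    ext i j
    rw [Matrix.GeneralLinearGroup.map_apply, Matrix.GeneralLinearGroup.map_apply]
    simp
  have I2 : Ind (Cfsg.quadFormPlus m F) (α * δ * α⁻¹) g' (RingEquiv.refl F) := by
    refine LSMain.ind_congr _ I1 ?_ ?_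
    · rw [hg', e0]
    · intro x
      simp
  have hg'GO : g' ∈ Cfsg.Geo.quadSimilarityGroup (F := F) (Cfsg.quadFormPlus m F) := by
    obtain ⟨c, hc⟩ := I2.1
    exact ⟨c, fun v => hc v⟩
  have hg'mat : (g' : Matrix (Fin m ⊕ Fin m) (Fin m ⊕ Fin m) F)
      = (a : Matrix (Fin m ⊕ Fin m) (Fin m ⊕ Fin m) F)
        * ((g : Matrix (Fin m ⊕ Fin m) (Fin m ⊕ Fin m) F).map τ)
        * ((a⁻¹ : GL (Fin m ⊕ Fin m) F) : Matrix (Fin m ⊕ Fin m) (Fin m ⊕ Fin m) F) := by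
    rw [hg', Units.val_mul, Units.val_mul, coe_map]
  have hPres : PreservesSingularClasses (Cfsg.quadFormPlus m F)
      (g' : Matrix (Fin m ⊕ Fin m) (Fin m ⊕ Fin m) F) := by
    intro U hU
    have hUlag := (hmax U).mp hU
    obtain ⟨c, hc⟩ := hα.1
    obtain ⟨W, hWdef⟩ : ∃ W, W = sigSub τ.symm (imageSubmodule
        ((a⁻¹ : GL (Fin m ⊕ Fin m) F) : Matrix (Fin m ⊕ Fin m) (Fin m ⊕ Fin m) F) U) :=
      ⟨_, rfl⟩
    have hWlag : IsLag m (QPlus m F) W := by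
      constructor
      · rw [hWdef, finrank_sigSub, finrank_imageSubmodule]
        exact hUlag.1
      · intro w hw
        rw [hWdef] at hw
        obtain ⟨u, hu, rfl⟩ := exists_of_mem_sigSub τ.symm _ w hw
        obtain ⟨x, hx, rfl⟩ := (mem_imageSubmodule _ _ _).mp hu
        have h1 := hc (fun i => τ.symm
          ((((a⁻¹ : GL (Fin m ⊕ Fin m) F) : Matrix (Fin m ⊕ Fin m) (Fin m ⊕ Fin m) F) *ᵥ x) i))
        have h2 : (fun i => τ (τ.symm
            ((((a⁻¹ : GL (Fin m ⊕ Fin m) F) : Matrix (Fin m ⊕ Fin m) (Fin m ⊕ Fin m) F) *ᵥ x) i)))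
            = ((a⁻¹ : GL (Fin m ⊕ Fin m) F) : Matrix (Fin m ⊕ Fin m) (Fin m ⊕ Fin m) F) *ᵥ x := by
          funext i
          simp
        rw [h2, Matrix.mulVec_mulVec, Units.mul_inv, Matrix.one_mulVec] at h1
        have h3 : Cfsg.quadFormPlus m F x = 0 := by
          rw [← coe_QPlus]
          exact hUlag.2 x hx
        rw [h3] at h1
        have h4 : τ (Cfsg.quadFormPlus m F (fun i => τ.symm
            ((((a⁻¹ : GL (Fin m ⊕ Fin m) F) : Matrix (Fin m ⊕ Fin m) (Fin m ⊕ Fin m) F) *ᵥ x) i)))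
            = 0 := by
          rcases mul_eq_zero.mp h1.symm with h | h
          · exact absurd h c.ne_zero
          · exact h
        rw [coe_QPlus]
        exact (map_eq_zero_iff τ τ.injective).mp h4
    have hWmax : IsMaxTotallySingular (Cfsg.quadFormPlus m F) W := (hmax W).mpr hWlag
    have hP := Pg W hWmax
    unfold SameParityClass at hP ⊢
    have e1 : sigSub τ W = imageSubmodule
        ((a⁻¹ : GL (Fin m ⊕ Fin m) F) : Matrix (Fin m ⊕ Fin m) (Fin m ⊕ Fin m) F) U := by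
      rw [hWdef, sigSub_sigSub_symm]
    have e3 : imageSubmodule (a : Matrix (Fin m ⊕ Fin m) (Fin m ⊕ Fin m) F) (sigSub τ W) = U := by
      rw [e1, ← imageSubmodule_mul, Units.mul_inv, imageSubmodule_one]
    have e4 : imageSubmodule (a : Matrix (Fin m ⊕ Fin m) (Fin m ⊕ Fin m) F)
        (sigSub τ (imageSubmodule (g : Matrix (Fin m ⊕ Fin m) (Fin m ⊕ Fin m) F) W))
        = imageSubmodule (g' : Matrix (Fin m ⊕ Fin m) (Fin m ⊕ Fin m) F) U := by
      rw [sigSub_imageSubmodule, e1, ← imageSubmodule_mul, ← imageSubmodule_mul, hg'mat]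
    have e5 : finrank F ↥(W ⊓ imageSubmodule (g : Matrix (Fin m ⊕ Fin m) (Fin m ⊕ Fin m) F) W)
        = finrank F ↥(U ⊓ imageSubmodule (g' : Matrix (Fin m ⊕ Fin m) (Fin m ⊕ Fin m) F) U) := by
      calc finrank F ↥(W ⊓ imageSubmodule (g : Matrix (Fin m ⊕ Fin m) (Fin m ⊕ Fin m) F) W)
          = finrank F ↥(sigSub τ
              (W ⊓ imageSubmodule (g : Matrix (Fin m ⊕ Fin m) (Fin m ⊕ Fin m) F) W)) :=
            (finrank_sigSub τ _).symm
        _ = finrank F ↥(imageSubmodule (a : Matrix (Fin m ⊕ Fin m) (Fin m ⊕ Fin m) F) (sigSub τ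
              (W ⊓ imageSubmodule (g : Matrix (Fin m ⊕ Fin m) (Fin m ⊕ Fin m) F) W))) :=
            (finrank_imageSubmodule a _).symm
        _ = finrank F ↥(U ⊓ imageSubmodule (g' : Matrix (Fin m ⊕ Fin m) (Fin m ⊕ Fin m) F) U) := by
            rw [sigSub_inf, imageSubmodule_inf, e3, e4]
    rw [hWlag.1] at hP
    rw [hUlag.1, ← e5]
    exact hP
  unfold Cfsg.inndiagPOmegaPlus Cfsg.autSubgroupOf
  exact Subgroup.subset_closure ⟨g', hg'GO, hPres, I2.2⟩

end Cfsg.Agent.Lib.Helper85.LP5
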