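import Mathlib
import Cfsg.Agent.Lib.Helper47.OmcDefs

/-!
# OMC piece WPFACTS (helper85, for helper47's S2683–S2685): the Artin–Schreier image in a
finite field of characteristic two is an additive subgroup of index two
-/

set_option autoImplicit false

namespace Cfsg.Agent.Lib.Helper85.Omc

open Cfsg.Agent.Lib.Helper47 Matrix

variable {F : Type*} [Field F]

/-- the Artin–Schreier map `z ↦ z ^ 2 + z` as an additive homomorphism (characteristic two) -/
def wpHom (F : Type*) [Field F] [CharP F 2] : F →+ F where
  toFun z := z ^ 2 + z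
  map_zero' := by simp
  map_add' x y := by
    have h2 : (2 : F) = 0 := by exact_mod_cast CharP.cast_eq_zero F 2
    linear_combination (x * y) * h2

theorem wpHom_apply [CharP F 2] (z : F) : wpHom F z = z ^ 2 + z := rfl

theorem isWP_iff [CharP F 2] (c : F) : IsWP c ↔ c ∈ (wpHom F).range := by
  constructor
  · rintro ⟨z, hz⟩
    exact ⟨z, hz.symm⟩
  · rintro ⟨z, hz⟩
    exact ⟨z, hz.symm⟩

theorem wpHom_ker [CharP F 2] : ((wpHom F).ker : Set F) = {0, 1} := by
  ext z
  simp only [SetLike.mem_coe, AddMonoidHom.mem_ker, Set.mem_insert_iff, Set.mem_singleton_iff]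
  have h2 : (2 : F) = 0 := by exact_mod_cast CharP.cast_eq_zero F 2
  constructor
  · intro h
    rw [wpHom_apply] at h
    have h' : z * (z + 1) = 0 := by linear_combination h
    rcases mul_eq_zero.1 h' with h0 | h1
    · left; exact h0
    · right; linear_combination h1 - h2
  · rintro (rfl | rfl)
    · exact map_zero _
    · rw [wpHom_apply]
      linear_combination h2

-- PIECE WPFACTS
theorem wp_facts [Fintype F] [CharP F 2] {q : ℕ} (hF : Fintype.card F = q) : WPFacts F q := by
  have hker : Nat.card (wpHom F).ker = 2 := by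
    have h1 : Nat.card ((wpHom F).ker : Set F) = 2 := by
      rw [wpHom_ker, Nat.card_coe_set_eq, Set.ncard_pair zero_ne_one]
    exact h1
  have hcard : Nat.card (wpHom F).range * 2 = q := by
    have h1 := AddSubgroup.card_eq_card_quotient_mul_card_addSubgroup (wpHom F).ker
    have h2 : Nat.card (F ⧸ (wpHom F).ker) = Nat.card (wpHom F).range :=
      Nat.card_congr (QuotientAddGroup.quotientKerEquivRange (wpHom F)).toEquiv
    rw [h2, hker, Nat.card_eq_fintype_card, hF] at h1
    exact h1.symm
  have hidx : (wpHom F).range.index = 2 := by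
    have h1 := AddSubgroup.index_mul_card (wpHom F).range
    rw [Nat.card_eq_fintype_card (α := F), hF, ← hcard] at h1
    have hpos : 0 < Nat.card (wpHom F).range := Nat.card_pos
    exact Nat.eq_of_mul_eq_mul_right hpos (by rw [h1, mul_comm])
  refine ⟨?_, ?_, ?_, ?_, ?_⟩
  · intro c c' hc hc'
    rw [isWP_iff] at hc hc' ⊢
    exact add_mem hc hc'
  · intro c c' hc hc'
    rw [isWP_iff] at hc hc' ⊢
    rw [AddSubgroup.add_mem_iff_of_index_two hidx]
    exact ⟨fun h => absurd h hc, fun h => absurd h hc'⟩
  · intro c c' hc hc'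
    rw [isWP_iff] at hc hc' ⊢
    rw [AddSubgroup.add_mem_iff_of_index_two hidx]
    intro h
    exact hc' (h.1 hc)
  · by_contra h
    push Not at h
    have htop : (wpHom F).range = ⊤ := by
      rw [AddSubgroup.eq_top_iff']
      intro x
      exact (isWP_iff x).1 (h x)
    rw [htop, AddSubgroup.index_top] at hidx
    omega
  · have h1 : Nat.card {c : F // IsWP c} = Nat.card (wpHom F).range :=
      Nat.card_congr (Equiv.subtypeEquivRight (fun c => isWP_iff c))
    rw [h1, hcard]

end Cfsg.Agent.Lib.Helper85.Omc
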