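import Cfsg.Agent.Lib.Helper96.PiDefs
import Cfsg.Agent.Lib.Helper98.O72Fix

/-!
Project PI (S5989, helper96), piece X2INV: an involutory isometry fixes a member.
-/

set_option autoImplicit false
set_option linter.unusedSectionVars false
set_option linter.unusedVariables false

namespace Cfsg.Agent.Lib.Helper85.Pi

open Module Cfsg.Agent.Lib.Helper96.Sp Cfsg.Agent.Lib.Helper96.BG Cfsg.Agent.Lib.Helper96.Hy
  Cfsg.Agent.Lib.Helper96.Pi

universe u

variable {F : Type u} [Field F] [Fintype F] {V : Type u} [AddCommGroup V] [Module F V]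
  [FiniteDimensional F V] {B : LinearMap.BilinForm F V}

-- PIECE X2INV
theorem invol_fix_iso (hS : B.IsSymm) (h2 : (2 : F) ≠ 0) (hN : ND B ⊤)
    (hq2 : ¬ 2 ∣ Fintype.card F) (W₀ : Submodule F V) (hW₀ : ND B W₀) (m : ℕ)
    (hm : finrank F W₀ = m) (hmn : 2 * m < finrank F V) (T : Module.End F V) (hT : Isom B T)
    (hT2 : T ^ 2 = 1) : ∃ W : Submodule F V, Mem B W₀ m W ∧ W.map T ≤ W := by
  haveI : Fact (Nat.Prime 2) := ⟨Nat.prime_two⟩
  have hr0 : ((2 : ℕ) : F) ≠ 0 := by exact_mod_cast h2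
  have hK : ND B (LinearMap.ker (T - 1)) :=
    Cfsg.Agent.Lib.Helper98.O72.nd_ker hS h2 hN T hT 2 hq2 hr0 hT2
  have hR : ND B (LinearMap.range (T - 1)) :=
    Cfsg.Agent.Lib.Helper98.O72.nd_range hS h2 hN T hT 2 hq2 hr0 hT2
  obtain ⟨-, -, -, -, -, hKinv, -, -, hdim⟩ := pow_one_setup T 2 hq2 hr0 hT2
  by_cases hc : m < finrank F (LinearMap.ker (T - 1))
  · obtain ⟨Q, hQK, hQnd, hQfin, h, hh, hmap⟩ :=
      Cfsg.Agent.Lib.Helper98.O72.exists_copy hS h2 hN hW₀ hK (by rw [hm]; exact hc)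
    refine ⟨Q, ⟨by rw [hQfin, hm], hQnd, iso_symm (iso_of_map_eq h hh hmap)⟩, hKinv Q hQK⟩
  · have hc' : m < finrank F (LinearMap.range (T - 1)) := by omega
    obtain ⟨Q, hQR, hQnd, hQfin, h, hh, hmap⟩ :=
      Cfsg.Agent.Lib.Helper98.O72.exists_copy hS h2 hN hW₀ hR (by rw [hm]; exact hc')
    refine ⟨Q, ⟨by rw [hQfin, hm], hQnd, iso_symm (iso_of_map_eq h hh hmap)⟩, ?_⟩
    rintro w ⟨w', hw', rfl⟩
    obtain ⟨u, hu⟩ := hQR hw'
    have h3 : T w' = -w' := by
      rw [← hu]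
      have h4 : T (T u) = u := by
        have := congrArg (fun f : Module.End F V => f u) hT2
        simpa [pow_two] using this
      simp only [LinearMap.sub_apply, Module.End.one_apply, map_sub, h4]
      abel
    show T w' ∈ Q
    rw [h3]
    exact Q.neg_mem hw'

end Cfsg.Agent.Lib.Helper85.Pi
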