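import Cfsg.Agent.Lib.Helper42.PiEXA
import Cfsg.Agent.Lib.Helper51.Spinor

/-!
Project PM (S5991, helper96), piece MEXM: for even `e` and `-1` a non-square there is an isometry
`x` of the minus-type quadratic form with `x * x = -1`.
-/

set_option autoImplicit false
set_option linter.unusedSectionVars false
set_option linter.unusedVariables false

namespace Cfsg.Agent.Lib.Helper85.Pm

open Matrix
open scoped MatrixGroups

universe u

variable {F : Type u} [Field F] [Fintype F]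

-- PIECE MEXM
theorem exists_sq_neg_minus (h2 : (2 : F) ≠ 0) (e : ℕ) (he : Even e) (a b : F)
    (hab : ∀ z₁ z₂ : F, z₁ ^ 2 + a * z₁ * z₂ + b * z₂ ^ 2 = 0 → z₁ = 0 ∧ z₂ = 0)
    (hns : ¬ IsSquare (-1 : F)) :
    ∃ x : GL ((Fin e ⊕ Fin e) ⊕ Fin 2) F,
      (∀ v, Cfsg.quadFormMinus e F a b
          ((x : Matrix ((Fin e ⊕ Fin e) ⊕ Fin 2) ((Fin e ⊕ Fin e) ⊕ Fin 2) F) *ᵥ v)
        = Cfsg.quadFormMinus e F a b v) ∧
      (x : Matrix ((Fin e ⊕ Fin e) ⊕ Fin 2) ((Fin e ⊕ Fin e) ⊕ Fin 2) F)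
        * (x : Matrix ((Fin e ⊕ Fin e) ⊕ Fin 2) ((Fin e ⊕ Fin e) ⊕ Fin 2) F) = -1 := by
  -- the discriminant is a non-square
  have hD : ¬ IsSquare (a ^ 2 - 4 * b) := by
    rintro ⟨u, hu⟩
    have h0 := hab (u - a) 2 (by linear_combination (-1 : F) * hu)
    exact h2 h0.2
  have hD0 : a ^ 2 - 4 * b ≠ 0 := by
    intro h0
    apply hD
    rw [h0]
    exact ⟨0, by ring⟩
  have hm1 : (-1 : F) ≠ 0 := neg_ne_zero.mpr one_ne_zero
  have hsq : IsSquare ((-1 : F) * (a ^ 2 - 4 * b)) :=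
    (Cfsg.Agent.Lib.Helper51.isSquare_mul_iff hm1 hD0).mpr ⟨fun h => (hns h).elim, fun h => (hD h).elim⟩
  obtain ⟨t, ht⟩ := hsq
  have ht0 : t ≠ 0 := by
    intro h0
    rw [h0, mul_zero] at ht
    rcases mul_eq_zero.mp ht with h | h
    · exact hm1 h
    · exact hD0 h
  have ht2 : t⁻¹ * t⁻¹ * (4 * b - a ^ 2) = 1 := by
    have h1 : 4 * b - a ^ 2 = t * t := by linear_combination ht
    rw [h1]
    field_simp
  obtain ⟨M, hM⟩ : ∃ M : Matrix (Fin 2) (Fin 2) F,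
      M = !![t⁻¹ * (-a), t⁻¹ * (-(2 * b)); t⁻¹ * 2, t⁻¹ * a] := ⟨_, rfl⟩
  have h00 : M 0 0 = t⁻¹ * (-a) := by rw [hM]; rfl
  have h01 : M 0 1 = t⁻¹ * (-(2 * b)) := by rw [hM]; rfl
  have h10 : M 1 0 = t⁻¹ * 2 := by rw [hM]; rfl
  have h11 : M 1 1 = t⁻¹ * a := by rw [hM]; rfl
  have hMM : M * M = -1 := by
    have e00 : (M * M) 0 0 = -1 := by
      rw [Matrix.mul_apply, Fin.sum_univ_two, h00, h01, h10]
      linear_combination (-1 : F) * ht2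
    have e01 : (M * M) 0 1 = 0 := by
      rw [Matrix.mul_apply, Fin.sum_univ_two, h00, h01, h11]
      ring
    have e10 : (M * M) 1 0 = 0 := by
      rw [Matrix.mul_apply, Fin.sum_univ_two, h00, h10, h11]
      ring
    have e11 : (M * M) 1 1 = -1 := by
      rw [Matrix.mul_apply, Fin.sum_univ_two, h01, h10, h11]
      linear_combination (-1 : F) * ht2
    ext i j
    fin_cases i <;> fin_cases j
    · exact e00.trans (by simp)
    · exact e01.trans (by simp)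
    · exact e10.trans (by simp)
    · exact e11.trans (by simp)
  obtain ⟨X₀, hX₀, hX₀2⟩ := Cfsg.Agent.Lib.Helper42.Pi.exists_sq_neg_even (F := F) e he
  obtain ⟨A, hA⟩ : ∃ A : Matrix (Fin e ⊕ Fin e) (Fin e ⊕ Fin e) F,
      A = (X₀ : Matrix (Fin e ⊕ Fin e) (Fin e ⊕ Fin e) F) := ⟨_, rfl⟩
  rw [← hA] at hX₀ hX₀2
  have hxx : Matrix.fromBlocks A 0 0 M * Matrix.fromBlocks A 0 0 M
      = (-1 : Matrix ((Fin e ⊕ Fin e) ⊕ Fin 2) ((Fin e ⊕ Fin e) ⊕ Fin 2) F) := by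
    rw [Matrix.fromBlocks_multiply, ← Matrix.fromBlocks_one, Matrix.fromBlocks_neg]
    simp [hX₀2, hMM]
  refine ⟨⟨Matrix.fromBlocks A 0 0 M, -Matrix.fromBlocks A 0 0 M, ?_, ?_⟩, ?_, hxx⟩
  · rw [mul_neg, hxx, neg_neg]
  · rw [neg_mul, hxx, neg_neg]
  · intro v
    show Cfsg.quadFormMinus e F a b (Matrix.fromBlocks A 0 0 M *ᵥ v) = Cfsg.quadFormMinus e F a b v
    unfold Cfsg.quadFormMinus
    rw [Matrix.fromBlocks_mulVec]
    simp only [Sum.elim_inl, Sum.elim_inr, Matrix.zero_mulVec, add_zero, zero_add]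
    have h3 : ∑ i : Fin e, (A *ᵥ (v ∘ Sum.inl)) (Sum.inl i) * (A *ᵥ (v ∘ Sum.inl)) (Sum.inr i)
        = ∑ i : Fin e, v (Sum.inl (Sum.inl i)) * v (Sum.inl (Sum.inr i)) := hX₀ (v ∘ Sum.inl)
    have hv0 : (M *ᵥ (v ∘ Sum.inr)) 0
        = t⁻¹ * (-a) * v (Sum.inr 0) + t⁻¹ * (-(2 * b)) * v (Sum.inr 1) := by
      simp only [Matrix.mulVec, dotProduct, Fin.sum_univ_two, h00, h01, Function.comp_apply]
    have hv1 : (M *ᵥ (v ∘ Sum.inr)) 1
        = t⁻¹ * 2 * v (Sum.inr 0) + t⁻¹ * a * v (Sum.inr 1) := by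
      simp only [Matrix.mulVec, dotProduct, Fin.sum_univ_two, h10, h11, Function.comp_apply]
    rw [h3, hv0, hv1]
    linear_combination
      (v (Sum.inr 0) ^ 2 + a * v (Sum.inr 0) * v (Sum.inr 1) + b * v (Sum.inr 1) ^ 2) * ht2

end Cfsg.Agent.Lib.Helper85.Pm
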