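import Mathlib
import Cfsg.Prelude.Def_Blocks
import Cfsg.Agent.Lib.Helper81.BlockNormal
import Cfsg.Agent.Lib.Helper75.FrattiniAct

set_option autoImplicit false

namespace Cfsg.Agent.Lib.Helper85

open Cfsg

section Inflate

variable {G : Type*} [Group G]

/-- The preimage in `G` of the centralizer of the image of `g` in `G ⧸ N`. -/
def preCent (N : Subgroup G) [N.Normal] (g : G) : Subgroup G :=
  (Subgroup.centralizer ({(g : G ⧸ N)} : Set (G ⧸ N))).comap (QuotientGroup.mk' N)

theorem centralizer_le_preCent (N : Subgroup G) [N.Normal] (g : G) :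
    Subgroup.centralizer ({g} : Set G) ≤ preCent N g := by
  intro x hx
  unfold preCent
  rw [Subgroup.mem_comap, Subgroup.mem_centralizer_iff]
  intro y hy
  rw [Set.mem_singleton_iff] at hy
  subst hy
  have h1 := Subgroup.mem_centralizer_iff.mp hx g (Set.mem_singleton g)
  show ((g : G ⧸ N)) * ((x : G ⧸ N)) = ((x : G ⧸ N)) * ((g : G ⧸ N))
  rw [← QuotientGroup.mk_mul, ← QuotientGroup.mk_mul, h1]

/-- The central character of an inflated function, with the explicit multiplier. -/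
theorem centralChar_inflate_eq (N : Subgroup G) [N.Normal] (f : G ⧸ N → ℂ) (g : G) :
    centralChar (f ∘ (QuotientGroup.mk : G → G ⧸ N)) g =
      (((Subgroup.centralizer ({g} : Set G)).relIndex (preCent N g) : ℕ) : ℂ) *
        centralChar f (g : G ⧸ N) := by
  have hle := centralizer_le_preCent N g
  have hidx : (preCent N g).index =
      (Subgroup.centralizer ({(g : G ⧸ N)} : Set (G ⧸ N))).index :=
    Subgroup.index_comap_of_surjective _ (QuotientGroup.mk'_surjective N)
  unfold centralChar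
  rw [← Subgroup.relIndex_mul_index hle, hidx]
  simp only [Function.comp_apply, QuotientGroup.mk_one]
  push_cast
  ring

/-- For a `p`-regular element `x` centralizing the normal `p`-subgroup `N`, the centralizer of
the image of `x` in `G ⧸ N` is the image of the centralizer of `x`. -/
theorem preCent_le_centralizer (p : ℕ) [Fact p.Prime] (N : Subgroup G) [N.Normal]
    (hN : IsPGroup p N) (x : G) (hx0 : 0 < orderOf x) (hx : ¬ p ∣ orderOf x)
    (hxN : x ∈ Subgroup.centralizer (N : Set G)) :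
    preCent N x ≤ Subgroup.centralizer ({x} : Set G) := by
  have hp : p.Prime := Fact.out
  intro h hh
  unfold preCent at hh
  rw [Subgroup.mem_comap, Subgroup.mem_centralizer_iff] at hh
  have h1 : ((x : G ⧸ N)) * ((h : G ⧸ N)) = ((h : G ⧸ N)) * ((x : G ⧸ N)) :=
    hh _ (Set.mem_singleton _)
  have hn : h * x * h⁻¹ * x⁻¹ ∈ N := by
    rw [← QuotientGroup.eq_one_iff]
    rw [QuotientGroup.mk_mul, QuotientGroup.mk_mul, QuotientGroup.mk_mul, ← h1,
      QuotientGroup.mk_inv, QuotientGroup.mk_inv]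
    group
  obtain ⟨n, hndef⟩ : ∃ n : G, n = h * x * h⁻¹ * x⁻¹ := ⟨_, rfl⟩
  rw [← hndef] at hn
  have hnx : n * x = x * n := Subgroup.mem_centralizer_iff.mp hxN n hn
  have e1 : h * x * h⁻¹ = n * x := by
    rw [hndef]
    group
  have e2 : (n * x) ^ orderOf x = 1 := by
    rw [← e1, conj_pow, pow_orderOf_eq_one]
    group
  have e3 : n ^ orderOf x = 1 := by
    have h3 : (n * x) ^ orderOf x = n ^ orderOf x * x ^ orderOf x :=
      Commute.mul_pow hnx (orderOf x)
    rw [h3, pow_orderOf_eq_one, mul_one] at e2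
    exact e2
  obtain ⟨k, hk⟩ := hN ⟨n, hn⟩
  have hk' : n ^ p ^ k = 1 := by
    have := congrArg (fun z : N => (z : G)) hk
    simpa using this
  have hd1 : orderOf n ∣ orderOf x := orderOf_dvd_of_pow_eq_one e3
  have hd2 : orderOf n ∣ p ^ k := orderOf_dvd_of_pow_eq_one hk'
  have hcop : Nat.Coprime (orderOf x) (p ^ k) :=
    Nat.Coprime.pow_right k ((Nat.Prime.coprime_iff_not_dvd hp).mpr hx).symm
  have hn1 : n = 1 := by
    have : orderOf n ∣ 1 := by
      rw [← Nat.Coprime.gcd_eq_one hcop]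
      exact Nat.dvd_gcd hd1 hd2
    exact orderOf_eq_one_iff.mp (Nat.dvd_one.mp this)
  rw [hn1, one_mul] at e1
  rw [Subgroup.mem_centralizer_iff]
  intro y hy
  rw [Set.mem_singleton_iff] at hy
  subst hy
  calc y * h = (h * y * h⁻¹) * h := by rw [e1]
    _ = h * y := by group

/-- Lifting a `p`-regular element of `G ⧸ N`, `N` a `p`-group, to a `p`-regular element. -/
theorem exists_pRegular_lift [Finite G] (p : ℕ) [Fact p.Prime] (N : Subgroup G) [N.Normal]
    (hN : IsPGroup p N) (y : G ⧸ N) (hy : ¬ p ∣ orderOf y) :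
    ∃ x : G, (x : G ⧸ N) = y ∧ ¬ p ∣ orderOf x := by
  have hp : p.Prime := Fact.out
  obtain ⟨g, rfl⟩ := QuotientGroup.mk_surjective y
  set n := orderOf (g : G ⧸ N) with hn
  have hn0 : 0 < n := orderOf_pos _
  have hgn : g ^ n ∈ N := by
    rw [← QuotientGroup.eq_one_iff, QuotientGroup.mk_pow, hn, pow_orderOf_eq_one]
  obtain ⟨j, hj⟩ := hN ⟨g ^ n, hgn⟩
  have hj' : (g ^ n) ^ p ^ j = 1 := by
    have := congrArg (fun z : N => (z : G)) hj
    simpa using this
  by_cases h1 : n = 1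
  · refine ⟨1, ?_, ?_⟩
    · have : (g : G ⧸ N) = 1 := orderOf_eq_one_iff.mp (hn ▸ h1)
      rw [this]
      rfl
    · rw [orderOf_one]
      exact hp.not_dvd_one
  · have hn1 : 1 < n := by omega
    have hcop : Nat.Coprime (p ^ j) n :=
      Nat.Coprime.pow_left j ((Nat.Prime.coprime_iff_not_dvd hp).mpr hy)
    obtain ⟨c, -, hc⟩ := Nat.exists_mul_mod_eq_one_of_coprime hcop hn1
    refine ⟨g ^ (p ^ j * c), ?_, ?_⟩
    · rw [QuotientGroup.mk_pow, ← pow_mod_orderOf, ← hn, hc, pow_one]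
    · have hx : (g ^ (p ^ j * c)) ^ n = 1 := by
        rw [← pow_mul, mul_comm (p ^ j * c) n, ← mul_assoc, pow_mul, pow_mul, hj', one_pow]
      intro hdvd
      exact hy (hdvd.trans (orderOf_dvd_of_pow_eq_one hx))

/-- Burnside: a `p`-regular element acting trivially on `D / D'` centralizes the normal
`p`-subgroup `D`. -/
theorem mem_centralizer_of_derived [Finite G] (p : ℕ) [Fact p.Prime] (D : Subgroup G) [D.Normal]
    (hD : IsPGroup p D) (x : G) (hx : ¬ p ∣ orderOf x)
    (h : (x : G ⧸ ⁅D, D⁆) ∈ Subgroup.centralizer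
      ((D.map (QuotientGroup.mk' ⁅D, D⁆) : Subgroup (G ⧸ ⁅D, D⁆)) : Set (G ⧸ ⁅D, D⁆))) :
    x ∈ Subgroup.centralizer (D : Set G) := by
  have hp : p.Prime := Fact.out
  have hCn : (Subgroup.centralizer (D : Set G)).Normal := Subgroup.normal_centralizer
  have hle : ⁅D, D⁆ ≤ (frattini ↥D).map D.subtype := by
    rw [← Subgroup.map_subtype_commutator]
    exact Subgroup.map_mono (Cfsg.Agent.Lib.Helper75.Fratt.commutator_le_frattini hD)
  have hm0 : orderOf x ≠ 0 := (orderOf_pos x).ne'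
  by_contra hxC
  have hne : orderOf (x : G ⧸ Subgroup.centralizer (D : Set G)) ≠ 1 := by
    intro h1
    exact hxC ((QuotientGroup.eq_one_iff x).mp (orderOf_eq_one_iff.mp h1))
  obtain ⟨q, hq, hqd⟩ := Nat.exists_prime_and_dvd hne
  have hqx : q ∣ orderOf x := hqd.trans (orderOf_dvd_of_pow_eq_one (by
    rw [← QuotientGroup.mk_pow, pow_orderOf_eq_one]
    rfl))
  have hqp : p ≠ q := by
    rintro rfl
    exact hx hqx
  have : Fact q.Prime := ⟨hq⟩
  set c := x ^ (ordCompl[q] (orderOf x)) with hc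
  have hcq : c ^ q ^ (orderOf x).factorization q = 1 := by
    rw [hc, ← pow_mul, mul_comm, Nat.ordProj_mul_ordCompl_eq_self, pow_orderOf_eq_one]
  have hcent : (c : G ⧸ ⁅D, D⁆) ∈ Subgroup.centralizer
      ((D.map (QuotientGroup.mk' ⁅D, D⁆) : Subgroup (G ⧸ ⁅D, D⁆)) : Set (G ⧸ ⁅D, D⁆)) := by
    rw [hc, QuotientGroup.mk_pow]
    exact Subgroup.pow_mem _ h _
  have hcC : c ∈ Subgroup.centralizer (D : Set G) := by
    refine Cfsg.Agent.Lib.Helper75.Fratt.mem_centralizer_of_frattini hqp D hD c _ hcq ?_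
    intro d hd
    apply hle
    rw [← QuotientGroup.eq_one_iff]
    have hdm : (d : G ⧸ ⁅D, D⁆) ∈ D.map (QuotientGroup.mk' ⁅D, D⁆) :=
      Subgroup.mem_map_of_mem _ hd
    have h2 : (d : G ⧸ ⁅D, D⁆) * (c : G ⧸ ⁅D, D⁆) = (c : G ⧸ ⁅D, D⁆) * (d : G ⧸ ⁅D, D⁆) :=
      Subgroup.mem_centralizer_iff.mp hcent _ hdm
    rw [QuotientGroup.mk_mul, QuotientGroup.mk_mul, QuotientGroup.mk_mul, ← h2,
      QuotientGroup.mk_inv, QuotientGroup.mk_inv]
    group
  have h3 : (x : G ⧸ Subgroup.centralizer (D : Set G)) ^ (ordCompl[q] (orderOf x)) = 1 := by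
    rw [← QuotientGroup.mk_pow]
    exact (QuotientGroup.eq_one_iff _).mpr hcC
  have h4 : q ∣ ordCompl[q] (orderOf x) := hqd.trans (orderOf_dvd_of_pow_eq_one h3)
  exact Nat.not_dvd_ordCompl hq hm0 h4

end Inflate

end Cfsg.Agent.Lib.Helper85
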