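import Mathlib
import Cfsg.Agent.Lib.Helper72.S3Defs

/-!
# S4305 piece REG3 (helper85): if the norm `v ↦ v * f v * f (f v)` of `f` vanishes on `V`,
then `f` centralises every abelian `f`-invariant subgroup of `MulAut V` of order prime to `|V|`
-/

set_option autoImplicit false

universe u

namespace Cfsg.Agent.Lib.Helper85.S3F

open Cfsg.Agent.Lib.Helper72.S3F

section aux

variable {V : Type u} [CommGroup V]

/-- `∏_{u ∈ R} u⁻¹ (a (u v))` -/
noncomputable def wsum (R : Subgroup (MulAut V)) [Fintype R] (a : MulAut V) (v : V) : V :=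
  ∏ u : R, (u : MulAut V)⁻¹ (a ((u : MulAut V) v))

theorem wsum_fixed (R : Subgroup (MulAut V)) [Fintype R] (hc : Comm R) (a : MulAut V)
    (ha' : ∀ x ∈ R, a⁻¹ * x * a ∈ R) (u₀ : MulAut V) (hu₀ : u₀ ∈ R) (v : V) :
    (u₀⁻¹ * (a * u₀ * a⁻¹)) (wsum R a v) = wsum R a v := by
  unfold wsum
  rw [map_prod]
  have hterm : ∀ u : R, (u₀⁻¹ * (a * u₀ * a⁻¹)) ((u : MulAut V)⁻¹ (a ((u : MulAut V) v))) =
      ((⟨u₀, hu₀⟩ * u : R) : MulAut V)⁻¹ (a (((⟨u₀, hu₀⟩ * u : R) : MulAut V) v)) := by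
    intro u
    have hy : a⁻¹ * (u : MulAut V)⁻¹ * a ∈ R := ha' _ (R.inv_mem u.2)
    have hcomm := hc u₀ hu₀ _ hy
    have hcomm2 := hc u₀ hu₀ u u.2
    have e : u₀⁻¹ * (a * u₀ * a⁻¹) * (u : MulAut V)⁻¹ * a * u = (u₀ * u)⁻¹ * a * (u₀ * u) := by
      calc u₀⁻¹ * (a * u₀ * a⁻¹) * (u : MulAut V)⁻¹ * a * u
          = u₀⁻¹ * a * (u₀ * (a⁻¹ * (u : MulAut V)⁻¹ * a)) * u := by group
        _ = u₀⁻¹ * a * ((a⁻¹ * (u : MulAut V)⁻¹ * a) * u₀) * u := by rw [hcomm]
        _ = ((u : MulAut V) * u₀)⁻¹ * a * (u₀ * u) := by group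
        _ = (u₀ * u)⁻¹ * a * (u₀ * u) := by rw [hcomm2]
    have h := congrArg (fun g : MulAut V => g v) e
    exact h
  rw [Finset.prod_congr rfl (fun u _ => hterm u)]
  exact Fintype.prod_equiv (Equiv.mulLeft (⟨u₀, hu₀⟩ : R)) _ _ (fun u => rfl)

end aux

/-- REG3 -/
theorem reg3 : Reg3Stmt.{u} := by
  intro V _ _ f R hf3 hN hc hfR hcop u hu
  classical
  haveI : Finite (MulAut V) :=
    Finite.of_injective (fun e : MulAut V => (e : V → V)) DFunLike.coe_injective
  haveI : Fintype R := Fintype.ofFinite R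
  have h3 : f * f * f = 1 := by rw [← pow_three']; exact hf3
  have hfinv : f⁻¹ = f * f := inv_eq_of_mul_eq_one_right (by rw [← mul_assoc]; exact h3)
  have hffinv : (f * f)⁻¹ = f := inv_eq_of_mul_eq_one_right h3
  -- `f⁻¹` normalises `R`
  have hf' : ∀ x ∈ R, f⁻¹ * x * f ∈ R := by
    intro x hx
    have e : f⁻¹ * x * f = f * (f * x * f⁻¹) * f⁻¹ := by
      rw [hfinv]
      calc f * f * x * f = f * f * x * f * (f * f * f) := by rw [h3, mul_one]
        _ = f * (f * x * (f * f)) * (f * f) := by simp only [mul_assoc]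
    rw [e]
    exact hfR _ (hfR x hx)
  obtain ⟨a, ha⟩ : ∃ a : MulAut V, a = f * f := ⟨_, rfl⟩
  have haa : a * a = f := by
    rw [ha]
    calc f * f * (f * f) = (f * f * f) * f := by simp only [mul_assoc]
      _ = f := by rw [h3, one_mul]
  have hainv : a⁻¹ = f := by rw [ha]; exact hffinv
  have haR : ∀ x ∈ R, a * x * a⁻¹ ∈ R := by
    intro x hx
    have e : a * x * a⁻¹ = f * (f * x * f⁻¹) * f⁻¹ := by
      rw [ha, mul_inv_rev]
      simp only [mul_assoc]
    rw [e]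
    exact hfR _ (hfR x hx)
  have haR' : ∀ x ∈ R, a⁻¹ * x * a ∈ R := by
    intro x hx
    have e : a⁻¹ * x * a = f * x * f⁻¹ := by rw [hainv, ha, hfinv]
    rw [e]
    exact hfR x hx
  -- the product formula
  have hprod : ∀ v : V, v ^ Fintype.card R * wsum R f v * wsum R a v = 1 := by
    intro v
    unfold wsum
    rw [← Finset.card_univ, ← Finset.prod_const, ← Finset.prod_mul_distrib,
      ← Finset.prod_mul_distrib]
    apply Finset.prod_eq_one
    intro w _
    have h1 := hN ((w : MulAut V) v)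
    have h2 := congrArg (fun x : V => (w : MulAut V)⁻¹ x) h1
    simp only [map_mul, map_one, MulAut.inv_apply_self] at h2
    rw [ha]
    exact h2
  -- `v ^ |R|` is fixed by `[R, f]`
  have hmem : ∀ v : V, v ^ Fintype.card R ∈ fix (cm R f) := by
    intro v
    have hv : v ^ Fintype.card R = (wsum R f v * wsum R a v)⁻¹ :=
      eq_inv_of_mul_eq_one_left (by rw [← mul_assoc]; exact hprod v)
    rw [hv, mem_fix]
    have hstab : ∀ b ∈ cm R f, b (wsum R f v) = wsum R f v ∧ b (wsum R a v) = wsum R a v := by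
      intro b hb
      unfold cm at hb
      refine Subgroup.closure_induction (p := fun x _ => x (wsum R f v) = wsum R f v ∧
        x (wsum R a v) = wsum R a v) ?_ ?_ ?_ ?_ hb
      · rintro x ⟨u₀, hu₀, rfl⟩
        refine ⟨wsum_fixed R hc f hf' u₀ hu₀ v, ?_⟩
        have e : u₀⁻¹ * (f * u₀ * f⁻¹) = (u₀⁻¹ * (a * u₀ * a⁻¹)) *
            ((a * u₀ * a⁻¹)⁻¹ * (a * (a * u₀ * a⁻¹) * a⁻¹)) := by
          rw [← haa]
          group
        rw [e]
        show (u₀⁻¹ * (a * u₀ * a⁻¹)) (((a * u₀ * a⁻¹)⁻¹ * (a * (a * u₀ * a⁻¹) * a⁻¹))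
          (wsum R a v)) = wsum R a v
        rw [wsum_fixed R hc a haR' (a * u₀ * a⁻¹) (haR u₀ hu₀) v,
          wsum_fixed R hc a haR' u₀ hu₀ v]
      · exact ⟨rfl, rfl⟩
      · intro x y _ _ hx hy
        refine ⟨?_, ?_⟩
        · show x (y (wsum R f v)) = wsum R f v
          rw [hy.1, hx.1]
        · show x (y (wsum R a v)) = wsum R a v
          rw [hy.2, hx.2]
      · intro x _ hx
        refine ⟨?_, ?_⟩
        · calc x⁻¹ (wsum R f v) = x⁻¹ (x (wsum R f v)) := by rw [hx.1]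
            _ = wsum R f v := MulAut.inv_apply_self _ _ _
        · calc x⁻¹ (wsum R a v) = x⁻¹ (x (wsum R a v)) := by rw [hx.2]
            _ = wsum R a v := MulAut.inv_apply_self _ _ _
    intro b hb
    rw [map_inv, map_mul, (hstab b hb).1, (hstab b hb).2]
  -- every `v` is fixed by `[R, f]`
  have hall : ∀ v : V, v ∈ fix (cm R f) := by
    intro v
    have hb := Nat.gcd_eq_gcd_ab (Fintype.card R) (Nat.card V)
    have hco : Nat.gcd (Fintype.card R) (Nat.card V) = 1 := by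
      rw [← Nat.card_eq_fintype_card]
      exact hcop
    rw [hco] at hb
    have h1 : v ^ (Nat.card V : ℤ) = 1 := by
      rw [zpow_natCast]
      exact pow_card_eq_one'
    have hv : v = (v ^ Fintype.card R) ^ (Nat.gcdA (Fintype.card R) (Nat.card V)) := by
      calc v = v ^ ((1 : ℕ) : ℤ) := by simp
        _ = v ^ ((Fintype.card R : ℤ) * Nat.gcdA (Fintype.card R) (Nat.card V) +
            (Nat.card V : ℤ) * Nat.gcdB (Fintype.card R) (Nat.card V)) := by rw [hb]
        _ = (v ^ Fintype.card R) ^ (Nat.gcdA (Fintype.card R) (Nat.card V)) *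
            (v ^ (Nat.card V : ℤ)) ^ (Nat.gcdB (Fintype.card R) (Nat.card V)) := by
          rw [zpow_add, zpow_mul, zpow_mul, zpow_natCast]
        _ = _ := by rw [h1, one_zpow, mul_one]
    rw [hv]
    exact (fix (cm R f)).zpow_mem (hmem v) _
  have hg : u⁻¹ * (f * u * f⁻¹) ∈ cm R f := Subgroup.subset_closure ⟨u, hu, rfl⟩
  have h1 : u⁻¹ * (f * u * f⁻¹) = 1 := by
    apply MulEquiv.ext
    intro v
    exact hall v _ hg
  exact (inv_mul_eq_one.1 h1).symm

end Cfsg.Agent.Lib.Helper85.S3F
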