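import Mathlib
import Cfsg.Prelude.Def_GeometricClasses
import Cfsg.Agent.Lib.Helper98.SympM2
import Cfsg.Agent.Lib.Helper14.SMCONJ
import Cfsg.Agent.Lib.Helper17.SMTV

/-!
# S6002 round 2, piece SM-FWD1 (helper85, for helper98)

Elements of order `p` (transvections) and of prime order at least seven of `Sp_4(F)` are not all
conjugate into the normaliser of `R = 2^{1+4}_-`.
-/

set_option autoImplicit false

namespace Cfsg.Agent.Lib.Helper98.SM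

open Matrix Polynomial

section FWD1

variable {F : Type*} [Field F]

theorem fwd1_conj_rank_one (G Gi N : Matrix (Fin 2 ⊕ Fin 2) (Fin 2 ⊕ Fin 2) F)
    (hN : ∀ M : Matrix (Fin 2 ⊕ Fin 2) (Fin 2 ⊕ Fin 2) F, N * M * N = (M * N).trace • N)
    (M : Matrix (Fin 2 ⊕ Fin 2) (Fin 2 ⊕ Fin 2) F) :
    (Gi * N * G) * M * (Gi * N * G) = (M * (Gi * N * G)).trace • (Gi * N * G) := by
  have e1 : (Gi * N * G) * M * (Gi * N * G) = Gi * (N * (G * M * Gi) * N) * G := by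
    simp only [Matrix.mul_assoc]
  have e2 : (M * (Gi * N * G)).trace = ((G * M * Gi) * N).trace := by
    have e3 : M * (Gi * N * G) = (M * Gi * N) * G := by simp only [Matrix.mul_assoc]
    rw [e3, Matrix.trace_mul_comm]
    congr 1
    simp only [Matrix.mul_assoc]
  rw [e1, hN, e2, Matrix.mul_smul, Matrix.smul_mul]

theorem fwd1_conj_sq_zero (G Gi N : Matrix (Fin 2 ⊕ Fin 2) (Fin 2 ⊕ Fin 2) F) (h1 : G * Gi = 1)
    (hN : N * N = 0) : (Gi * N * G) * (Gi * N * G) = 0 := by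
  have e1 : (Gi * N * G) * (Gi * N * G) = Gi * (N * (G * Gi) * N) * G := by
    simp only [Matrix.mul_assoc]
  rw [e1, h1, Matrix.mul_one, hN, Matrix.mul_zero, Matrix.zero_mul]

theorem fwd1_conj_scalar (g x : GL (Fin 2 ⊕ Fin 2) F) (l : F)
    (h : ((g⁻¹ * x * g : GL (Fin 2 ⊕ Fin 2) F) : Matrix (Fin 2 ⊕ Fin 2) (Fin 2 ⊕ Fin 2) F)
      = l • (1 : Matrix (Fin 2 ⊕ Fin 2) (Fin 2 ⊕ Fin 2) F)) :
    (x : Matrix (Fin 2 ⊕ Fin 2) (Fin 2 ⊕ Fin 2) F)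
      = l • (1 : Matrix (Fin 2 ⊕ Fin 2) (Fin 2 ⊕ Fin 2) F) := by
  have e : x = g * (g⁻¹ * x * g) * g⁻¹ := by group
  rw [e, Units.val_mul, Units.val_mul, h, Matrix.mul_smul, Matrix.mul_one, Matrix.smul_mul,
    Units.mul_inv]

theorem fwd1_conj_pow (g x : GL (Fin 2 ⊕ Fin 2) F) (k : ℕ) :
    (g⁻¹ * x * g) ^ k = g⁻¹ * x ^ k * g := by
  have h := @conj_pow (GL (Fin 2 ⊕ Fin 2) F) _ k g⁻¹ x
  rw [inv_inv] at h
  exact h

/-- elements of order `p`: symplectic transvections -/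
theorem fwd_unip {F : Type*} [Field F] {R : Subgroup (GL (Fin 2 ⊕ Fin 2) F)} (hG : GoodM R)
    (p : ℕ) [Fact p.Prime] [CharP F p] (hodd : Odd p) (hall : AllFixM R p) : False := by
  obtain ⟨x, hx1, hN0, hrk0, hns, hxp'⟩ := exists_sp_transv (F := F)
  have hxp : x ^ p = 1 := hxp' p
  obtain ⟨g, _, hg⟩ := hall x hx1 ⟨1, by rw [hxp, Units.val_one, one_smul]⟩ hns
  have hyp : (g⁻¹ * x * g) ^ p = 1 := by
    rw [fwd1_conj_pow, hxp, mul_one, inv_mul_cancel]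
  have e : ((g⁻¹ * x * g : GL (Fin 2 ⊕ Fin 2) F) : Matrix (Fin 2 ⊕ Fin 2) (Fin 2 ⊕ Fin 2) F) - 1
      = ((g⁻¹ : GL (Fin 2 ⊕ Fin 2) F) : Matrix (Fin 2 ⊕ Fin 2) (Fin 2 ⊕ Fin 2) F)
        * ((x : Matrix (Fin 2 ⊕ Fin 2) (Fin 2 ⊕ Fin 2) F) - 1)
        * (g : Matrix (Fin 2 ⊕ Fin 2) (Fin 2 ⊕ Fin 2) F) := by
    rw [Units.val_mul, Units.val_mul, Matrix.mul_sub, Matrix.sub_mul, Matrix.mul_one,
      Units.inv_mul]
  have hN : (((g⁻¹ * x * g : GL (Fin 2 ⊕ Fin 2) F) :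
        Matrix (Fin 2 ⊕ Fin 2) (Fin 2 ⊕ Fin 2) F) - 1)
      * (((g⁻¹ * x * g : GL (Fin 2 ⊕ Fin 2) F) :
        Matrix (Fin 2 ⊕ Fin 2) (Fin 2 ⊕ Fin 2) F) - 1) = 0 := by
    rw [e]
    exact fwd1_conj_sq_zero _ _ _ (Units.mul_inv g) hN0
  have hrk : ∀ M : Matrix (Fin 2 ⊕ Fin 2) (Fin 2 ⊕ Fin 2) F,
      (((g⁻¹ * x * g : GL (Fin 2 ⊕ Fin 2) F) : Matrix (Fin 2 ⊕ Fin 2) (Fin 2 ⊕ Fin 2) F) - 1) * M
        * (((g⁻¹ * x * g : GL (Fin 2 ⊕ Fin 2) F) :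
          Matrix (Fin 2 ⊕ Fin 2) (Fin 2 ⊕ Fin 2) F) - 1)
      = (M * (((g⁻¹ * x * g : GL (Fin 2 ⊕ Fin 2) F) :
          Matrix (Fin 2 ⊕ Fin 2) (Fin 2 ⊕ Fin 2) F) - 1)).trace
        • (((g⁻¹ * x * g : GL (Fin 2 ⊕ Fin 2) F) :
          Matrix (Fin 2 ⊕ Fin 2) (Fin 2 ⊕ Fin 2) F) - 1) := by
    intro M
    rw [e]
    exact fwd1_conj_rank_one _ _ _ hrk0 M
  obtain ⟨l, hl⟩ := hG.no_transv _ hg hN hrk p hodd hyp
  exact hns l (fwd1_conj_scalar g _ l hl)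

/-- primes at least seven -/
theorem fwd_large {F : Type*} [Field F] [Fintype F] {R : Subgroup (GL (Fin 2 ⊕ Fin 2) F)}
    (hG : GoodM R) (r : ℕ) [Fact r.Prime] (hr7 : 7 ≤ r)
    (hdvd : r ∣ Nat.card (Cfsg.spGL 2 F)) (hall : AllFixM R r) : False := by
  obtain ⟨x₀, hx₀⟩ :=
    exists_prime_orderOf_dvd_card'
      (G := (Cfsg.spGL 2 F : Subgroup (GL (Fin 2 ⊕ Fin 2) F))) r hdvd
  have hx1 : (x₀ : GL (Fin 2 ⊕ Fin 2) F) ∈ Cfsg.spGL 2 F := x₀.2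
  have hxr : (x₀ : GL (Fin 2 ⊕ Fin 2) F) ^ r = 1 := by
    rw [← Subgroup.coe_pow, ← hx₀, pow_orderOf_eq_one, Subgroup.coe_one]
  have hns : ∀ z : F, ((x₀ : GL (Fin 2 ⊕ Fin 2) F) : Matrix (Fin 2 ⊕ Fin 2) (Fin 2 ⊕ Fin 2) F)
      ≠ z • (1 : Matrix (Fin 2 ⊕ Fin 2) (Fin 2 ⊕ Fin 2) F) := by
    intro z h
    have hzz := sp_scalar_sq _ hx1 z h
    have h2 : (x₀ : GL (Fin 2 ⊕ Fin 2) F) ^ 2 = 1 := by
      apply Units.ext
      rw [Units.val_pow_eq_pow_val, h, _root_.smul_pow, one_pow, pow_two, hzz, one_smul,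
        Units.val_one]
    have ho : orderOf (x₀ : GL (Fin 2 ⊕ Fin 2) F) = r := by rw [Subgroup.orderOf_coe, hx₀]
    have hd : orderOf (x₀ : GL (Fin 2 ⊕ Fin 2) F) ∣ 2 := orderOf_dvd_of_pow_eq_one h2
    rw [ho] at hd
    have hle : r ≤ 2 := Nat.le_of_dvd (by norm_num) hd
    omega
  obtain ⟨g, _, hg⟩ := hall _ hx1 ⟨1, by rw [hxr, Units.val_one, one_smul]⟩ hns
  have hyr : (g⁻¹ * (x₀ : GL (Fin 2 ⊕ Fin 2) F) * g) ^ r = 1 := by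
    rw [fwd1_conj_pow, hxr, mul_one, inv_mul_cancel]
  obtain ⟨l, hl⟩ := hG.no_large _ hg r hr7 hyr
  exact hns l (fwd1_conj_scalar g _ l hl)

end FWD1

end Cfsg.Agent.Lib.Helper98.SM
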