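import Mathlib
import Cfsg.Prelude.Def_GeometricClasses
import Cfsg.Agent.Lib.Helper71.SpK0

/-!
# S5664 project, piece J12 (helper85 for helper71)

`exists_InS_of_SP`: if all Siegel elements `x ↦ x + σ (f(x,y') y + f(x,y) y')` with `y, y'` on
an `L`-line lie in `M ≥ NG`, then `M` contains all symplectic transvections with some centre
`v ≠ 0`.  In characteristic 2 this uses a `β`-dual basis of `L`.
-/

set_option autoImplicit false

namespace Cfsg.Agent.Lib.Helper85.SpJ12

open Matrix Cfsg.Agent.Lib.Helper71.SpK Cfsg.Agent.Lib.Helper97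

variable {ι : Type} [Fintype ι] [DecidableEq ι] {F : Type*} [Field F]

/-- Regrouping a double sum with vanishing diagonal over the pairs `i < j`. -/
lemma sum_offdiag {r : ℕ} {A : Type*} [AddCommMonoid A] (t : Fin r → Fin r → A)
    (ht : ∀ i, t i i = 0) :
    ∑ i, ∑ j, t i j = ∑ i, ∑ j, if i < j then (t j i + t i j) else 0 := by
  have h1 : ∀ i j, t i j = (if i < j then t i j else 0) + (if j < i then t i j else 0) := by
    intro i j
    rcases lt_trichotomy i j with h | h | h
    · rw [if_pos h, if_neg (lt_asymm h), add_zero]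
    · subst h
      rw [if_neg (lt_irrefl _), add_zero, ht]
    · rw [if_neg (lt_asymm h), if_pos h, zero_add]
  calc ∑ i, ∑ j, t i j
      = ∑ i, ∑ j, ((if i < j then t i j else 0) + (if j < i then t i j else 0)) :=
        Finset.sum_congr rfl fun i _ => Finset.sum_congr rfl fun j _ => h1 i j
    _ = ∑ i, ∑ j, (if i < j then t i j else 0) + ∑ i, ∑ j, (if j < i then t i j else 0) := by
        simp only [Finset.sum_add_distrib]
    _ = ∑ i, ∑ j, (if i < j then t i j else 0) + ∑ i, ∑ j, (if i < j then t j i else 0) := by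
        congr 1
        exact Finset.sum_comm
    _ = ∑ i, ∑ j, if i < j then (t j i + t i j) else 0 := by
        rw [← Finset.sum_add_distrib]
        refine Finset.sum_congr rfl fun i _ => ?_
        rw [← Finset.sum_add_distrib]
        refine Finset.sum_congr rfl fun j _ => ?_
        split_ifs
        · rw [add_comm]
        · rw [add_zero]

lemma f_sum_right {f : (ι → F) → (ι → F) → F} (hf : Cfsg.Geo.IsBilinearForm f) (x : ι → F)
    {κ : Type*} (s : Finset κ) (c : κ → F) (w : κ → ι → F) :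
    f x (∑ i ∈ s, c i • w i) = ∑ i ∈ s, c i * f x (w i) := by
  classical
  induction s using Finset.induction_on with
  | empty =>
    rw [Finset.sum_empty, Finset.sum_empty]
    have h := hf.smul_right 0 x 0
    rw [zero_smul, zero_mul] at h
    exact h
  | insert a s ha ih =>
    rw [Finset.sum_insert ha, Finset.sum_insert ha, hf.add_right, hf.smul_right, ih]

/-- Increments `E` with `1 + E ∈ M`, killing `W` and with image in `W`. -/
def AA (M : Subgroup (GL ι F)) (W : Submodule F (ι → F)) (E : (ι → F) → (ι → F)) : Prop :=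
  (∃ g ∈ M, ∀ x : ι → F, (g : Matrix ι ι F) *ᵥ x = x + E x) ∧ (∀ y ∈ W, E y = 0) ∧
    (∀ x, E x ∈ W)

lemma AA_zero (M : Subgroup (GL ι F)) (W : Submodule F (ι → F)) : AA M W (fun _ => 0) :=
  ⟨⟨1, M.one_mem, fun x => by rw [gl_one_mulVec, add_zero]⟩, fun _ _ => rfl, fun _ => W.zero_mem⟩

lemma AA_add {M : Subgroup (GL ι F)} {W : Submodule F (ι → F)} {E₁ E₂ : (ι → F) → (ι → F)}
    (h₁ : AA M W E₁) (h₂ : AA M W E₂) : AA M W (fun x => E₁ x + E₂ x) := by
  obtain ⟨⟨g₁, hg₁, hx₁⟩, hk₁, hi₁⟩ := h₁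
  obtain ⟨⟨g₂, hg₂, hx₂⟩, hk₂, hi₂⟩ := h₂
  refine ⟨⟨g₁ * g₂, M.mul_mem hg₁ hg₂, fun x => ?_⟩, fun y hy => ?_,
    fun x => W.add_mem (hi₁ x) (hi₂ x)⟩
  · show ((g₁ * g₂ : GL ι F) : Matrix ι ι F) *ᵥ x = x + (E₁ x + E₂ x)
    rw [gl_mul_mulVec, hx₂, Matrix.mulVec_add, hx₁, hx₁, hk₁ _ (hi₂ x), add_zero, add_assoc]
  · show E₁ y + E₂ y = 0
    rw [hk₁ y hy, hk₂ y hy, add_zero]

lemma AA_sum {M : Subgroup (GL ι F)} {W : Submodule F (ι → F)} {κ : Type*} (s : Finset κ)
    (E : κ → (ι → F) → (ι → F)) (h : ∀ i ∈ s, AA M W (E i)) :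
    AA M W (fun x => ∑ i ∈ s, E i x) := by
  classical
  induction s using Finset.induction_on with
  | empty =>
    simp only [Finset.sum_empty]
    exact AA_zero M W
  | insert a s ha ih =>
    have h1 := AA_add (h a (Finset.mem_insert_self a s))
      (ih (fun i hi => h i (Finset.mem_insert_of_mem hi)))
    have h2 : (fun x => ∑ i ∈ insert a s, E i x) = (fun x => E a x + ∑ i ∈ s, E i x) := by
      funext x
      rw [Finset.sum_insert ha]
    rw [h2]
    exact h1

variable {f : (ι → F) → (ι → F) → F} {L : Type*} [Field L] [Algebra F L]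

lemma key (S : KS f L) (hf : Cfsg.Geo.IsSymplecticForm f) (h2 : (2 : F) = 0)
    (M : Subgroup (GL ι F)) (hNM : S.NG ≤ M) {u : ι → F} {σ : F} (hσ : σ ≠ 0)
    (hSP : ∀ y ∈ S.line u, ∀ y' ∈ S.line u, SP f M σ y y')
    {r : ℕ} (b : Module.Basis (Fin r) F L) (bs : Fin r → L)
    (hbs : ∀ j l, b.coord j l = S.β (bs j * l)) (a : L) (s : Fin r → F)
    (hs : ∀ i, s i * s i = S.β (a * bs i * bs i)) :
    ∃ g ∈ M, ∀ x : ι → F, (g : Matrix ι ι F) *ᵥ x =
      x + f x (∑ i, s i • (S.φ (b i) *ᵥ u)) • (∑ i, s i • (S.φ (b i) *ᵥ u)) := by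
  classical
  obtain ⟨e, he⟩ : ∃ e : Fin r → ι → F, ∀ i, e i = S.φ (b i) *ᵥ u := ⟨_, fun _ => rfl⟩
  simp only [← he]
  have heW : ∀ i, e i ∈ S.line u := fun i => by
    rw [he i]
    exact S.act_mem_line (b i) u
  have hact : ∀ l, S.actL u l = S.φ l *ᵥ u := fun _ => rfl
  -- expansion in the basis
  have hexp : ∀ l : L, l = ∑ j, S.β (bs j * l) • b j := fun l => by
    conv_lhs => rw [← b.sum_repr l]
    refine Finset.sum_congr rfl fun j _ => ?_
    rw [← hbs j l, Module.Basis.coord_apply]
  -- member 1: the L-transvection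
  have hA1 : AA M (S.line u) (fun x => S.φ (a * S.B x u) *ᵥ u) := by
    refine ⟨⟨S.T u a, hNM (S.T_mem_NG u a), fun x => S.T_mulVec u a x⟩, fun y hy => ?_,
      fun x => S.act_mem_line _ u⟩
    show S.φ (a * S.B y u) *ᵥ u = 0
    rw [S.B_line hy, mul_zero, S.φ_zero_mulVec]
  -- member 2: the Siegel elements
  have hA2 : ∀ (c : F) (i j : Fin r),
      AA M (S.line u) (fun x => c • (f x (e j) • e i + f x (e i) • e j)) := by
    intro c i j
    obtain ⟨g, hg, hgx⟩ := hSP ((c / σ) • e i) ((S.line u).smul_mem _ (heW i)) (e j) (heW j)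
    refine ⟨⟨g, hg, fun x => ?_⟩, fun y hy => ?_, fun x => ?_⟩
    · show (g : Matrix ι ι F) *ᵥ x = x + c • (f x (e j) • e i + f x (e i) • e j)
      have e1 : σ * (f x (e j) * (c / σ)) = c * f x (e j) := by field_simp
      have e2 : σ * (c / σ * f x (e i)) = c * f x (e i) := by field_simp
      rw [hgx, hf.bilinear.smul_right]
      simp only [smul_add, smul_smul]
      rw [e1, e2]
    · show c • (f y (e j) • e i + f y (e i) • e j) = 0
      rw [S.f_line_line hy (heW j), S.f_line_line hy (heW i), zero_smul, zero_smul, add_zero,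
        smul_zero]
    · exact (S.line u).smul_mem _
        ((S.line u).add_mem ((S.line u).smul_mem _ (heW i)) ((S.line u).smul_mem _ (heW j)))
  -- expansion of the L-transvection
  have hAexp : ∀ x, S.φ (a * S.B x u) *ᵥ u =
      ∑ j, (∑ i, S.β (a * bs i * bs j) * f x (e i)) • e j := by
    intro x
    have h1 : ∀ j, S.β (bs j * (a * S.B x u)) = ∑ i, S.β (a * bs i * bs j) * f x (e i) := by
      intro j
      have h3 : bs j * (a * S.B x u) = ∑ i, S.β (a * bs i * bs j) • (b i * S.B x u) := by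
        have h4 : a * bs j = ∑ i, S.β (a * bs i * bs j) • b i := by
          conv_lhs => rw [hexp (a * bs j)]
          refine Finset.sum_congr rfl fun i _ => ?_
          rw [show bs i * (a * bs j) = a * bs i * bs j by ring]
        calc bs j * (a * S.B x u) = (a * bs j) * S.B x u := by ring
          _ = (∑ i, S.β (a * bs i * bs j) • b i) * S.B x u := by rw [← h4]
          _ = ∑ i, S.β (a * bs i * bs j) • (b i * S.B x u) := by
              rw [Finset.sum_mul]
              refine Finset.sum_congr rfl fun i _ => ?_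
              rw [smul_mul_assoc]
      rw [h3, map_sum]
      refine Finset.sum_congr rfl fun i _ => ?_
      rw [map_smul, smul_eq_mul, he i, S.f_act_right]
    rw [← hact]
    conv_lhs => rw [hexp (a * S.B x u)]
    rw [map_sum]
    refine Finset.sum_congr rfl fun j _ => ?_
    rw [map_smul, h1 j, he j, hact]
  -- expansion of the symplectic transvection
  have hBexp : ∀ x, f x (∑ i, s i • e i) • (∑ i, s i • e i) =
      ∑ j, (∑ i, s i * s j * f x (e i)) • e j := by
    intro x
    rw [f_sum_right hf.bilinear, Finset.smul_sum]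
    refine Finset.sum_congr rfl fun j _ => ?_
    rw [smul_smul, Finset.sum_mul]
    congr 1
    refine Finset.sum_congr rfl fun i _ => ?_
    ring
  have hsum : ∀ x, S.φ (a * S.B x u) *ᵥ u + f x (∑ i, s i • e i) • (∑ i, s i • e i) =
      ∑ i, ∑ j, if i < j then
        (S.β (a * bs i * bs j) + s i * s j) • (f x (e j) • e i + f x (e i) • e j) else 0 := by
    intro x
    rw [hAexp x, hBexp x, ← Finset.sum_add_distrib]
    have h6 : ∀ j, (∑ i, S.β (a * bs i * bs j) * f x (e i)) • e j +
        (∑ i, s i * s j * f x (e i)) • e j =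
        ∑ i, ((S.β (a * bs i * bs j) + s i * s j) * f x (e i)) • e j := by
      intro j
      rw [← add_smul, ← Finset.sum_add_distrib, Finset.sum_smul]
      refine Finset.sum_congr rfl fun i _ => ?_
      rw [add_mul]
    simp only [h6]
    rw [Finset.sum_comm]
    rw [sum_offdiag (fun i j => ((S.β (a * bs i * bs j) + s i * s j) * f x (e i)) • e j)]
    · refine Finset.sum_congr rfl fun i _ => Finset.sum_congr rfl fun j _ => ?_
      split_ifs with hij
      · have h7 : S.β (a * bs j * bs i) = S.β (a * bs i * bs j) := by rw [mul_right_comm]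
        rw [h7, mul_comm (s j) (s i), smul_add, smul_smul, smul_smul]
      · rfl
    · intro i
      show ((S.β (a * bs i * bs i) + s i * s i) * f x (e i)) • e i = 0
      rw [hs i, ← two_mul, h2, zero_mul, zero_mul, zero_smul]
  have hT : AA M (S.line u) (fun x => ∑ i, ∑ j, if i < j then
        (S.β (a * bs i * bs j) + s i * s j) • (f x (e j) • e i + f x (e i) • e j) else 0) := by
    refine AA_sum _ _ fun i _ => ?_
    refine AA_sum _ _ fun j _ => ?_
    by_cases hij : i < j
    · simp only [if_pos hij]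
      exact hA2 _ i j
    · simp only [if_neg hij]
      exact AA_zero M (S.line u)
  obtain ⟨⟨g, hg, hgx⟩, -, -⟩ := AA_add hA1 hT
  refine ⟨g, hg, fun x => ?_⟩
  have hgx' : (g : Matrix ι ι F) *ᵥ x = x + (S.φ (a * S.B x u) *ᵥ u + ∑ i, ∑ j, if i < j then
        (S.β (a * bs i * bs j) + s i * s j) • (f x (e j) • e i + f x (e i) • e j) else 0) :=
    hgx x
  rw [hgx', ← hsum x, ← add_assoc (S.φ (a * S.B x u) *ᵥ u),
    ← two_smul F (S.φ (a * S.B x u) *ᵥ u), h2, zero_smul, zero_add]

theorem exists_InS_of_SP (S : KS f L) (hf : Cfsg.Geo.IsSymplecticForm f) [FiniteDimensional F L]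
    [Finite F] (M : Subgroup (GL ι F)) (hNM : S.NG ≤ M) {u : ι → F} (hu : u ≠ 0) {σ : F}
    (hσ : σ ≠ 0) (hSP : ∀ y ∈ S.line u, ∀ y' ∈ S.line u, SP f M σ y y') :
    ∃ v : ι → F, v ≠ 0 ∧ InS f M v := by
  classical
  by_cases h2 : (2 : F) = 0
  swap
  · refine ⟨u, hu, InS_of_exists hf fun a => ?_⟩
    obtain ⟨g, hg, hgx⟩ := hSP u (S.self_mem_line u) ((a / (2 * σ)) • u)
      ((S.line u).smul_mem _ (S.self_mem_line u))
    refine ⟨g, hg, fun x => ?_⟩
    have h4 : σ * (a / (2 * σ) * f x u + f x u * (a / (2 * σ))) = a * f x u := by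
      field_simp
      ring
    rw [hgx, hf.bilinear.smul_right]
    congr 1
    rw [smul_smul, ← add_smul, smul_smul, h4]
  · -- characteristic 2
    have hsq : ∀ c : F, ∃ t : F, t * t = c := by
      have hinj : Function.Injective (fun t : F => t * t) := by
        intro x y hxy
        have hxy' : x * x = y * y := hxy
        have h1 : (x - y) * (x - y) = 0 := by
          have h3 : (x - y) * (x - y) = x * x + y * y - 2 * (x * y) := by ring
          rw [h3, h2, zero_mul, sub_zero, hxy', ← two_mul, h2, zero_mul]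
        exact sub_eq_zero.mp (mul_self_eq_zero.mp h1)
      intro c
      exact (Finite.injective_iff_surjective.mp hinj) c
    let b : Module.Basis (Fin (Module.finrank F L)) F L := Module.finBasis F L
    obtain ⟨j₀⟩ := b.index_nonempty
    choose bs hbs using fun j => S.β_repr (b.coord j)
    have hbs0 : bs j₀ ≠ 0 := by
      intro h0
      have h1 := hbs j₀ (b j₀)
      rw [h0, zero_mul, map_zero, Module.Basis.coord_apply, Module.Basis.repr_self,
        Finsupp.single_eq_same] at h1
      exact one_ne_zero h1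
    obtain ⟨a₀, ha₀⟩ := S.exists_β_eq (mul_ne_zero hbs0 hbs0) 1
    choose s₀ hs₀ using fun i => hsq (S.β (a₀ * bs i * bs i))
    have hs₀0 : s₀ j₀ ≠ 0 := by
      intro h0
      have h1 := hs₀ j₀
      rw [h0, mul_zero, mul_assoc, ha₀] at h1
      exact zero_ne_one h1
    have hact : ∀ l, S.actL u l = S.φ l *ᵥ u := fun _ => rfl
    refine ⟨∑ i, s₀ i • (S.φ (b i) *ᵥ u), ?_, InS_of_exists hf fun c => ?_⟩
    · intro h0
      have h1 : S.actL u (∑ i, s₀ i • b i) = S.actL u 0 := by
        rw [map_sum, map_zero, ← h0]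
        refine Finset.sum_congr rfl fun i _ => ?_
        rw [map_smul, hact]
      have h3 := S.actL_injective hu h1
      exact hs₀0 (Fintype.linearIndependent_iff.mp b.linearIndependent s₀ h3 j₀)
    · obtain ⟨t, ht⟩ := hsq c
      obtain ⟨g, hg, hgx⟩ := key S hf h2 M hNM hσ hSP b bs hbs (algebraMap F L c * a₀)
        (fun i => t * s₀ i) (fun i => by
          show t * s₀ i * (t * s₀ i) = S.β (algebraMap F L c * a₀ * bs i * bs i)
          have h1 : algebraMap F L c * a₀ * bs i * bs i = c • (a₀ * bs i * bs i) := by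
            rw [Algebra.smul_def]; ring
          rw [h1, map_smul, smul_eq_mul, ← hs₀ i, ← ht]
          ring)
      refine ⟨g, hg, fun x => ?_⟩
      have hv : ∑ i, (t * s₀ i) • (S.φ (b i) *ᵥ u) = t • ∑ i, s₀ i • (S.φ (b i) *ᵥ u) := by
        rw [Finset.smul_sum]
        refine Finset.sum_congr rfl fun i _ => ?_
        rw [smul_smul]
      have hgx' : (g : Matrix ι ι F) *ᵥ x = x + f x (∑ i, (t * s₀ i) • (S.φ (b i) *ᵥ u)) •
          (∑ i, (t * s₀ i) • (S.φ (b i) *ᵥ u)) := hgx x
      rw [hgx', hv, hf.bilinear.smul_right, smul_smul, ← ht]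
      congr 2
      ring

end Cfsg.Agent.Lib.Helper85.SpJ12
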