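import Mathlib
import Cfsg.Agent.Lib.Helper91.SuU

/-!
# S5172 piece EP2: `P` is normal in `U` and self-centralizing in `U` (even unitary case)
-/

set_option autoImplicit false

namespace Cfsg.Agent.Lib.Helper85.SuEP2

open Matrix Cfsg.Agent.Lib.Helper91.SpU Cfsg.Agent.Lib.Helper91.SuU

/-- block shape of an element with `InU` -/
theorem mat_of_inU (l : ℕ) (K : Type*) [Field K] (σ : K →+* K) (g : GU l K σ)
    (hg : InU l K σ g) :
    mat l K σ g = fromBlocks (mat l K σ g).toBlocks₁₁ (mat l K σ g).toBlocks₁₂ 0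
      (mat l K σ g).toBlocks₂₂ := by
  have h := Matrix.fromBlocks_toBlocks (mat l K σ g)
  rw [hg.1] at h
  exact h.symm

/-- `Dᵀ * σ(A) = 1` for an element with `InU` -/
theorem transpose_mul_of_inU (l : ℕ) (K : Type*) [Field K] (σ : K →+* K) (g : GU l K σ)
    (hg : InU l K σ g) :
    (mat l K σ g).toBlocks₂₂ᵀ * (mat l K σ g).toBlocks₁₁.map σ = 1 := by
  have h := mat_mem l K σ g
  obtain ⟨A, hA⟩ : ∃ A, A = (mat l K σ g).toBlocks₁₁ := ⟨_, rfl⟩
  obtain ⟨B, hB⟩ : ∃ B, B = (mat l K σ g).toBlocks₁₂ := ⟨_, rfl⟩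
  obtain ⟨D, hD⟩ : ∃ D, D = (mat l K σ g).toBlocks₂₂ := ⟨_, rfl⟩
  have hm : mat l K σ g = fromBlocks A B 0 D := by
    rw [hA, hB, hD]
    exact mat_of_inU l K σ g hg
  rw [← hA, ← hD]
  rw [hm, Matrix.fromBlocks_transpose, Matrix.fromBlocks_map, JJ,
    Matrix.fromBlocks_multiply, Matrix.fromBlocks_multiply] at h
  have h3 := congrArg Matrix.toBlocks₂₁ h
  rw [Matrix.toBlocks_fromBlocks₂₁, Matrix.toBlocks_fromBlocks₂₁] at h3
  simp only [Matrix.mul_zero, Matrix.mul_one, zero_add, add_zero,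
    Matrix.map_zero _ (map_zero σ)] at h3
  exact h3

/-- the last row of an upper unitriangular matrix -/
theorem row_last (l : ℕ) (K : Type*) [Field K] (i₀ : Fin l) (hi₀ : (i₀ : ℕ) + 1 = l)
    (A : Matrix (Fin l) (Fin l) K) (hA : IsUT l K A) (k : Fin l) :
    A i₀ k = if k = i₀ then 1 else 0 := by
  by_cases hk : k = i₀
  · rw [if_pos hk, hk]
    exact hA.2 i₀
  · rw [if_neg hk]
    apply hA.1
    have hk' := k.2
    have hne : (k : ℕ) ≠ (i₀ : ℕ) := fun h => hk (Fin.ext h)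
    rw [Fin.lt_def]
    omega

/-- the last column of the `D`-block of an element with `InU` -/
theorem col_last (l : ℕ) (K : Type*) [Field K] (σ : K →+* K) (i₀ : Fin l)
    (hi₀ : (i₀ : ℕ) + 1 = l) (g : GU l K σ) (hg : InU l K σ g) (k : Fin l) :
    (mat l K σ g).toBlocks₂₂ k i₀ = if k = i₀ then 1 else 0 := by
  have h0 : ((mat l K σ g).toBlocks₁₁.map σ)ᵀ * (mat l K σ g).toBlocks₂₂ = 1 := by
    have := congrArg Matrix.transpose (transpose_mul_of_inU l K σ g hg)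
    rw [Matrix.transpose_mul, Matrix.transpose_transpose, Matrix.transpose_one] at this
    exact this
  have h1 : (mat l K σ g).toBlocks₂₂ * ((mat l K σ g).toBlocks₁₁.map σ)ᵀ = 1 :=
    _root_.mul_eq_one_comm.1 h0
  have h2 := congrFun (congrFun h1 k) i₀
  rw [Matrix.mul_apply] at h2
  have h3 : ∀ j : Fin l, (mat l K σ g).toBlocks₂₂ k j *
      ((mat l K σ g).toBlocks₁₁.map σ)ᵀ j i₀
      = if j = i₀ then (mat l K σ g).toBlocks₂₂ k i₀ else 0 := by
    intro j
    rw [Matrix.transpose_apply, Matrix.map_apply, row_last l K i₀ hi₀ _ hg.2 j]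
    by_cases hj : j = i₀
    · rw [if_pos hj, if_pos hj, map_one, mul_one, hj]
    · rw [if_neg hj, if_neg hj, map_zero, mul_zero]
  rw [Finset.sum_congr rfl (fun j _ => h3 j), Finset.sum_ite_eq' Finset.univ i₀,
    if_pos (Finset.mem_univ _)] at h2
  rw [h2, Matrix.one_apply]

/-- the `(e_last, f_last)` entry is additive on `U` -/
theorem entry_mul (l : ℕ) (K : Type*) [Field K] (σ : K →+* K) (i₀ : Fin l)
    (hi₀ : (i₀ : ℕ) + 1 = l) (g h : GU l K σ) (hg : InU l K σ g) (hh : InU l K σ h) :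
    (mat l K σ (g * h)).toBlocks₁₂ i₀ i₀
      = (mat l K σ g).toBlocks₁₂ i₀ i₀ + (mat l K σ h).toBlocks₁₂ i₀ i₀ := by
  rw [mat_mul]
  conv_lhs => rw [mat_of_inU l K σ g hg, mat_of_inU l K σ h hh, Matrix.fromBlocks_multiply,
    Matrix.toBlocks_fromBlocks₁₂]
  rw [Matrix.add_apply, Matrix.mul_apply, Matrix.mul_apply]
  have h1 : ∀ k : Fin l, (mat l K σ g).toBlocks₁₁ i₀ k * (mat l K σ h).toBlocks₁₂ k i₀
      = if k = i₀ then (mat l K σ h).toBlocks₁₂ i₀ i₀ else 0 := by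
    intro k
    rw [row_last l K i₀ hi₀ _ hg.2 k]
    by_cases hk : k = i₀
    · rw [if_pos hk, if_pos hk, one_mul, hk]
    · rw [if_neg hk, if_neg hk, zero_mul]
  have h2 : ∀ k : Fin l, (mat l K σ g).toBlocks₁₂ i₀ k * (mat l K σ h).toBlocks₂₂ k i₀
      = if k = i₀ then (mat l K σ g).toBlocks₁₂ i₀ i₀ else 0 := by
    intro k
    rw [col_last l K σ i₀ hi₀ h hh k]
    by_cases hk : k = i₀
    · rw [if_pos hk, if_pos hk, mul_one, hk]
    · rw [if_neg hk, if_neg hk, mul_zero]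
  rw [Finset.sum_congr rfl (fun k _ => h1 k), Finset.sum_congr rfl (fun k _ => h2 k),
    Finset.sum_ite_eq' Finset.univ i₀, Finset.sum_ite_eq' Finset.univ i₀,
    if_pos (Finset.mem_univ _), if_pos (Finset.mem_univ _), add_comm]

/-- the entry of the identity -/
theorem entry_one (l : ℕ) (K : Type*) [Field K] (σ : K →+* K) (i₀ : Fin l) :
    (mat l K σ (1 : GU l K σ)).toBlocks₁₂ i₀ i₀ = 0 := by
  show (1 : Matrix (Fin l ⊕ Fin l) (Fin l ⊕ Fin l) K) (Sum.inl i₀) (Sum.inr i₀) = 0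
  exact Matrix.one_apply_ne (by simp)

/-- the entry of an inverse -/
theorem entry_inv (l : ℕ) (K : Type*) [Field K] (σ : K →+* K) (i₀ : Fin l)
    (hi₀ : (i₀ : ℕ) + 1 = l) (g : GU l K σ) (hg : InU l K σ g) (hg' : InU l K σ g⁻¹) :
    (mat l K σ g⁻¹).toBlocks₁₂ i₀ i₀ = - (mat l K σ g).toBlocks₁₂ i₀ i₀ := by
  have h := entry_mul l K σ i₀ hi₀ g g⁻¹ hg hg'
  rw [mul_inv_cancel, entry_one] at h
  exact eq_neg_of_add_eq_zero_right h.symm

/-- PIECE EP2 -/
theorem Plong_props (l : ℕ) (K : Type*) [Field K] (σ : K →+* K) (hσ : ∀ x, σ (σ x) = x)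
    (hl : 2 ≤ l) (U : Subgroup (GU l K σ)) (hU : ∀ g, g ∈ U ↔ InU l K σ g)
    (i₀ : Fin l) (hi₀ : (i₀ : ℕ) + 1 = l) (P : Subgroup (GU l K σ))
    (hP : ∀ g, g ∈ P ↔ g ∈ U ∧ (mat l K σ g).toBlocks₁₂ i₀ i₀ = 0) :
    (∀ u ∈ U, ∀ x ∈ P, u * x * u⁻¹ ∈ P) ∧ (∀ c ∈ U, (∀ x ∈ P, c * x = x * c) → c ∈ P) := by
  refine ⟨?_, ?_⟩
  · intro u hu x hx
    have hxU := ((hP x).1 hx).1
    have hx0 := ((hP x).1 hx).2
    rw [hP]
    refine ⟨U.mul_mem (U.mul_mem hu hxU) (U.inv_mem hu), ?_⟩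
    rw [entry_mul l K σ i₀ hi₀ (u * x) u⁻¹ ((hU _).1 (U.mul_mem hu hxU))
      ((hU _).1 (U.inv_mem hu)), entry_mul l K σ i₀ hi₀ u x ((hU _).1 hu) ((hU _).1 hxU),
      entry_inv l K σ i₀ hi₀ u ((hU _).1 hu) ((hU _).1 (U.inv_mem hu)), hx0]
    ring
  · intro c hc hcomm
    rw [hP]
    refine ⟨hc, ?_⟩
    have hcU := (hU c).1 hc
    -- the index before the last one
    have hi₀' := i₀.2
    obtain ⟨im, him⟩ : ∃ im : Fin l, (im : ℕ) + 1 = (i₀ : ℕ) :=
      ⟨⟨(i₀ : ℕ) - 1, by omega⟩, by simp only; omega⟩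
    have hne : im ≠ i₀ := by
      intro h
      rw [h] at him
      omega
    have hlt : im < i₀ := by
      rw [Fin.lt_def]; omega
    -- the transvection
    have hcoe : ((SpecialLinearGroup.transvection hne (1 : K) : SpecialLinearGroup (Fin l) K) :
        Matrix (Fin l) (Fin l) K) = (1 : Matrix (Fin l) (Fin l) K) + Matrix.single im i₀ 1 := rfl
    have hxUT : IsUT l K ((SpecialLinearGroup.transvection hne (1 : K) :
        SpecialLinearGroup (Fin l) K) : Matrix (Fin l) (Fin l) K) := by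
      rw [hcoe]
      refine ⟨?_, ?_⟩
      · intro i j hji
        rw [Matrix.add_apply, Matrix.one_apply_ne (ne_of_gt hji), zero_add, Matrix.single_apply,
          if_neg]
        rintro ⟨h1, h2⟩
        rw [← h1, ← h2] at hji
        exact absurd hji (not_lt.2 (le_of_lt hlt))
      · intro i
        rw [Matrix.add_apply, Matrix.one_apply_eq, Matrix.single_apply, if_neg, add_zero]
        rintro ⟨h1, h2⟩
        exact hne (h1.trans h2.symm)
    obtain ⟨x, hxdef⟩ : ∃ x : GU l K σ,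
        x = uphi l K σ hσ (SpecialLinearGroup.transvection hne (1 : K)) := ⟨_, rfl⟩
    have hxInU : InU l K σ x := by
      rw [hxdef]
      exact uphi_inU l K σ hσ _ hxUT
    have hx12 : (mat l K σ x).toBlocks₁₂ = 0 := by
      rw [hxdef, uphi_mat, Matrix.toBlocks_fromBlocks₁₂]
    have hx11 : (mat l K σ x).toBlocks₁₁
        = (1 : Matrix (Fin l) (Fin l) K) + Matrix.single im i₀ 1 := by
      rw [hxdef, uphi_mat, Matrix.toBlocks_fromBlocks₁₁, hcoe]
    have hxP : x ∈ P := by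
      rw [hP]
      refine ⟨(hU _).2 hxInU, ?_⟩
      rw [hx12]
      rfl
    have heq := hcomm _ hxP
    have heq1 : (mat l K σ (c * x)).toBlocks₁₂ im i₀ = (mat l K σ (x * c)).toBlocks₁₂ im i₀ := by
      rw [heq]
    have hL : (mat l K σ (c * x)).toBlocks₁₂ im i₀ = (mat l K σ c).toBlocks₁₂ im i₀ := by
      rw [mat_mul]
      conv_lhs => rw [mat_of_inU l K σ c hcU, mat_of_inU l K σ x hxInU,
        Matrix.fromBlocks_multiply, Matrix.toBlocks_fromBlocks₁₂]
      rw [hx12, Matrix.mul_zero, zero_add, Matrix.mul_apply]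
      have h2 : ∀ k : Fin l, (mat l K σ c).toBlocks₁₂ im k * (mat l K σ x).toBlocks₂₂ k i₀
          = if k = i₀ then (mat l K σ c).toBlocks₁₂ im i₀ else 0 := by
        intro k
        rw [col_last l K σ i₀ hi₀ x hxInU k]
        by_cases hk : k = i₀
        · rw [if_pos hk, if_pos hk, mul_one, hk]
        · rw [if_neg hk, if_neg hk, mul_zero]
      rw [Finset.sum_congr rfl (fun k _ => h2 k), Finset.sum_ite_eq' Finset.univ i₀,
        if_pos (Finset.mem_univ _)]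
    have hR : (mat l K σ (x * c)).toBlocks₁₂ im i₀
        = (mat l K σ c).toBlocks₁₂ im i₀ + (mat l K σ c).toBlocks₁₂ i₀ i₀ := by
      rw [mat_mul]
      conv_lhs => rw [mat_of_inU l K σ c hcU, mat_of_inU l K σ x hxInU,
        Matrix.fromBlocks_multiply, Matrix.toBlocks_fromBlocks₁₂]
      rw [hx12, Matrix.zero_mul, add_zero, hx11, Matrix.add_mul, Matrix.one_mul, Matrix.add_apply,
        Matrix.single_mul_apply_same, one_mul]
    rw [hL, hR] at heq1
    have := heq1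
    linear_combination -this

end Cfsg.Agent.Lib.Helper85.SuEP2
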