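import Cfsg.Agent.Lib.Helper24.TwCore
import Cfsg.Agent.Lib.Helper24.UProdA
import Cfsg.Agent.Lib.Helper26.Chk2
import Cfsg.Prelude.Def_LieTwisted

/-!
# Project TF4 (helper26), piece N: the two `n`-elements lie in `²F₄` (helper85)

`n1_mem_gen`: `n_{p₁} n_{p₄} = X₁(1) Y₁(1) X₁(1)` and `n2_mem_gen`:
`n_{p₂} n_{p₃} n_{p₂} n_{p₃} = Y(1,0) X(0,1) Y(1,1)` in characteristic two, by the kernel-checked
word identities `Chk2.f4_n1_chk`, `Chk2.f4_n2_chk`.  Stated for an arbitrary proof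
`h : chevF4 ∈ chevList` so that this file does not need the heavy closure of `TwF4Defs`:
`n1_mem e = n1_mem_gen hF4 e`, `n2_mem e he = n2_mem_gen hF4 e he`.
-/

set_option autoImplicit false

namespace Cfsg.Agent.Lib.Helper85.TF4N

open Cfsg.Lie Matrix Cfsg.Agent.Lib.Helper24 Cfsg.Agent.Lib.Helper26

set_option maxRecDepth 1000000 in
theorem tf4n_simple : chevF4.simple 0 = 33 ∧ chevF4.simple 1 = 27 ∧ chevF4.simple 2 = 25 ∧
    chevF4.simple 3 = 24 ∧ chevF4.neg 33 = 14 ∧ chevF4.neg 27 = 20 ∧ chevF4.neg 25 = 22 ∧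
    chevF4.neg 24 = 23 := by decide +kernel

theorem tf4n_pairU {K : Type*} [Field K] (h4 : chevF4 ∈ chevList) (e : ℕ) :
    xGL chevF4 h4 33 (1 : K) * xGL chevF4 h4 24 1 ∈ twistedF4 K e := by
  have h := wGL_mem_gen chevF4 h4 (f4Words K e) (f4PairWord e f4p1 f4p4 (1 : K))
    (Or.inl ⟨1, Or.inl rfl⟩)
  simp only [f4PairWord, f4p1, f4p4, one_pow, wGL_cons, wGL_nil, mul_one] at h
  exact h

theorem tf4n_pairV {K : Type*} [Field K] (h4 : chevF4 ∈ chevList) (e : ℕ) :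
    xGL chevF4 h4 14 (1 : K) * xGL chevF4 h4 23 1 ∈ twistedF4 K e := by
  have h := wGL_mem_gen chevF4 h4 (f4Words K e) (f4PairWord e f4m1 f4m4 (1 : K))
    (Or.inl ⟨1, Or.inr rfl⟩)
  simp only [f4PairWord, f4m1, f4m4, one_pow, wGL_cons, wGL_nil, mul_one] at h
  exact h

theorem tf4n_Y10 {K : Type*} [Field K] (h4 : chevF4 ∈ chevList) (e : ℕ) (he : e ≠ 0) :
    xGL chevF4 h4 20 (1 : K) * (xGL chevF4 h4 22 1 * xGL chevF4 h4 19 1) ∈ twistedF4 K e := by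
  have h := wGL_mem_gen chevF4 h4 (f4Words K e)
    (b2ClassWord e f4ma f4mb f4mab f4maab (1 : K) 0) (Or.inr ⟨1, 0, Or.inr rfl⟩)
  simp only [b2ClassWord, f4ma, f4mb, f4mab, f4maab, one_pow, add_zero,
    zero_pow (mul_ne_zero two_ne_zero he), wGL_cons, wGL_nil, mul_one, xGL_zero] at h
  exact h

theorem tf4n_X01 {K : Type*} [Field K] (h4 : chevF4 ∈ chevList) (e : ℕ) (he : e ≠ 0) :
    xGL chevF4 h4 28 (1 : K) * xGL chevF4 h4 30 1 ∈ twistedF4 K e := by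
  have h := wGL_mem_gen chevF4 h4 (f4Words K e)
    (b2ClassWord e f4a f4b f4ab f4aab (0 : K) 1) (Or.inr ⟨0, 1, Or.inl rfl⟩)
  simp only [b2ClassWord, f4a, f4b, f4ab, f4aab, one_pow, zero_add, zero_pow he,
    zero_pow (Nat.succ_ne_zero e), wGL_cons, wGL_nil, mul_one, one_mul, xGL_zero] at h
  exact h

theorem tf4n_Y11 {K : Type*} [Field K] [CharP K 2] (h4 : chevF4 ∈ chevList) (e : ℕ) :
    xGL chevF4 h4 20 (1 : K) * (xGL chevF4 h4 22 1 * xGL chevF4 h4 17 1) ∈ twistedF4 K e := by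
  have h := wGL_mem_gen chevF4 h4 (f4Words K e)
    (b2ClassWord e f4ma f4mb f4mab f4maab (1 : K) 1) (Or.inr ⟨1, 1, Or.inr rfl⟩)
  simp only [b2ClassWord, f4ma, f4mb, f4mab, f4maab, one_pow, CharTwo.add_self_eq_zero,
    wGL_cons, wGL_nil, mul_one, one_mul, xGL_zero] at h
  exact h

/-- `n_{p₁} n_{p₄} ∈ ²F₄` -/
theorem n1_mem_gen {K : Type*} [Field K] [CharP K 2] (h4 : chevF4 ∈ chevList) (e : ℕ) :
    nWordGL chevF4 h4 [0, 3] ∈ twistedF4 K e := by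
  have key := Chk2.wEq2_sound (F := K) chevF4 Chk2.preChk_F4 _ _ Chk2.f4_n1_chk 1 1 one_ne_zero
  simp only [Chk2.wEval2, List.map_cons, List.map_nil, evalM, wmat_cons, wmat_nil,
    Matrix.mul_one, Int.cast_one, Int.cast_neg, one_mul, pow_zero, zpow_zero, one_pow, mul_one,
    Matrix.mul_assoc] at key
  have e1 : nWordGL (F := K) chevF4 h4 [0, 3] =
      (xGL chevF4 h4 33 1 * xGL chevF4 h4 24 1) *
        ((xGL chevF4 h4 14 1 * xGL chevF4 h4 23 1) *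
          (xGL chevF4 h4 33 1 * xGL chevF4 h4 24 1)) := by
    apply Units.ext
    simp only [nWordGL, nGL, List.map_cons, List.map_nil, List.prod_cons, List.prod_nil,
      tf4n_simple.1, tf4n_simple.2.2.2.1, tf4n_simple.2.2.2.2.1, tf4n_simple.2.2.2.2.2.2.2,
      mul_one, Units.val_mul, xGL_val, Matrix.mul_assoc]
    exact key.symm
  rw [e1]
  exact Subgroup.mul_mem _ (tf4n_pairU h4 e)
    (Subgroup.mul_mem _ (tf4n_pairV h4 e) (tf4n_pairU h4 e))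

/-- `n_{p₂} n_{p₃} n_{p₂} n_{p₃} ∈ ²F₄` -/
theorem n2_mem_gen {K : Type*} [Field K] [CharP K 2] (h4 : chevF4 ∈ chevList) (e : ℕ)
    (he : e ≠ 0) : nWordGL chevF4 h4 [1, 2, 1, 2] ∈ twistedF4 K e := by
  have key := Chk2.wEq2_sound (F := K) chevF4 Chk2.preChk_F4 _ _ Chk2.f4_n2_chk 1 1 one_ne_zero
  simp only [Chk2.n2L, Chk2.n2R, Chk2.wEval2, List.map_cons, List.map_nil, evalM, wmat_cons,
    wmat_nil, Matrix.mul_one, Int.cast_one, Int.cast_neg, one_mul, pow_zero, zpow_zero, one_pow, mul_one,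
    Matrix.mul_assoc] at key
  have e1 : nWordGL (F := K) chevF4 h4 [1, 2, 1, 2] =
      (xGL chevF4 h4 20 1 * (xGL chevF4 h4 22 1 * xGL chevF4 h4 19 1)) *
        ((xGL chevF4 h4 28 1 * xGL chevF4 h4 30 1) *
          (xGL chevF4 h4 20 1 * (xGL chevF4 h4 22 1 * xGL chevF4 h4 17 1))) := by
    apply Units.ext
    simp only [nWordGL, nGL, List.map_cons, List.map_nil, List.prod_cons, List.prod_nil,
      tf4n_simple.2.1, tf4n_simple.2.2.1, tf4n_simple.2.2.2.2.2.1,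
      tf4n_simple.2.2.2.2.2.2.1, mul_one, Units.val_mul, xGL_val, Matrix.mul_assoc]
    exact key.symm
  rw [e1]
  exact Subgroup.mul_mem _ (tf4n_Y10 h4 e he)
    (Subgroup.mul_mem _ (tf4n_X01 h4 e he) (tf4n_Y11 h4 e))

end Cfsg.Agent.Lib.Helper85.TF4N
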