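import Mathlib
import Cfsg.Agent.Lib.Helper44.UDDefs

/-!
# S5655 (helper44), piece FIXCOUNT

A monomial matrix `y` with `Im (y - 1)` inside a two-dimensional span fixes all but at most four
basis vectors.
-/

set_option autoImplicit false
set_option linter.unusedSectionVars false
set_option linter.unusedVariables false

namespace Cfsg.Agent.Lib.Helper44.UD

open Matrix

section
variable {F : Type*} [Field F]

theorem udfixcount_col {n : ℕ} (y : Matrix (Fin n) (Fin n) F) (c i : Fin n) :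
    (y *ᵥ Pi.single c (1 : F)) i = y i c := by
  simp [Matrix.mulVec, dotProduct, Pi.single_apply]

/-- an upper triangular `3 × 3` matrix of rank at most two has a zero on the diagonal -/
theorem udfixcount_det (a1 a2 a3 b1 b2 b3 P1 P2 P3 Q1 Q2 Q3 : F)
    (h12 : 0 = a2 * P1 + b2 * Q1) (h13 : 0 = a3 * P1 + b3 * Q1) (h23 : 0 = a3 * P2 + b3 * Q2) :
    (a1 * P1 + b1 * Q1) * (a2 * P2 + b2 * Q2) * (a3 * P3 + b3 * Q3) = 0 := by
  linear_combination (-((a1 * P1 + b1 * Q1) * (a2 * P3 + b2 * Q3))) * h23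
    + (-((a1 * P2 + b1 * Q2) * (a3 * P3 + b3 * Q3) - (a3 * P2 + b3 * Q2) * (a1 * P3 + b1 * Q3)))
      * h12
    + ((a1 * P2 + b1 * Q2) * (a2 * P3 + b2 * Q3) - (a2 * P2 + b2 * Q2) * (a1 * P3 + b1 * Q3))
      * h13

end

theorem ud_fixcount {F : Type*} [Field F] [Fintype F] (q : ℕ) : FixCountStmt F := by
  classical
  intro n y hmono hyy hspan
  obtain ⟨p, p', hpp⟩ := hspan
  choose σ hσ using hmono
  have hmoved : ∀ c : Fin n, y *ᵥ Pi.single c 1 ≠ Pi.single c (1 : F) → y c c - 1 ≠ 0 := by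
    intro c hc h1
    apply hc
    have h2 : y c c = 1 := sub_eq_zero.mp h1
    have h3 : c = σ c := hσ c c (by rw [h2]; exact one_ne_zero)
    funext i
    rw [udfixcount_col]
    by_cases hi : i = c
    · rw [hi, h2, Pi.single_eq_same]
    · rw [Pi.single_eq_of_ne hi]
      by_contra h4
      exact hi ((hσ c i h4).trans h3.symm)
  have heval : ∀ c : Fin n, ∃ a b : F, ∀ i : Fin n,
      y i c - (Pi.single c (1 : F) : Fin n → F) i = a * p i + b * p' i := by
    intro c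
    obtain ⟨a, b, hab⟩ := hpp (Pi.single c 1)
    refine ⟨a, b, fun i => ?_⟩
    have h := congrFun hab i
    rw [Pi.sub_apply, udfixcount_col] at h
    rw [h]
    simp only [Pi.add_apply, Pi.smul_apply, smul_eq_mul]
  obtain ⟨Fx, hFx⟩ : ∃ Fx : Set (Fin n),
      Fx = {c : Fin n | y *ᵥ Pi.single c 1 = Pi.single c (1 : F)} := ⟨_, rfl⟩
  rw [← hFx]
  have hcount : Fx.ncard + Fxᶜ.ncard = n := by
    rw [Set.ncard_add_ncard_compl, Nat.card_eq_fintype_card, Fintype.card_fin]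
  by_contra hlt
  have h5 : 5 ≤ Fxᶜ.ncard := by omega
  obtain ⟨Mf, hMf⟩ : ∃ Mf : Finset (Fin n), Mf = Fxᶜ.toFinset := ⟨_, rfl⟩
  have hMfcard : 5 ≤ Mf.card := by
    rw [hMf, ← Set.ncard_eq_toFinset_card']
    exact h5
  have hMfmem : ∀ c, c ∈ Mf → y *ᵥ Pi.single c 1 ≠ Pi.single c (1 : F) := by
    intro c hc
    rw [hMf, Set.mem_toFinset, Set.mem_compl_iff, hFx, Set.mem_ofPred_eq] at hc
    exact hc
  obtain ⟨c3, hc3⟩ : ∃ c3, c3 ∈ Mf := Finset.card_pos.mp (by omega)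
  obtain ⟨c2, hc2, hc2n⟩ := Finset.exists_mem_notMem_of_card_lt_card (s := {c3, σ c3}) (t := Mf)
    (lt_of_le_of_lt Finset.card_le_two (by omega))
  obtain ⟨c1, hc1, hc1n⟩ := Finset.exists_mem_notMem_of_card_lt_card
    (s := {c3, σ c3, c2, σ c2}) (t := Mf) (lt_of_le_of_lt Finset.card_le_four (by omega))
  simp only [Finset.mem_insert, Finset.mem_singleton, not_or] at hc2n hc1n
  obtain ⟨h23, h2σ3⟩ := hc2n
  obtain ⟨h13, h1σ3, h12, h1σ2⟩ := hc1n
  have z12 : y c1 c2 = 0 := by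
    by_contra h
    exact h1σ2 (hσ c2 c1 h)
  have z13 : y c1 c3 = 0 := by
    by_contra h
    exact h1σ3 (hσ c3 c1 h)
  have z23 : y c2 c3 = 0 := by
    by_contra h
    exact h2σ3 (hσ c3 c2 h)
  obtain ⟨a1, b1, e1⟩ := heval c1
  obtain ⟨a2, b2, e2⟩ := heval c2
  obtain ⟨a3, b3, e3⟩ := heval c3
  have E11 := e1 c1
  have E22 := e2 c2
  have E33 := e3 c3
  have E12 := e2 c1
  have E13 := e3 c1
  have E23 := e3 c2
  rw [Pi.single_eq_same] at E11 E22 E33
  rw [Pi.single_eq_of_ne h12, z12, sub_zero] at E12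
  rw [Pi.single_eq_of_ne h13, z13, sub_zero] at E13
  rw [Pi.single_eq_of_ne h23, z23, sub_zero] at E23
  have hprod := udfixcount_det a1 a2 a3 b1 b2 b3 (p c1) (p c2) (p c3) (p' c1) (p' c2) (p' c3)
    E12 E13 E23
  rw [← E11, ← E22, ← E33] at hprod
  rcases mul_eq_zero.mp hprod with h | h
  · rcases mul_eq_zero.mp h with h | h
    · exact hmoved c1 (hMfmem c1 hc1) h
    · exact hmoved c2 (hMfmem c2 hc2) h
  · exact hmoved c3 (hMfmem c3 hc3) h

end Cfsg.Agent.Lib.Helper44.UD
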