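import Mathlib
import Cfsg.Agent.Lib.Helper44.UDDefs
import Cfsg.Agent.Lib.Helper44.UDKit
import Cfsg.Agent.Lib.Helper7.HermCount

/-!
# S5655 (helper44), piece K2REDUCE

From a transvection centre with nonzero coordinates in two different blocks, get a cross-block
weight-two centre `e_a + ε e_b` (glue from `UnitFStmt` and `T2AStmt`).
-/

set_option autoImplicit false
set_option linter.unusedSectionVars false
set_option linter.unusedVariables false

namespace Cfsg.Agent.Lib.Helper44.UD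

open Matrix Cfsg.Agent.Lib.Helper93 Cfsg.Agent.Lib.Helper18 Cfsg.Agent.Lib.Helper7

section
variable {F : Type*} [Field F] [Fintype F] {q n : ℕ}

/-- block-diagonal matrices -/
def udk2reduce_BD {t : ℕ} (blk : Fin n → Fin t) (A : Matrix (Fin n) (Fin n) F) : Prop :=
  ∀ i j, A i j ≠ 0 → blk i = blk j

theorem udk2reduce_BD_mul {t : ℕ} (blk : Fin n → Fin t) {A B : Matrix (Fin n) (Fin n) F}
    (hA : udk2reduce_BD blk A) (hB : udk2reduce_BD blk B) : udk2reduce_BD blk (A * B) := by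
  intro i j hij
  rw [Matrix.mul_apply] at hij
  obtain ⟨l, -, hl⟩ := Finset.exists_ne_zero_of_sum_ne_zero hij
  have h1 : A i l ≠ 0 := left_ne_zero_of_mul hl
  have h2 : B l j ≠ 0 := right_ne_zero_of_mul hl
  rw [hA i l h1, hB l j h2]

theorem udk2reduce_BD_qrefl (hF : Fintype.card F = q ^ 2) {t : ℕ} (blk : Fin n → Fin t)
    (f : Fin n → F) (c : Fin t) (hf : ∀ i, f i ≠ 0 → blk i = c) (s : F) :
    udk2reduce_BD blk (qrefl q n f s) := by
  intro i j hij
  have h1 := udk_col (qrefl q n f s) j i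
  rw [qrefl_mulVec, hf_single_left, Pi.add_apply, Pi.smul_apply, smul_eq_mul] at h1
  by_cases hi : f i = 0
  · rw [hi, mul_zero, add_zero] at h1
    by_contra hne
    apply hij
    rw [← h1, Pi.single_eq_of_ne]
    rintro rfl
    exact hne rfl
  · by_cases hj : f j = 0
    · rw [hj, zero_pow (herm_q_ne_zero hF), mul_zero, zero_mul, add_zero] at h1
      by_contra hne
      apply hij
      rw [← h1, Pi.single_eq_of_ne]
      rintro rfl
      exact hne rfl
    · rw [hf i hi, hf j hj]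

theorem udk2reduce_mem {t : ℕ} {blk : Fin n → Fin t} {X : Subgroup (GL (Fin n) F)}
    (hB : BlkIn q blk X) {A : Matrix (Fin n) (Fin n) F} (hpres : suPres q n A)
    (hdet : A.det = 1) (hbd : udk2reduce_BD blk A) : MIn X A := by
  obtain ⟨g, hg, hmem⟩ := exists_gl_of_pres hpres hdet
  refine ⟨g, hB g (Subgroup.mem_inf.mp hmem).1 (by rw [hg]; exact hdet)
    ⟨1, fun i j hij => ?_⟩, hg⟩
  rw [hg] at hij
  rw [Equiv.Perm.one_apply]
  exact hbd i j hij

theorem udk2reduce_pres_mul {A B : Matrix (Fin n) (Fin n) F} (hA : suPres q n A)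
    (hB : suPres q n B) : suPres q n (A * B) := by
  intro u v
  rw [← Matrix.mulVec_mulVec, ← Matrix.mulVec_mulVec, hA, hB]

theorem udk2reduce_hf2 (hF : Fintype.card F = q ^ 2) (v : Fin n → F) (i j : Fin n) (x y : F) :
    Cfsg.hermForm n F q v (x • Pi.single i 1 + y • Pi.single j 1) =
      v i * x ^ q + v j * y ^ q := by
  rw [hf_add_right hF, hf_smul_right, hf_smul_right, hf_single_right hF, hf_single_right hF]
  ring

theorem udk2reduce_f_apply (i j l : Fin n) (x y : F) :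
    (x • Pi.single i (1 : F) + y • Pi.single j (1 : F) : Fin n → F) l =
      (if l = i then x else 0) + (if l = j then y else 0) := by
  rw [Pi.add_apply, Pi.smul_apply, Pi.smul_apply, Pi.single_apply, Pi.single_apply]
  split_ifs <;> simp

theorem udk2reduce_ne_zero {s : F} (hs : s ^ (q + 1) = 1) : s ≠ 0 := by
  rintro rfl
  rw [zero_pow (Nat.succ_ne_zero q)] at hs
  exact zero_ne_one hs

theorem udk2reduce_pair (hF : Fintype.card F = q ^ 2) {t : ℕ} {blk : Fin n → Fin t}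
    {X : Subgroup (GL (Fin n) F)} (hB : BlkIn q blk X) (f f' : Fin n → F) (c c' : Fin t)
    (hfc : ∀ i, f i ≠ 0 → blk i = c) (hfc' : ∀ i, f' i ≠ 0 → blk i = c')
    (hff : Cfsg.hermForm n F q f f = 1) (hff' : Cfsg.hermForm n F q f' f' = 1) (s : F)
    (hs : s ^ (q + 1) = 1) : MIn X (qrefl q n f s * qrefl q n f' s⁻¹) := by
  have hs0 : s ≠ 0 := udk2reduce_ne_zero hs
  apply udk2reduce_mem hB
  · exact udk2reduce_pres_mul (fun u v => qrefl_preserves hF n f s hff hs u v)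
      (fun u v => qrefl_preserves hF n f' s⁻¹ hff' (by rw [inv_pow, hs, inv_one]) u v)
  · rw [Matrix.det_mul, qrefl_det n f s hff, qrefl_det n f' s⁻¹ hff', mul_inv_cancel₀ hs0]
  · exact udk2reduce_BD_mul blk (udk2reduce_BD_qrefl hF blk f c hfc s)
      (udk2reduce_BD_qrefl hF blk f' c' hfc' s⁻¹)

theorem udk2reduce_diag (hF : Fintype.card F = q ^ 2) {t : ℕ} {blk : Fin n → Fin t}
    {X : Subgroup (GL (Fin n) F)} (hB : BlkIn q blk X) (a b z : Fin n) (hab : a ≠ b)
    (hza : z ≠ a) (hzb : z ≠ b) (v : Fin n → F) (hvz : v z = 0) (ρa ρb : F)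
    (hρa : ρa ^ (q + 1) = 1) (hρb : ρb ^ (q + 1) = 1) :
    ∃ d : Matrix (Fin n) (Fin n) F, MIn X d ∧
      d *ᵥ v = v + ((ρa - 1) * v a) • Pi.single a 1 + ((ρb - 1) * v b) • Pi.single b 1 := by
  have hρa0 : ρa ≠ 0 := udk2reduce_ne_zero hρa
  have hρb0 : ρb ≠ 0 := udk2reduce_ne_zero hρb
  have hsingle : ∀ j : Fin n,
      Cfsg.hermForm n F q (Pi.single j (1 : F)) (Pi.single j 1) = 1 := by
    intro j
    rw [hf_single_right hF, Pi.single_eq_same]
  have hbd : ∀ (j : Fin n) (s : F), udk2reduce_BD blk (qrefl q n (Pi.single j (1 : F)) s) := by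
    intro j s
    apply udk2reduce_BD_qrefl hF blk _ (blk j)
    intro i hi
    by_contra hne
    apply hi
    rw [Pi.single_eq_of_ne]
    rintro rfl
    exact hne rfl
  refine ⟨qrefl q n (Pi.single a 1) ρa *
    (qrefl q n (Pi.single b 1) ρb * qrefl q n (Pi.single z 1) (ρa * ρb)⁻¹), ?_, ?_⟩
  · apply udk2reduce_mem hB
    · exact udk2reduce_pres_mul (fun u v => qrefl_preserves hF n _ ρa (hsingle a) hρa u v)
        (udk2reduce_pres_mul (fun u v => qrefl_preserves hF n _ ρb (hsingle b) hρb u v)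
          (fun u v => qrefl_preserves hF n _ _ (hsingle z)
            (by rw [inv_pow, mul_pow, hρa, hρb, mul_one, inv_one]) u v))
    · rw [Matrix.det_mul, Matrix.det_mul, qrefl_det n _ ρa (hsingle a),
        qrefl_det n _ ρb (hsingle b), qrefl_det n _ _ (hsingle z)]
      field_simp
    · exact udk2reduce_BD_mul blk (hbd a ρa) (udk2reduce_BD_mul blk (hbd b ρb) (hbd z _))
  · rw [← Matrix.mulVec_mulVec, ← Matrix.mulVec_mulVec, udk_refl_single_apply hF z, hvz,
      mul_zero, zero_smul, add_zero, udk_refl_single_apply hF b, udk_refl_single_apply hF a]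
    rw [Pi.add_apply, Pi.smul_apply, Pi.single_eq_of_ne hab, smul_zero, add_zero]
    abel

theorem udk2reduce_other {n t k : ℕ} (e : Fin n ≃ Fin t × Fin k) (hk : 2 ≤ k) (a : Fin n) :
    ∃ a2 : Fin n, a2 ≠ a ∧ blkOf e a2 = blkOf e a := by
  have : Nontrivial (Fin k) := Fin.nontrivial_iff_two_le.mpr hk
  obtain ⟨i', hi'⟩ := exists_ne (e a).2
  refine ⟨e.symm ((e a).1, i'), ?_, ?_⟩
  · intro h
    apply hi'
    have h1 := congrArg e h
    rw [Equiv.apply_symm_apply] at h1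
    rw [← h1]
  · unfold blkOf
    rw [Equiv.apply_symm_apply]

end

theorem ud_k2reduce {F : Type*} [Field F] [Fintype F] (q : ℕ) (h1 : UnitFStmt F q)
    (h2 : T2AStmt F q) : K2ReduceStmt F q := by
  classical
  intro hF n t k e hn hk X hX hB w hw hex
  obtain ⟨a, b, hwa, hwb, hab⟩ := hex
  have hX' : X ≤ Cfsg.GU n F q ⊓ Cfsg.Geo.specialLinear (Fin n) F := hX
  have hq := herm_two_le hF
  have hq0 := herm_q_ne_zero hF
  obtain ⟨a2, ha2, hba2⟩ := udk2reduce_other e hk a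
  obtain ⟨b2, hb2, hbb2⟩ := udk2reduce_other e hk b
  have hab' : a ≠ b := fun h => hab (by rw [h])
  have hab2 : a ≠ b2 := fun h => hab (by rw [h, hbb2])
  have ha2b : a2 ≠ b := fun h => hab (by rw [← hba2, h])
  have ha2b2 : a2 ≠ b2 := fun h => hab (by rw [← hba2, h, hbb2])
  obtain ⟨x, y, hxy, hη⟩ := h1 hF (w a) (w a2) 1 (Or.inl hwa) one_ne_zero (one_pow q)
  have hm1 : ((-1 : F)) ^ q = -1 := by rw [herm_neg_pow hF, one_pow]
  obtain ⟨x', y', hxy', hη'⟩ :=
    h1 hF (w b) (w b2) (-1) (Or.inl hwb) (neg_ne_zero.mpr one_ne_zero) hm1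
  obtain ⟨f, hf⟩ : ∃ f : Fin n → F, f = x • Pi.single a 1 + y • Pi.single a2 1 := ⟨_, rfl⟩
  obtain ⟨f', hf'⟩ : ∃ f' : Fin n → F, f' = x' • Pi.single b 1 + y' • Pi.single b2 1 :=
    ⟨_, rfl⟩
  obtain ⟨η, hηd⟩ : ∃ η : F, η = w a * x ^ q + w a2 * y ^ q := ⟨_, rfl⟩
  obtain ⟨η', hηd'⟩ : ∃ η' : F, η' = w b * x' ^ q + w b2 * y' ^ q := ⟨_, rfl⟩
  rw [← hηd] at hη
  rw [← hηd'] at hη'
  -- coordinates of `f`, `f'`
  have hfa : f a = x := by
    rw [hf, udk2reduce_f_apply, if_pos rfl, if_neg (Ne.symm ha2), add_zero]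
  have hfa2 : f a2 = y := by rw [hf, udk2reduce_f_apply, if_neg ha2, if_pos rfl, zero_add]
  have hfb : f b = 0 := by
    rw [hf, udk2reduce_f_apply, if_neg (Ne.symm hab'), if_neg (Ne.symm ha2b), add_zero]
  have hfb2 : f b2 = 0 := by
    rw [hf, udk2reduce_f_apply, if_neg (Ne.symm hab2), if_neg (Ne.symm ha2b2), add_zero]
  have hf'b : f' b = x' := by
    rw [hf', udk2reduce_f_apply, if_pos rfl, if_neg (Ne.symm hb2), add_zero]
  have hf'b2 : f' b2 = y' := by rw [hf', udk2reduce_f_apply, if_neg hb2, if_pos rfl, zero_add]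
  have hf'a : f' a = 0 := by rw [hf', udk2reduce_f_apply, if_neg hab', if_neg hab2, add_zero]
  have hf'a2 : f' a2 = 0 := by
    rw [hf', udk2reduce_f_apply, if_neg ha2b, if_neg ha2b2, add_zero]
  have hfz : ∀ i, i ≠ a → i ≠ a2 → f i = 0 := by
    intro i h1 h2
    rw [hf, udk2reduce_f_apply, if_neg h1, if_neg h2, add_zero]
  have hf'z : ∀ i, i ≠ b → i ≠ b2 → f' i = 0 := by
    intro i h1 h2
    rw [hf', udk2reduce_f_apply, if_neg h1, if_neg h2, add_zero]
  have hfsupp : ∀ i, f i ≠ 0 → blkOf e i = blkOf e a := by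
    intro i hi
    by_cases h1 : i = a
    · rw [h1]
    · by_cases h2 : i = a2
      · rw [h2, hba2]
      · exact absurd (hfz i h1 h2) hi
  have hf'supp : ∀ i, f' i ≠ 0 → blkOf e i = blkOf e b := by
    intro i hi
    by_cases h1 : i = b
    · rw [h1]
    · by_cases h2 : i = b2
      · rw [h2, hbb2]
      · exact absurd (hf'z i h1 h2) hi
  -- forms
  have hff : Cfsg.hermForm n F q f f = 1 := by
    have h3 := udk2reduce_hf2 hF f a a2 x y
    rw [← hf, hfa, hfa2] at h3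
    rw [h3, ← pow_succ', ← pow_succ']
    exact hxy
  have hff' : Cfsg.hermForm n F q f' f' = 1 := by
    have h3 := udk2reduce_hf2 hF f' b b2 x' y'
    rw [← hf', hf'b, hf'b2] at h3
    rw [h3, ← pow_succ', ← pow_succ']
    exact hxy'
  have hwf : Cfsg.hermForm n F q w f = η := by rw [hf, udk2reduce_hf2 hF, hηd]
  have hwf' : Cfsg.hermForm n F q w f' = η' := by rw [hf', udk2reduce_hf2 hF, hηd']
  have hf'f : Cfsg.hermForm n F q f' f = 0 := by
    have h3 := udk2reduce_hf2 hF f' a a2 x y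
    rw [← hf, hf'a, hf'a2] at h3
    rw [h3]
    ring
  have hfw : Cfsg.hermForm n F q f w = η ^ q := by rw [hf_conj hF n w f, hwf]
  have hf'w : Cfsg.hermForm n F q f' w = η' ^ q := by rw [hf_conj hF n w f', hwf']
  -- `s`
  obtain ⟨s, hs, hs1, hsm1⟩ : ∃ s : F, s ^ (q + 1) = 1 ∧ s ≠ 1 ∧ s ≠ -1 := by
    have h3 : (Finset.univ.filter (fun x : F => x ^ (q + 1) = 1)).card = q + 1 := by
      convert herm_card_norm_one hF (F := F)
    have h4 : ({1, -1} : Finset F).card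
        < (Finset.univ.filter (fun x : F => x ^ (q + 1) = 1)).card := by
      rw [h3]
      exact lt_of_le_of_lt Finset.card_le_two (by omega)
    obtain ⟨ρ, hρμ, hρn⟩ := Finset.exists_mem_notMem_of_card_lt_card h4
    rw [Finset.mem_filter] at hρμ
    rw [Finset.mem_insert, Finset.mem_singleton, not_or] at hρn
    exact ⟨ρ, hρμ.2, hρn.1, hρn.2⟩
  have hs0 : s ≠ 0 := udk2reduce_ne_zero hs
  have hsq : s ^ q = s⁻¹ := by
    have e1 : s * s ^ q = 1 := by rw [← pow_succ']; exact hs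
    exact eq_inv_of_mul_eq_one_right e1
  -- `d`
  have hd : MIn X (qrefl q n f s * qrefl q n f' s⁻¹) :=
    udk2reduce_pair hF hB f f' _ _ hfsupp hf'supp hff hff' s hs
  have hdw : (qrefl q n f s * qrefl q n f' s⁻¹) *ᵥ w =
      w + ((s⁻¹ - 1) * η') • f' + ((s - 1) * η) • f := by
    rw [← Matrix.mulVec_mulVec, qrefl_mulVec, qrefl_mulVec, hwf', hf_add_left, hf_smul_left,
      hwf, hf'f, mul_zero, add_zero]
  have hcen := hw.map hX' hd
  rw [hdw] at hcen
  obtain ⟨ξ, hξ⟩ : ∃ ξ : F, ξ = s - s⁻¹ := ⟨_, rfl⟩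
  have hξ0 : ξ ≠ 0 := by
    rw [hξ]
    intro h
    have h3 : s = s⁻¹ := sub_eq_zero.mp h
    have h4 : s * s = 1 := by
      have h5 : s * s = s * s⁻¹ := by rw [← h3]
      rw [h5, mul_inv_cancel₀ hs0]
    have h5 : (s - 1) * (s + 1) = 0 := by linear_combination h4
    rcases mul_eq_zero.mp h5 with h6 | h6
    · exact hs1 (sub_eq_zero.mp h6)
    · exact hsm1 (eq_neg_of_add_eq_zero_left h6)
  have hform : Cfsg.hermForm n F q (w + ((s⁻¹ - 1) * η') • f' + ((s - 1) * η) • f) w = ξ := by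
    rw [hf_add_left, hf_add_left, hf_smul_left, hf_smul_left, hw.1, hfw, hf'w, hξ]
    have e1 : η * η ^ q = 1 := by rw [← pow_succ']; exact hη
    have e2 : η' * η' ^ q = -1 := by rw [← pow_succ']; exact hη'
    linear_combination (s⁻¹ - 1) * e2 + (s - 1) * e1
  have hξq : ξ ^ q = -ξ := by
    rw [hξ, herm_sub_pow hF, inv_pow, hsq, inv_inv]
    ring
  have hc : (-ξ⁻¹) + (-ξ⁻¹) ^ q = 0 := by
    rw [herm_neg_pow hF, inv_pow, hξq, inv_neg]
    ring
  have hw2 := Cen.hyp hX' hw hcen (-ξ⁻¹) hc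
  rw [hform] at hw2
  obtain ⟨w2, hw2d⟩ : ∃ w2 : Fin n → F, w2 = ((s⁻¹ - 1) * η') • f' + ((s - 1) * η) • f :=
    ⟨_, rfl⟩
  have hw2eq : w + ((s⁻¹ - 1) * η') • f' + ((s - 1) * η) • f + (-ξ⁻¹ * ξ) • w = w2 := by
    rw [neg_mul, inv_mul_cancel₀ hξ0, neg_one_smul, hw2d]
    abel
  rw [hw2eq] at hw2
  have hw2app : ∀ i, w2 i = (s⁻¹ - 1) * η' * f' i + (s - 1) * η * f i := by
    intro i
    rw [hw2d, Pi.add_apply, Pi.smul_apply, Pi.smul_apply, smul_eq_mul, smul_eq_mul]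
  have hη0 : η ≠ 0 := by
    intro h
    rw [h, zero_pow (Nat.succ_ne_zero q)] at hη
    exact zero_ne_one hη
  have hη'0 : η' ≠ 0 := by
    intro h
    rw [h, zero_pow (Nat.succ_ne_zero q)] at hη'
    exact neg_ne_zero.mpr one_ne_zero hη'.symm
  have hs10 : s - 1 ≠ 0 := sub_ne_zero.mpr hs1
  have hsi10 : s⁻¹ - 1 ≠ 0 := by
    intro h
    apply hs1
    have h3 := sub_eq_zero.mp h
    rw [inv_eq_one] at h3
    exact h3
  obtain ⟨as, has, hasb, hw2as⟩ :
      ∃ as : Fin n, (as = a ∨ as = a2) ∧ blkOf e as = blkOf e a ∧ w2 as ≠ 0 := by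
    by_cases hx : x = 0
    · have hy : y ≠ 0 := by
        intro hy
        rw [hx, hy, zero_pow (Nat.succ_ne_zero q), add_zero] at hxy
        exact zero_ne_one hxy
      refine ⟨a2, Or.inr rfl, hba2, ?_⟩
      rw [hw2app, hf'a2, hfa2, mul_zero, zero_add]
      exact mul_ne_zero (mul_ne_zero hs10 hη0) hy
    · refine ⟨a, Or.inl rfl, rfl, ?_⟩
      rw [hw2app, hf'a, hfa, mul_zero, zero_add]
      exact mul_ne_zero (mul_ne_zero hs10 hη0) hx
  obtain ⟨bs, hbs, hbsb, hw2bs⟩ :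
      ∃ bs : Fin n, (bs = b ∨ bs = b2) ∧ blkOf e bs = blkOf e b ∧ w2 bs ≠ 0 := by
    by_cases hx : x' = 0
    · have hy : y' ≠ 0 := by
        intro hy
        rw [hx, hy, zero_pow (Nat.succ_ne_zero q), add_zero] at hxy'
        exact zero_ne_one hxy'
      refine ⟨b2, Or.inr rfl, hbb2, ?_⟩
      rw [hw2app, hf'b2, hfb2, mul_zero, add_zero]
      exact mul_ne_zero (mul_ne_zero hsi10 hη'0) hy
    · refine ⟨b, Or.inl rfl, rfl, ?_⟩
      rw [hw2app, hf'b, hfb, mul_zero, add_zero]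
      exact mul_ne_zero (mul_ne_zero hsi10 hη'0) hx
  obtain ⟨z, hz⟩ : ∃ z : Fin n, z ∉ ({a, a2, b, b2} : Finset (Fin n)) := by
    by_contra hcon
    push Not at hcon
    have h3 : (Finset.univ : Finset (Fin n)) ⊆ {a, a2, b, b2} := fun z _ => hcon z
    have h4 := Finset.card_le_card h3
    rw [Finset.card_univ, Fintype.card_fin] at h4
    have h5 : ({a, a2, b, b2} : Finset (Fin n)).card ≤ 4 := Finset.card_le_four
    omega
  simp only [Finset.mem_insert, Finset.mem_singleton, not_or] at hz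
  obtain ⟨hza, hza2, hzb, hzb2⟩ := hz
  have hw2z : w2 z = 0 := by
    rw [hw2app, hfz z hza hza2, hf'z z hzb hzb2]
    ring
  have hzas : z ≠ as := by
    rcases has with h | h
    · rw [h]; exact hza
    · rw [h]; exact hza2
  have hzbs : z ≠ bs := by
    rcases hbs with h | h
    · rw [h]; exact hzb
    · rw [h]; exact hzb2
  have hasbs : blkOf e as ≠ blkOf e bs := by
    rw [hasb, hbsb]
    exact hab
  have hne : as ≠ bs := fun h => hasbs (by rw [h])
  obtain ⟨ε, hε, hcenε⟩ := h2 hF n X (hX'.trans inf_le_left) w2 hw2 as bs hne hw2as hw2bs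
    (fun ρa ρb hρa hρb _ =>
      udk2reduce_diag hF hB as bs z hne hzas hzbs w2 hw2z ρa ρb hρa hρb)
  exact ⟨as, bs, ε, hasbs, hε, hcenε⟩

end Cfsg.Agent.Lib.Helper44.UD
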