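import Mathlib
import Cfsg.Agent.Lib.Helper44.UDDefs
import Cfsg.Agent.Lib.Helper7.HermCount

/-!
# S5655 (helper44), piece T2A

From a transvection centre `w` with `w a, w b ≠ 0` and enough diagonal-like elements, get the
weight-two centre `e_a + ε e_b`.
-/

set_option autoImplicit false
set_option linter.unusedSectionVars false
set_option linter.unusedVariables false

namespace Cfsg.Agent.Lib.Helper44.UD

open Matrix Cfsg.Agent.Lib.Helper93 Cfsg.Agent.Lib.Helper18 Cfsg.Agent.Lib.Helper7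

section
variable {F : Type*} [Field F] [Fintype F]

theorem udt2a_map {q N : ℕ} {Y : Subgroup (GL (Fin N) F)} (hY : Y ≤ Cfsg.GU N F q)
    {v : Fin N → F} (hv : Cen q Y v) {P : Matrix (Fin N) (Fin N) F} (hP : MIn Y P) :
    Cen q Y (P *ᵥ v) := by
  have hpres : suPres q N P := by
    obtain ⟨t, ht, rfl⟩ := hP
    exact hY ht
  refine ⟨by rw [hpres]; exact hv.1, fun c hc => ?_⟩
  exact MIn.conj hP (hv.2 c hc) (conj_transvection P hpres v c)

theorem udt2a_t {q : ℕ} (hF : Fintype.card F = q ^ 2) (ρ : F) :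
    (1 - ρ) ^ (q + 1) = (1 - ρ) * (1 - ρ ^ q) := by
  rw [pow_succ', herm_sub_pow hF, one_pow]

/-- the pigeonhole: the values `N(1 - ρ)`, `ρ ∈ μ ∖ {1}`, meet every `F_q^×`-multiple of
themselves -/
theorem udt2a_pigeon {q : ℕ} (hF : Fintype.card F = q ^ 2) (r : F) (hr0 : r ≠ 0)
    (hr : r ^ q = r) :
    ∃ ρa ρb : F, ρa ^ (q + 1) = 1 ∧ ρb ^ (q + 1) = 1 ∧ ρa ≠ 1 ∧ ρb ≠ 1 ∧
      (1 - ρa) ^ (q + 1) = r * (1 - ρb) ^ (q + 1) := by
  classical
  have hq := herm_two_le hF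
  obtain ⟨S, hS⟩ : ∃ S : Finset F, S = Finset.univ.filter (fun ρ : F => ρ ^ (q + 1) = 1 ∧ ρ ≠ 1) :=
    ⟨_, rfl⟩
  have hSmem : ∀ ρ : F, ρ ∈ S ↔ (ρ ^ (q + 1) = 1 ∧ ρ ≠ 1) := by
    intro ρ
    rw [hS, Finset.mem_filter]
    simp
  have hScard : q ≤ S.card := by
    have h1 : (Finset.univ.filter (fun x : F => x ^ (q + 1) = 1)).card = q + 1 := by
      convert herm_card_norm_one hF (F := F)
    have h2 : S = (Finset.univ.filter (fun x : F => x ^ (q + 1) = 1)).erase 1 := by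
      ext x
      rw [hSmem, Finset.mem_erase, Finset.mem_filter]
      simp [and_comm]
    rw [h2, Finset.card_erase_of_mem (by simp), h1]
    omega
  obtain ⟨Fq, hFq⟩ : ∃ Fq : Finset F,
      Fq = (Finset.univ.filter (fun c : F => c ^ q = c)).erase 0 := ⟨_, rfl⟩
  have hFqmem : ∀ c : F, c ∈ Fq ↔ (c ≠ 0 ∧ c ^ q = c) := by
    intro c
    rw [hFq, Finset.mem_erase, Finset.mem_filter]
    simp
  have hFqcard : Fq.card ≤ q - 1 := by
    have h0 : (Finset.univ.filter (fun c : F => c ^ q = c)).card ≤ q := by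
      have h := Polynomial.card_le_degree_of_subset_roots
        (p := (Polynomial.X ^ q - Polynomial.X : Polynomial F))
        (Z := Finset.univ.filter (fun c : F => c ^ q = c)) (by
          intro c hc
          rw [Finset.mem_val, Finset.mem_filter] at hc
          rw [Polynomial.mem_roots (FiniteField.X_pow_card_sub_X_ne_zero F (by omega))]
          simp [hc.2])
      rwa [FiniteField.X_pow_card_sub_X_natDegree_eq F (by omega)] at h
    rw [hFq, Finset.card_erase_of_mem (by simp [zero_pow (by omega : q ≠ 0)])]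
    omega
  obtain ⟨t, ht⟩ : ∃ t : F → F, t = fun ρ => (1 - ρ) ^ (q + 1) := ⟨_, rfl⟩
  have htmem : ∀ ρ ∈ S, t ρ ∈ Fq := by
    intro ρ hρ
    rw [hSmem] at hρ
    rw [hFqmem, ht]
    exact ⟨pow_ne_zero _ (sub_ne_zero.mpr (Ne.symm hρ.2)), herm_norm_fixed hF _⟩
  have hfib : ∀ m ∈ S.image t, (S.filter (fun ρ => t ρ = m)).card ≤ 2 := by
    intro m hm
    obtain ⟨ρ₁, hρ₁, rfl⟩ := Finset.mem_image.mp hm
    have hsub : S.filter (fun ρ => t ρ = t ρ₁) ⊆ {ρ₁, ρ₁ ^ q} := by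
      intro ρ hρ
      rw [Finset.mem_filter, hSmem] at hρ
      rw [hSmem] at hρ₁
      rw [Finset.mem_insert, Finset.mem_singleton]
      have e1 : ρ * ρ ^ q = 1 := by rw [← pow_succ']; exact hρ.1.1
      have e2 : ρ₁ * ρ₁ ^ q = 1 := by rw [← pow_succ']; exact hρ₁.1
      have e3 : (1 - ρ) * (1 - ρ ^ q) = (1 - ρ₁) * (1 - ρ₁ ^ q) := by
        have h := hρ.2
        rw [ht] at h
        simp only at h
        rw [udt2a_t hF, udt2a_t hF] at h
        exact h
      have key : (ρ - ρ₁) * (ρ - ρ₁ ^ q) = 0 := by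
        linear_combination (-ρ) * e3 - (1 - ρ) * e1 + (1 - ρ) * e2
      rcases mul_eq_zero.mp key with h | h
      · exact Or.inl (sub_eq_zero.mp h)
      · exact Or.inr (sub_eq_zero.mp h)
    exact le_trans (Finset.card_le_card hsub) Finset.card_le_two
  have hA : S.card ≤ 2 * (S.image t).card := Finset.card_le_mul_card_image S 2 hfib
  obtain ⟨A, hAdef⟩ : ∃ A : Finset F, A = S.image t := ⟨_, rfl⟩
  obtain ⟨B, hBdef⟩ : ∃ B : Finset F, B = A.image (fun x => r * x) := ⟨_, rfl⟩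
  rw [← hAdef] at hA
  have hBcard : B.card = A.card := by
    rw [hBdef]
    exact Finset.card_image_of_injective _ (mul_right_injective₀ hr0)
  have hAsub : A ⊆ Fq := by
    intro x hx
    rw [hAdef] at hx
    obtain ⟨ρ, hρ, rfl⟩ := Finset.mem_image.mp hx
    exact htmem ρ hρ
  have hBsub : B ⊆ Fq := by
    intro x hx
    rw [hBdef] at hx
    obtain ⟨y, hy, rfl⟩ := Finset.mem_image.mp hx
    have hy' := hAsub hy
    rw [hFqmem] at hy' ⊢
    exact ⟨mul_ne_zero hr0 hy'.1, by rw [mul_pow, hr, hy'.2]⟩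
  have hlt : Fq.card < A.card + B.card := by
    rw [hBcard]
    omega
  obtain ⟨x, hx⟩ := Finset.inter_nonempty_of_card_lt_card_add_card hAsub hBsub hlt
  rw [Finset.mem_inter, hAdef] at hx
  obtain ⟨hx1, hx2⟩ := hx
  rw [hBdef] at hx2
  obtain ⟨ρa, hρa, hxa⟩ := Finset.mem_image.mp hx1
  obtain ⟨y, hy, hxy⟩ := Finset.mem_image.mp hx2
  rw [hAdef] at hy
  obtain ⟨ρb, hρb, hyb⟩ := Finset.mem_image.mp hy
  rw [hSmem] at hρa hρb
  refine ⟨ρa, ρb, hρa.1, hρb.1, hρa.2, hρb.2, ?_⟩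
  have e : t ρa = r * t ρb := by rw [hxa, hyb, hxy]
  rw [ht] at e
  exact e

theorem udt2a_core {q : ℕ} (hF : Fintype.card F = q ^ 2) {N : ℕ}
    {Y : Subgroup (GL (Fin N) F)} (hY : Y ≤ Cfsg.GU N F q)
    {w : Fin N → F} (hw : Cen q Y w) {a b : Fin N} (hab : a ≠ b) (hwa : w a ≠ 0)
    (ρa ρb : F) (hρa1 : ρa ≠ 1)
    (d : Matrix (Fin N) (Fin N) F) (hd : MIn Y d)
    (hdw : d *ᵥ w = w + ((ρa - 1) * w a) • Pi.single a 1 + ((ρb - 1) * w b) • Pi.single b 1)
    (htr : ((ρa - 1) * w a ^ (q + 1) + (ρb - 1) * w b ^ (q + 1))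
      + ((ρa - 1) * w a ^ (q + 1) + (ρb - 1) * w b ^ (q + 1)) ^ q = 0)
    (hξ0 : (ρa - 1) * w a ^ (q + 1) + (ρb - 1) * w b ^ (q + 1) ≠ 0) :
    ∃ ε : F, ε ^ (q + 1) = -1 ∧ Cen q Y (Pi.single a 1 + ε • Pi.single b 1) := by
  classical
  obtain ⟨ξ, hξ⟩ : ∃ ξ : F, ξ = (ρa - 1) * w a ^ (q + 1) + (ρb - 1) * w b ^ (q + 1) := ⟨_, rfl⟩
  rw [← hξ] at htr hξ0
  have hw' : Cen q Y (d *ᵥ w) := udt2a_map hY hw hd
  have hhw : Cfsg.hermForm N F q (d *ᵥ w) w = ξ := by
    rw [hdw, hf_add_left, hf_add_left, hf_smul_left, hf_smul_left, hf_single_left,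
      hf_single_left, hw.1, hξ, pow_succ' (w a), pow_succ' (w b)]
    ring
  have hξq : ξ ^ q = -ξ := by linear_combination htr
  have hc : (-ξ⁻¹) + (-ξ⁻¹) ^ q = 0 := by
    rw [herm_neg_pow hF, inv_pow, hξq, inv_neg]
    ring
  have h3 := udt2a_map hY hw' (hw.2 _ hc)
  rw [unitaryTransvection_mulVec, hhw, neg_mul, inv_mul_cancel₀ hξ0, hdw] at h3
  have hα : (ρa - 1) * w a ≠ 0 := mul_ne_zero (sub_ne_zero.mpr hρa1) hwa
  have h4 := Cen.smul hF h3 ((ρa - 1) * w a)⁻¹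
  have hvec : ((ρa - 1) * w a)⁻¹ • (w + ((ρa - 1) * w a) • (Pi.single a 1 : Fin N → F)
        + ((ρb - 1) * w b) • Pi.single b 1 + (-1 : F) • w)
      = Pi.single a 1 + (((ρa - 1) * w a)⁻¹ * ((ρb - 1) * w b)) • Pi.single b 1 := by
    have e : w + ((ρa - 1) * w a) • (Pi.single a 1 : Fin N → F)
          + ((ρb - 1) * w b) • Pi.single b 1 + (-1 : F) • w
        = ((ρa - 1) * w a) • (Pi.single a 1 : Fin N → F)
          + ((ρb - 1) * w b) • Pi.single b 1 := by
      rw [neg_one_smul]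
      abel
    rw [e, smul_add, smul_smul, smul_smul, inv_mul_cancel₀ hα, one_smul]
  rw [hvec] at h4
  refine ⟨_, ?_, h4⟩
  have hiso := h4.1
  rw [hf_add_left, hf_smul_left, hf_single_left, hf_single_left] at hiso
  simp only [Pi.add_apply, Pi.smul_apply, Pi.single_eq_same, Pi.single_eq_of_ne hab,
    Pi.single_eq_of_ne hab.symm, smul_eq_mul, mul_zero, mul_one, add_zero, zero_add,
    one_pow] at hiso
  rw [pow_succ']
  linear_combination hiso

end

theorem ud_t2a {F : Type*} [Field F] [Fintype F] (q : ℕ) : T2AStmt F q := by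
  classical
  intro hF N Y hY w hw a b hab hwa hwb H
  have hq := herm_two_le hF
  obtain ⟨νa, hνa⟩ : ∃ νa : F, νa = w a ^ (q + 1) := ⟨_, rfl⟩
  obtain ⟨νb, hνb⟩ : ∃ νb : F, νb = w b ^ (q + 1) := ⟨_, rfl⟩
  have hνa0 : νa ≠ 0 := by rw [hνa]; exact pow_ne_zero _ hwa
  have hνb0 : νb ≠ 0 := by rw [hνb]; exact pow_ne_zero _ hwb
  have hνaq : νa ^ q = νa := by rw [hνa]; exact herm_norm_fixed hF _
  have hνbq : νb ^ q = νb := by rw [hνb]; exact herm_norm_fixed hF _
  have hchoice : ∃ ρa ρb : F, ρa ^ (q + 1) = 1 ∧ ρb ^ (q + 1) = 1 ∧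
      (νa + νb = 0 → ρa * ρb = 1) ∧ ρa ≠ 1 ∧
      ((ρa - 1) * νa + (ρb - 1) * νb) + ((ρa - 1) * νa + (ρb - 1) * νb) ^ q = 0 ∧
      (ρa - 1) * νa + (ρb - 1) * νb ≠ 0 := by
    by_cases hsum : νa + νb = 0
    · -- case (i)
      have h1 : (Finset.univ.filter (fun x : F => x ^ (q + 1) = 1)).card = q + 1 := by
        convert herm_card_norm_one hF (F := F)
      have h2 : ({1, -1} : Finset F).card
          < (Finset.univ.filter (fun x : F => x ^ (q + 1) = 1)).card := by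
        rw [h1]
        exact lt_of_le_of_lt Finset.card_le_two (by omega)
      obtain ⟨ρ, hρμ, hρn⟩ := Finset.exists_mem_notMem_of_card_lt_card h2
      rw [Finset.mem_filter] at hρμ
      rw [Finset.mem_insert, Finset.mem_singleton, not_or] at hρn
      have hρ := hρμ.2
      have e1 : ρ * ρ ^ q = 1 := by rw [← pow_succ']; exact hρ
      have hne : ρ ^ q ≠ ρ := by
        intro h
        rw [h] at e1
        have h3 : (ρ - 1) * (ρ + 1) = 0 := by linear_combination e1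
        rcases mul_eq_zero.mp h3 with h4 | h4
        · exact hρn.1 (sub_eq_zero.mp h4)
        · exact hρn.2 (eq_neg_of_add_eq_zero_left h4)
      refine ⟨ρ, ρ ^ q, hρ, ?_, fun _ => e1, hρn.1, ?_, ?_⟩
      · rw [← pow_mul, mul_comm, pow_mul, hρ, one_pow]
      · rw [herm_add_pow hF, mul_pow, mul_pow, herm_sub_pow hF, herm_sub_pow hF,
          herm_pow_pow hF, one_pow, hνaq, hνbq]
        linear_combination (ρ + ρ ^ q - 2) * hsum
      · intro h0
        have h3 : νa * (ρ - ρ ^ q) = 0 := by linear_combination h0 - (ρ ^ q - 1) * hsum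
        rcases mul_eq_zero.mp h3 with h4 | h4
        · exact hνa0 h4
        · exact hne (sub_eq_zero.mp h4).symm
    · -- case (ii)
      obtain ⟨r, hrdef⟩ : ∃ r : F, r = -νb / νa := ⟨_, rfl⟩
      have hr1 : νa * r = -νb := by
        rw [hrdef]
        field_simp
      have hr0 : r ≠ 0 := by
        intro h
        rw [h, mul_zero] at hr1
        exact hνb0 (neg_eq_zero.mp hr1.symm)
      have hrq : r ^ q = r := by
        have h1 : (νa * r) ^ q = (-νb) ^ q := by rw [hr1]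
        rw [mul_pow, hνaq, herm_neg_pow hF, hνbq, ← hr1] at h1
        exact mul_left_cancel₀ hνa0 h1
      obtain ⟨ρa, ρb, hρa, hρb, hρa1, hρb1, hpig⟩ := udt2a_pigeon hF r hr0 hrq
      rw [udt2a_t hF, udt2a_t hF] at hpig
      have ea : ρa * ρa ^ q = 1 := by rw [← pow_succ']; exact hρa
      have eb : ρb * ρb ^ q = 1 := by rw [← pow_succ']; exact hρb
      have hrel : νa * ((1 - ρa) * (1 - ρa ^ q)) + νb * ((1 - ρb) * (1 - ρb ^ q)) = 0 := by
        rw [hpig]
        linear_combination ((1 - ρb) * (1 - ρb ^ q)) * hr1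
      have hTB : (1 - ρb) * (1 - ρb ^ q) ≠ 0 := by
        rw [← udt2a_t hF]
        exact pow_ne_zero _ (sub_ne_zero.mpr (Ne.symm hρb1))
      refine ⟨ρa, ρb, hρa, hρb, fun h => absurd h hsum, hρa1, ?_, ?_⟩
      · rw [herm_add_pow hF, mul_pow, mul_pow, herm_sub_pow hF, herm_sub_pow hF, one_pow,
          hνaq, hνbq]
        linear_combination -hrel + νa * ea + νb * eb
      · intro h0
        have h1 : (ρa - 1) * νa = -((ρb - 1) * νb) := by linear_combination h0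
        have h2 : (ρa ^ q - 1) * νa = -((ρb ^ q - 1) * νb) := by
          have h : ((ρa - 1) * νa) ^ q = (-((ρb - 1) * νb)) ^ q := by rw [h1]
          rw [mul_pow, herm_sub_pow hF, one_pow, hνaq, herm_neg_pow hF, mul_pow,
            herm_sub_pow hF, one_pow, hνbq] at h
          exact h
        have hI : (1 - ρa) * (1 - ρa ^ q) * νa ^ 2 = (1 - ρb) * (1 - ρb ^ q) * νb ^ 2 := by
          linear_combination ((ρa ^ q - 1) * νa) * h1 - ((ρb - 1) * νb) * h2
        have h5 : (1 - ρb) * (1 - ρb ^ q) * νb * (νa + νb) = 0 := by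
          linear_combination -hI + νa * hrel
        rcases mul_eq_zero.mp h5 with h6 | h6
        · rcases mul_eq_zero.mp h6 with h7 | h7
          · exact hTB h7
          · exact hνb0 h7
        · exact hsum h6
  obtain ⟨ρa, ρb, hρa, hρb, hside, hρa1, htr, hξ0⟩ := hchoice
  rw [hνa, hνb] at hside htr hξ0
  obtain ⟨d, hd, hdw⟩ := H ρa ρb hρa hρb hside
  exact udt2a_core hF hY hw hab hwa ρa ρb hρa1 d hd hdw htr hξ0

end Cfsg.Agent.Lib.Helper44.UD
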