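import Cfsg.Agent.Lib.Helper22.W2Defs
import Cfsg.Agent.Lib.Helper33.TIFour

/-!
# Project W2 (helper22, S4707), piece FCINV: Fourier inversion for `fc`.
-/

set_option autoImplicit false

namespace Cfsg.Agent.Lib.Helper85.W2

open Cfsg Cfsg.Agent.Lib.Helper22.W2
open scoped ComplexConjugate

universe u

variable {G : Type u} [Group G] [Fintype G]

/-- PIECE FCINV -/
theorem fc_inv (p : ℕ) [Fact p.Prime] (w : ℂ) (hw : IsPrimitiveRoot w p) (z : G) (χ : G → ℂ)
    (t : ZMod p) : χ (z ^ t.val) = ∑ u : ZMod p, fc p w z χ u * w ^ (u * t).val := by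
  refine (Cfsg.Agent.Lib.Helper33.TI.fourier_inv p w hw (fun t' => χ (z ^ t'.val)) t).symm.trans ?_
  apply Finset.sum_congr rfl
  intro b _
  unfold fc
  rw [mul_comm]

end Cfsg.Agent.Lib.Helper85.W2
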